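import Cfsg.Agent.Lib.SUMult.Torus
import Cfsg.Agent.Lib.ClassicalForms.Unitary.Card

/-!
Orders of the groups and of their monomial subgroups.
-/

set_option autoImplicit false
set_option linter.unusedSectionVars false
set_option linter.style.haveILetI false

namespace CfsgLib.SUMult

open CfsgLib.SUAmalgam CfsgLib.ClassicalForms

universe u

variable {F : Type u} [Field F] [Fintype F] {q k : ℕ}

theorem card_su_three (hF : Fintype.card F = q ^ 2) :
    Nat.card (SUg 3 F q) = q ^ 3 * ((q ^ 2 - 1) * (q ^ 3 + 1)) := by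
  have hF' : Nat.card F = q ^ 2 := by rw [Nat.card_eq_fintype_card, hF]
  have h := (card_gu_eq_mul_su (n := 3) hF' (by norm_num)).symm.trans (card_gu hF' 3)
  have he : Even (2 : ℕ) := even_two
  simp only [Finset.prod_range_succ, Finset.prod_range_zero, Nat.reduceMul, Nat.reduceSub,
    Nat.reduceDiv, Nat.reduceAdd, pow_one, Even.zero, if_true, he, if_neg (show ¬ Even 1 by decide),
    one_mul] at h
  refine Nat.eq_of_mul_eq_mul_left (show 0 < q + 1 by omega) ?_
  rw [h]; ring

theorem card_su_five_two (hF : Fintype.card F = 2 ^ 2) : Nat.card (SUg 5 F 2) = 13685760 := by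
  have hF' : Nat.card F = 2 ^ 2 := by rw [Nat.card_eq_fintype_card, hF]
  have h := (card_gu_eq_mul_su (n := 5) hF' (by norm_num)).symm.trans (card_gu hF' 5)
  norm_num [Finset.prod_range_succ, Nat.even_iff] at h ⊢
  change 3 * Nat.card (SUg 5 F 2) = _ at h
  omega

theorem card_su_five_three (hF : Fintype.card F = 3 ^ 2) :
    Nat.card (SUg 5 F 3) = 3 ^ 10 * (2 ^ 11 * 2135) := by
  have hF' : Nat.card F = 3 ^ 2 := by rw [Nat.card_eq_fintype_card, hF]
  have h := (card_gu_eq_mul_su (n := 5) hF' (by norm_num)).symm.trans (card_gu hF' 5)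
  norm_num [Finset.prod_range_succ, Nat.even_iff] at h ⊢
  change 4 * Nat.card (SUg 5 F 3) = _ at h
  omega

/-- A subgroup carrying the whole `ℓ`-part has index prime to `ℓ`. -/
theorem not_dvd_index {G : Type u} [Group G] [Finite G] (H : Subgroup G) {ℓ A r : ℕ} (hℓ : ℓ.Prime)
    (hG : Nat.card G = ℓ ^ A * r) (hr : ¬ ℓ ∣ r) (hH : ℓ ^ A ∣ Nat.card H) : ¬ ℓ ∣ H.index := by
  intro h
  have h1 : ℓ ^ A * ℓ ∣ ℓ ^ A * r := hG ▸ H.card_mul_index ▸ Nat.mul_dvd_mul hH h
  exact hr (Nat.dvd_of_mul_dvd_mul_left (pow_pos hℓ.pos A) h1)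

/-- An element outside normalising a subgroup, with prime power inside, multiplies the order. -/
theorem mul_card_dvd {G : Type u} [Group G] [Finite G] {T H : Subgroup G} (hTH : T ≤ H) {g : G}
    (hg : g ∈ H) (hn : g ∈ Subgroup.normalizer (T : Set G)) {ℓ : ℕ} [hℓ : Fact ℓ.Prime] (hgT : g ∉ T)
    (hp : g ^ ℓ ∈ T) : ℓ * Nat.card T ∣ Nat.card H := by
  let N := Subgroup.normalizer (T : Set G)
  let T' : Subgroup N := T.subgroupOf N
  haveI : T'.Normal := Subgroup.normal_in_normalizer
  have hTN : T ≤ N := Subgroup.le_normalizer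
  have hord : orderOf (QuotientGroup.mk' T' ⟨g, hn⟩) = ℓ := by
    refine orderOf_eq_prime ?_ fun e => hgT ?_
    · rw [← map_pow]
      exact (QuotientGroup.eq_one_iff _).2 (show g ^ ℓ ∈ T from hp)
    · exact (QuotientGroup.eq_one_iff (⟨g, hn⟩ : N)).1 e
  let H' : Subgroup N := H.subgroupOf N
  have hdvd : ℓ ∣ Nat.card (H'.map (QuotientGroup.mk' T')) := by
    rw [← hord]
    exact Subgroup.orderOf_dvd_natCard _ ⟨⟨g, hn⟩, hg, rfl⟩
  have h1 := Subgroup.relIndex_ker (f := QuotientGroup.mk' T') H'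
  rw [QuotientGroup.ker_mk'] at h1
  have hle : T' ≤ H' := fun x hx => hTH hx
  have h3 : Nat.card T' * T'.relIndex H' = Nat.card H' := by
    rw [← Subgroup.relIndex_bot_left, ← Subgroup.relIndex_bot_left]
    exact Subgroup.relIndex_mul_relIndex _ _ _ bot_le hle
  have h4 : Nat.card H' ∣ Nat.card H := by
    have e : Nat.card H' = Nat.card (H ⊓ N : Subgroup G) := by
      show Nat.card (H.subgroupOf N) = _
      rw [← Subgroup.subgroupOf_map_subtype, Subgroup.card_map_of_injective N.subtype_injective]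
    rw [e]
    exact Subgroup.card_dvd_of_le inf_le_left
  refine dvd_trans ?_ (h3 ▸ h4)
  rw [h1, Nat.card_congr (Subgroup.subgroupOfEquivOfLe hTN).toEquiv, mul_comm]
  exact Nat.mul_dvd_mul_left _ hdvd

variable (c : Conj F q) {ω : Fˣ} (hω : (ω : F) * c.σ (ω : F) = 1)

theorem exists_omega (hF : Fintype.card F = q ^ 2) {N : ℕ} (hN : N ∣ q + 1) :
    ∃ ω : Fˣ, orderOf ω = N ∧ (ω : F) * c.σ (ω : F) = 1 := by
  obtain ⟨g, hg⟩ := IsCyclic.exists_generator (α := Fˣ)
  have hq : 2 ≤ q := two_le_q (show Nat.card F = q ^ 2 by rw [Nat.card_eq_fintype_card]; exact hF)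
  have hord : orderOf g = q ^ 2 - 1 := by
    rw [orderOf_eq_card_of_forall_mem_zpowers hg, Nat.card_units, Nat.card_eq_fintype_card, hF]
  have hd : N ∣ q ^ 2 - 1 := hN.trans ⟨q - 1, by
    have := Nat.sq_sub_sq q 1
    rw [one_pow] at this
    exact this⟩
  have hne : q ^ 2 - 1 ≠ 0 := by
    have : 4 ≤ q ^ 2 := by nlinarith
    omega
  have ho : orderOf (g ^ ((q ^ 2 - 1) / N)) = N := by
    conv_lhs => rw [← hord]
    exact orderOf_pow_orderOf_div (by rw [hord]; exact hne) (by rw [hord]; exact hd)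
  refine ⟨_, ho, ?_⟩
  rw [c.mul_conj]
  obtain ⟨s, hs⟩ := hN
  rw [← Units.val_pow_eq_pow_val, hs, pow_mul]
  conv_lhs => arg 1; arg 1; arg 2; rw [← ho]
  rw [pow_orderOf_eq_one, one_pow, Units.val_one]

theorem card_tor_dvd : orderOf ω ^ k ∣ Nat.card (Tor c hω (k := k)) := by
  classical
  set N := orderOf ω with hN
  have hN0 : 0 < N := orderOf_pos ω
  haveI : NeZero N := ⟨hN0.ne'⟩
  haveI : IsMulCommutative (Tor c hω (k := k)) := ⟨⟨fun a b => Subtype.ext (by
    obtain ⟨d, hd⟩ := isDiag_of_mem c hω a.2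
    obtain ⟨d', hd'⟩ := isDiag_of_mem c hω b.2
    exact (hd.commute hd').eq)⟩⟩
  letI : CommGroup (Tor c hω (k := k)) := { mul_comm := fun a b => mul_comm' a b }
  let xA : Fin k → Tor c hω (k := k) := fun i => ⟨tGen c hω i, Subgroup.subset_closure ⟨i, rfl⟩⟩
  have hxA : ∀ i, xA i ^ N = 1 := fun i => Subtype.ext (tGen_pow_orderOf c hω i)
  let E : Multiplicative (Fin k → ZMod N) →* Tor c hω (k := k) :=
    { toFun := fun e => ∏ i, xA i ^ ((Multiplicative.toAdd e) i).val
      map_one' := by simp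
      map_mul' := fun e e' => by
        rw [← Finset.prod_mul_distrib]
        refine Finset.prod_congr rfl fun i _ => ?_
        rw [← pow_add, toAdd_mul, Pi.add_apply, ZMod.val_add, ← pow_eq_pow_mod _ (hxA i)] }
  have hinj : Function.Injective E := by
    rw [injective_iff_map_eq_one]
    intro e he
    have h1 : (List.ofFn fun i => tGen c hω i ^ (((Multiplicative.toAdd e) i).val : ℤ)).prod = 1 := by
      have h2 : (Tor c hω (k := k)).subtype (∏ i, xA i ^ ((Multiplicative.toAdd e) i).val) = 1 := by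
        rw [show (∏ i, xA i ^ ((Multiplicative.toAdd e) i).val) = 1 from he, map_one]
      rw [← List.prod_ofFn, map_list_prod, List.map_ofFn] at h2
      rw [← h2]
      congr 2
      funext i
      show tGen c hω i ^ (((Multiplicative.toAdd e) i).val : ℤ) =
        ((xA i ^ ((Multiplicative.toAdd e) i).val : Tor c hω (k := k)) : SUg (k + 1) F q)
      rw [zpow_natCast, SubgroupClass.coe_pow]
    refine Multiplicative.toAdd.injective (funext fun i => ?_)
    have := tGen_free c hω _ h1 i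
    rw [Int.natCast_dvd_natCast] at this
    show (Multiplicative.toAdd e) i = 0
    rw [← ZMod.natCast_zmod_val ((Multiplicative.toAdd e) i), (ZMod.natCast_eq_zero_iff _ _).2 this]
  have := Subgroup.card_dvd_of_injective E hinj
  rwa [Nat.card_congr Multiplicative.toAdd, Nat.card_fun, Nat.card_zmod, Nat.card_fin] at this

end CfsgLib.SUMult
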