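import Cfsg.Agent.Lib.SchurMult.CentralComm
import Cfsg.Agent.Lib.SchurMult.Criterion
import Cfsg.Agent.Lib.SUAmalgam.Cover

/-!
Derived subgroups of preimages in central extensions, and groups all of whose stem extensions are trivial.
-/

set_option autoImplicit false

namespace CfsgLib.SUMult

open CfsgLib.SUAmalgam CfsgLib.SchurMult
open scoped commutatorElement

universe u

/-- Every finite stem extension is an isomorphism. -/
def TrivMult (Δ : Type u) [Group Δ] : Prop :=
  ∀ (Γ : Type u) [Group Γ] [Finite Γ] (ρ : Γ →* Δ), Cfsg.IsStemExtension ρ → ρ.ker = ⊥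

theorem TrivMult.of_equiv {Δ Δ' : Type u} [Group Δ] [Group Δ'] (e : Δ ≃* Δ') (h : TrivMult Δ) :
    TrivMult Δ' := by
  intro Γ _ _ ρ hρ
  have hk : (e.symm.toMonoidHom.comp ρ).ker = ρ.ker := by
    ext x
    simp [MonoidHom.mem_ker]
  have := h Γ (e.symm.toMonoidHom.comp ρ) ⟨e.symm.surjective.comp hρ.1, hk ▸ hρ.2.1, hk ▸ hρ.2.2⟩
  rwa [hk] at this

variable {Γ G : Type u} [Group Γ] [Group G] {π : Γ →* G}

/-- The derived subgroup of the preimage. -/
def DP (π : Γ →* G) (H : Subgroup G) : Subgroup Γ := ⁅H.comap π, H.comap π⁆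

theorem DP_mono {H H' : Subgroup G} (h : H ≤ H') : DP π H ≤ DP π H' :=
  Subgroup.commutator_mono (Subgroup.comap_mono h) (Subgroup.comap_mono h)

theorem DP_le_comap (H : Subgroup G) : DP π H ≤ H.comap π :=
  Subgroup.commutator_le_self _

theorem DP_le_commutator (H : Subgroup G) : DP π H ≤ commutator Γ :=
  Subgroup.commutator_mono le_top le_top

theorem map_DP (hs : Function.Surjective π) (H : Subgroup G) : (DP π H).map π = ⁅H, H⁆ := by
  rw [DP, Subgroup.map_commutator, Subgroup.map_comap_eq_self_of_surjective hs]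

theorem map_DP_perfect (hs : Function.Surjective π) {H : Subgroup G} (hH : H ≤ ⁅H, H⁆) :
    (DP π H).map π = H := by
  rw [map_DP hs]
  exact le_antisymm (Subgroup.commutator_le_self _) hH

/-- Elements of the preimage are products of kernel elements and elements of the derived subgroup. -/
theorem exists_DP_mul (hs : Function.Surjective π) {H : Subgroup G} (hH : H ≤ ⁅H, H⁆) {x : Γ}
    (hx : π x ∈ H) : ∃ d ∈ DP π H, ∃ k ∈ π.ker, x = d * k := by
  obtain ⟨d, hd, he⟩ := (map_DP_perfect hs hH).ge hx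
  exact ⟨d, hd, d⁻¹ * x, by rw [MonoidHom.mem_ker, map_mul, map_inv, he, inv_mul_cancel], by group⟩

theorem DP_perfect (hs : Function.Surjective π) (hc : π.ker ≤ Subgroup.center Γ) {H : Subgroup G}
    (hH : H ≤ ⁅H, H⁆) : DP π H ≤ ⁅DP π H, DP π H⁆ := by
  conv_lhs => rw [DP]
  rw [Subgroup.commutator_le]
  intro x hx y hy
  obtain ⟨a, ha, k, hk, rfl⟩ := exists_DP_mul hs hH hx
  obtain ⟨b, hb, l, hl, rfl⟩ := exists_DP_mul hs hH hy
  rw [comm_eq_of_map_eq hc (a := a * k) (a' := a) (b := b * l) (b' := b)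
    (by rw [map_mul, MonoidHom.mem_ker.1 hk, mul_one]) (by rw [map_mul, MonoidHom.mem_ker.1 hl, mul_one])]
  exact Subgroup.commutator_mem_commutator ha hb

/-- The derived preimage of a perfect group with trivial multiplier maps injectively. -/
theorem kerFree_DP [Finite Γ] (hs : Function.Surjective π) (hc : π.ker ≤ Subgroup.center Γ)
    {H : Subgroup G} {Δ : Type u} [Group Δ] (e : Δ ≃* H) (hΔ : TrivMult Δ) (hH : H ≤ ⁅H, H⁆) :
    KerFree π (DP π H) := by
  let ρ : (DP π H) →* H := (π.comp (DP π H).subtype).codRestrict H fun x => DP_le_comap (π := π) H x.2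
  have hρs : Function.Surjective ρ := fun h => by
    obtain ⟨d, hd, he⟩ := (map_DP_perfect hs hH).ge h.2
    exact ⟨⟨d, hd⟩, Subtype.ext he⟩
  have hperf : commutator (DP π H) = ⊤ := by
    rw [eq_top_iff]
    refine (Subgroup.map_le_map_iff_of_injective (f := (DP π H).subtype)
      (Subgroup.subtype_injective _)).1 ?_
    rw [← MonoidHom.range_eq_map, Subgroup.range_subtype, commutator_def,
      Subgroup.map_commutator, ← MonoidHom.range_eq_map, Subgroup.range_subtype]
    exact DP_perfect hs hc hH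
  have hstem : Cfsg.IsStemExtension ρ := by
    refine ⟨hρs, fun x hx => ?_, by rw [hperf]; exact le_top⟩
    rw [Subgroup.mem_center_iff]
    intro y
    have h1 : π (x : Γ) = 1 := congrArg Subtype.val (MonoidHom.mem_ker.1 hx)
    exact Subtype.ext (Subgroup.mem_center_iff.1 (hc (show (x : Γ) ∈ π.ker from h1)) (y : Γ))
  intro a ha h1
  have := (hΔ.of_equiv e) _ ρ hstem
  exact congrArg Subtype.val ((MonoidHom.ker_eq_bot_iff ρ).1 this
    (show ρ ⟨a, ha⟩ = ρ 1 by rw [map_one]; exact Subtype.ext h1))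

/-- Derived preimages centralise preimages of commuting groups. -/
theorem comm_DP (hc : π.ker ≤ Subgroup.center Γ) {H H' : Subgroup G}
    (h : ∀ a ∈ H, ∀ b ∈ H', Commute a b) {x : Γ} (hx : x ∈ DP π H) {y : Γ} (hy : π y ∈ H') :
    Commute x y := by
  suffices hle : DP π H ≤ Subgroup.centralizer {y} from
    Subgroup.mem_centralizer_singleton_iff.1 (hle hx)
  rw [DP, Subgroup.commutator_le]
  intro a ha b hb
  rw [Subgroup.mem_centralizer_singleton_iff]
  have key : ∀ c : Γ, π c ∈ H → π c = π (y * c * y⁻¹) := fun c hc' => by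
    rw [map_mul, map_mul, map_inv, ← (h _ hc' _ hy).eq, mul_inv_cancel_right]
  have : y * ⁅a, b⁆ * y⁻¹ = ⁅a, b⁆ := by
    rw [conjugate_commutatorElement, ← comm_eq_of_map_eq hc (key a ha) (key b hb)]
  calc ⁅a, b⁆ * y = y * ⁅a, b⁆ * y⁻¹ * y := by rw [this]
    _ = y * ⁅a, b⁆ := by group

/-- A subgroup mapped faithfully onto everything kills the kernel. -/
theorem ker_eq_bot_of_le (hσ : Cfsg.IsStemExtension π) {X : Subgroup Γ} (hmap : ⊤ ≤ X.map π)
    (hinj : KerFree π X) : π.ker = ⊥ := by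
  have hcomm : commutator Γ ≤ X := by
    rw [commutator_def, Subgroup.commutator_le]
    intro x _ y _
    obtain ⟨a, ha, hae⟩ := hmap (Subgroup.mem_top (π x))
    obtain ⟨b, hb, hbe⟩ := hmap (Subgroup.mem_top (π y))
    rw [comm_eq_of_map_eq hσ.2.1 hae.symm hbe.symm, commutatorElement_def]
    exact mul_mem (mul_mem (mul_mem ha hb) (inv_mem ha)) (inv_mem hb)
  rw [eq_bot_iff]
  exact fun z hz => Subgroup.mem_bot.2 (hinj z (hcomm (hσ.2.2 hz)) hz)

/-- The block on `r` consecutive coordinates as a copy of the special unitary group of degree `r`. -/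
noncomputable def blkEquiv {F : Type u} [Field F] {q m r : ℕ} (c : ClassicalForms.Conj F q) (i : ℕ)
    (hi : i + r ≤ m) : SUg r F q ≃* Blk c m i r :=
  (MonoidHom.ofInjective (emb_injective c i hi)).trans (MulEquiv.subgroupCongr (range_emb c i hi))

theorem Blk_perfect {F : Type u} [Field F] {q m r : ℕ} (c : ClassicalForms.Conj F q) {i : ℕ}
    (hi : i + r ≤ m) (h : commutator (SUg r F q) = ⊤) :
    Blk c m i r ≤ ⁅Blk c m i r, Blk c m i r⁆ := by
  rw [← range_emb c i hi, MonoidHom.range_eq_map, ← Subgroup.map_commutator, ← commutator_def, h]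

end CfsgLib.SUMult
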