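import Cfsg.Agent.Lib.SUMult.Large

/-!
Diagonal elements and reflections of `SU_n(q)`.
-/

set_option autoImplicit false
set_option linter.unusedSectionVars false

open Matrix

namespace CfsgLib.SUMult

open CfsgLib.SUAmalgam CfsgLib.ClassicalForms
open scoped commutatorElement

universe u

variable {F : Type u} [Field F] [Fintype F] {q m : ℕ}

/-- An element acting diagonally with the given entries. -/
def IsDiag (g : SUg m F q) (d : ℕ → Fˣ) : Prop :=
  ∀ v : Fin m → F, ∀ l, l < m → co (act g v) l = (d l : F) * co v l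

theorem isDiag_one : IsDiag (1 : SUg m F q) (fun _ => 1) := fun v l _ => by simp

theorem IsDiag.mul {g g' : SUg m F q} {d d' : ℕ → Fˣ} (h : IsDiag g d) (h' : IsDiag g' d') :
    IsDiag (g * g') (fun l => d l * d' l) := fun v l hl => by
  rw [act_mul, h _ l hl, h' v l hl, Units.val_mul, mul_assoc]

theorem IsDiag.inv {g : SUg m F q} {d : ℕ → Fˣ} (h : IsDiag g d) :
    IsDiag g⁻¹ (fun l => (d l)⁻¹) := fun v l hl => by
  have := h (act g⁻¹ v) l hl
  rw [act_act_inv] at this
  rw [this, ← mul_assoc, Units.inv_mul, one_mul]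

theorem IsDiag.pow {g : SUg m F q} {d : ℕ → Fˣ} (h : IsDiag g d) (e : ℕ) :
    IsDiag (g ^ e) (fun l => d l ^ e) := by
  induction e with
  | zero => simpa using isDiag_one
  | succ e ih => simpa only [pow_succ] using ih.mul h

theorem IsDiag.zpow {g : SUg m F q} {d : ℕ → Fˣ} (h : IsDiag g d) (e : ℤ) :
    IsDiag (g ^ e) (fun l => d l ^ e) := by
  rcases e.eq_nat_or_neg with ⟨j, rfl | rfl⟩
  · simpa only [zpow_natCast] using h.pow j
  · simpa only [_root_.zpow_neg, zpow_natCast] using (h.pow j).inv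

theorem IsDiag.list_prod {k : ℕ} (g : Fin k → SUg m F q) (d : Fin k → ℕ → Fˣ)
    (h : ∀ i, IsDiag (g i) (d i)) : IsDiag (List.ofFn g).prod (fun l => ∏ i, d i l) := by
  induction k with
  | zero => simpa using isDiag_one
  | succ k ih =>
    rw [List.ofFn_succ, List.prod_cons]
    simpa only [Fin.prod_univ_succ] using (h 0).mul (ih _ _ fun i => h i.succ)

theorem IsDiag.ext {g g' : SUg m F q} {d : ℕ → Fˣ} (h : IsDiag g d) (h' : IsDiag g' d) : g = g' :=
  ext_act fun k => co_ext fun l hl => by rw [h _ l hl, h' _ l hl]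

theorem IsDiag.congr {g : SUg m F q} {d d' : ℕ → Fˣ} (h : IsDiag g d) (e : ∀ l, l < m → d l = d' l) :
    IsDiag g d' := fun v l hl => by rw [h v l hl, e l hl]

theorem IsDiag.eq_one_iff {g : SUg m F q} {d : ℕ → Fˣ} (h : IsDiag g d) :
    g = 1 ↔ ∀ l, l < m → d l = 1 := by
  refine ⟨fun e l hl => ?_, fun e => h.ext (isDiag_one.congr fun l hl => (e l hl).symm)⟩
  have := h (ev m F l) l hl
  rw [e, act_one, co_ev hl, if_pos rfl, mul_one] at this
  exact Units.ext (by simpa using this.symm)

theorem IsDiag.commute {g g' : SUg m F q} {d d' : ℕ → Fˣ} (h : IsDiag g d) (h' : IsDiag g' d') :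
    Commute g g' :=
  (h.mul h').ext ((h'.mul h).congr fun l _ => mul_comm _ _)

variable (c : Conj F q)

/-- A block element commutes with a diagonal element that is scalar on the block. -/
theorem IsDiag.commute_Blk {t g : SUg m F q} {d : ℕ → Fˣ} (h : IsDiag t d) {i r : ℕ} (hi : i + r ≤ m)
    (hd : ∀ a, i ≤ a → a < i + r → d a = d i) (hg : g ∈ Blk c m i r) : Commute t g := by
  refine ext_act fun k => co_ext fun l hl => ?_
  rw [act_mul, act_mul, h _ l hl, ← ev_eq_single]
  have hsm : act t (ev m F (k : ℕ)) = (d k : F) • ev m F (k : ℕ) := co_ext fun j hj => by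
    rw [h _ j hj, co_smul, co_ev k.2]
    split_ifs with e
    · rw [e]
    · simp
  rw [hsm, act_smul, co_smul]
  by_cases hk : (k : ℕ) < i ∨ i + r ≤ k
  · rw [act_ev_Blk c hg hk, co_ev k.2]
    split_ifs with e
    · rw [e]
    · simp
  · by_cases hl' : l < i ∨ i + r ≤ l
    · rw [co_Blk c hg hl', co_ev k.2, if_neg (by omega)]
      simp
    · rw [hd l (by omega) (by omega), hd k (by omega) (by omega)]

/-- A diagonal element normalises every block. -/
theorem IsDiag.conj_mem_Blk {t g : SUg m F q} {d : ℕ → Fˣ} (h : IsDiag t d) {i r : ℕ}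
    (hg : g ∈ Blk c m i r) : t * g * t⁻¹ ∈ Blk c m i r := by
  intro k hk
  have hsm : act t⁻¹ (Pi.single k 1) = ((d k)⁻¹ : Fˣ).val • (Pi.single k (1 : F) : Fin m → F) :=
    co_ext fun j hj => by
      rw [h.inv _ j hj, co_smul, ← ev_eq_single, co_ev k.2]
      split_ifs with e
      · rw [e]
      · simp
  rw [act_mul, act_mul, hsm, act_smul, hg k hk, ← hsm, act_act_inv]

/-- Elements of degree two from two entries. -/
def two (a b : F) (h : nm c a + nm c b = 1) : SUg 2 F q :=
  mk !![a, b; -c.σ b, c.σ a] (by rw [Matrix.det_fin_two_of]; unfold nm at h; linear_combination h)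
    (fun x y => by
      unfold nm at h
      simp only [c.herm_apply, Fin.sum_univ_two, Matrix.mulVec, dotProduct, Matrix.cons_val_zero,
        Matrix.cons_val_one, Matrix.of_apply, map_add, map_mul, map_neg, c.invol]
      linear_combination (x 0 * c.σ (y 0) + x 1 * c.σ (y 1)) * h)

variable {ω : Fˣ} (hω : (ω : F) * c.σ (ω : F) = 1)

theorem nm_diag (hω : (ω : F) * c.σ (ω : F) = 1) : nm c (ω : F) + nm c 0 = 1 := by
  rw [nm_zero, add_zero]; exact hω

theorem nm_swap : nm c (0 : F) + nm c (1 : F) = 1 := by rw [nm_zero, nm_one, zero_add]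

/-- The diagonal element with entries `ω`, `ω⁻¹` at `i`, `i + 1`. -/
noncomputable def xE (i : ℕ) (hi : i + 2 ≤ m) : SUg m F q :=
  emb c i hi (two c (ω : F) 0 (nm_diag c hω))

/-- The signed transposition of `i`, `i + 1`. -/
noncomputable def wE (i : ℕ) (hi : i + 2 ≤ m) : SUg m F q :=
  emb c i hi (two c 0 1 (nm_swap c))

/-- The entries of `xE`. -/
def dX (ω : Fˣ) (i l : ℕ) : Fˣ := if l = i then ω else if l = i + 1 then ω⁻¹ else 1

theorem co_emb_two {a b : F} (h : nm c a + nm c b = 1) {i : ℕ} (hi : i + 2 ≤ m) (v : Fin m → F) (l : ℕ) :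
    co (act (emb c i hi (two c a b h)) v) l =
      if l = i then a * co v i + b * co v (i + 1)
      else if l = i + 1 then -c.σ b * co v i + c.σ a * co v (i + 1) else co v l := by
  obtain ⟨h0, h1, h2⟩ := act_two_coord c i hi (two c a b h) v
  split_ifs with e0 e1
  · subst e0
    rw [co_mk _ (show l < m by omega), h0, co_mk v (show l < m by omega),
      co_mk v (show l + 1 < m by omega)]
    simp [two, act, Matrix.mulVec, dotProduct, Fin.sum_univ_two]
  · subst e1
    rw [co_mk _ (show i + 1 < m by omega), h1, co_mk v (show i < m by omega),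
      co_mk v (show i + 1 < m by omega)]
    simp [two, act, Matrix.mulVec, dotProduct, Fin.sum_univ_two]
  · exact co_Blk c (emb_mem_Blk c i hi _) (by omega) v

theorem isDiag_xE (i : ℕ) (hi : i + 2 ≤ m) : IsDiag (xE c hω i hi) (dX ω i) := fun v l _ => by
  have hinv : c.σ (ω : F) = ((ω⁻¹ : Fˣ) : F) := by
    rw [Units.val_inv_eq_inv_val]
    exact (eq_inv_of_mul_eq_one_right hω)
  rw [xE, co_emb_two]
  unfold dX
  split_ifs with e0 e1
  · subst e0; simp
  · subst e1; simp [hinv]
  · simp

theorem wE_mem (i : ℕ) (hi : i + 2 ≤ m) : wE c i hi ∈ Blk c m i 2 := emb_mem_Blk c i hi _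

theorem xE_mem (i : ℕ) (hi : i + 2 ≤ m) : xE c hω i hi ∈ Blk c m i 2 := emb_mem_Blk c i hi _

theorem co_wE {i : ℕ} (hi : i + 2 ≤ m) (v : Fin m → F) (l : ℕ) :
    co (act (wE c i hi) v) l = if l = i then co v (i + 1) else if l = i + 1 then -co v i else co v l := by
  rw [wE, co_emb_two]
  simp

/-- Conjugating a diagonal element by a reflection swaps two entries. -/
theorem IsDiag.conj_wE {t : SUg m F q} {d : ℕ → Fˣ} (h : IsDiag t d) {i : ℕ} (hi : i + 2 ≤ m) :
    IsDiag (wE c i hi * t * (wE c i hi)⁻¹) (fun l => d (Equiv.swap i (i + 1) l)) := fun v l hl => by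
  obtain ⟨v', rfl⟩ : ∃ v', act (wE c i hi) v' = v := ⟨act (wE c i hi)⁻¹ v, act_act_inv _ _⟩
  rw [← act_mul, inv_mul_cancel_right, act_mul, co_wE c hi, co_wE c hi]
  beta_reduce
  split_ifs with e0 e1
  · subst e0
    rw [h _ (l + 1) (by omega), Equiv.swap_apply_left]
  · subst e1
    rw [h _ i (by omega), Equiv.swap_apply_right, mul_neg]
  · rw [h _ l hl, Equiv.swap_apply_of_ne_of_ne e0 e1]

theorem wE_pow_four (i : ℕ) (hi : i + 2 ≤ m) : wE c i hi ^ 4 = 1 := by
  refine ext_act fun k => co_ext fun l hl => ?_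
  rw [show (4 : ℕ) = 1 + 1 + 1 + 1 from rfl, pow_succ, pow_succ, pow_succ, pow_one, act_mul, act_mul,
    act_mul, act_one]
  simp only [co_wE]
  split_ifs with e0 e1 e2 <;> first | omega | (subst_vars; simp)

theorem IsDiag.of_commute_wE {t : SUg m F q} {d : ℕ → Fˣ} (h : IsDiag t d) {i : ℕ} (hi : i + 2 ≤ m)
    (hc : Commute (wE c i hi) t) : d (i + 1) = d i := by
  have e : wE c i hi * t * (wE c i hi)⁻¹ = t := by rw [hc.eq, mul_inv_cancel_right]
  have h1 := h.conj_wE c hi
  rw [e] at h1
  have h2 := h1 (ev m F i) i (by omega)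
  rw [h _ i (by omega), co_ev (by omega), if_pos rfl, mul_one, mul_one] at h2
  simp only [Equiv.swap_apply_left] at h2
  exact (Units.ext h2).symm

theorem sq_eq_one_two (h2 : (2 : F) ≠ 0) {g : SUg 2 F q} (hg : g * g = 1) : g = 1 ∨ mat g = -1 := by
  have hd : (mat g).det = 1 := g.1.2
  rw [Matrix.det_fin_two] at hd
  have hm : mat g * mat g = 1 := by rw [← mat_mul, hg, mat_one]
  have e := fun k l => congrFun (congrFun hm k) l
  have e00 := e 0 0; have e01 := e 0 1; have e10 := e 1 0; have e11 := e 1 1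
  simp only [Matrix.mul_apply, Fin.sum_univ_two, Matrix.one_apply_eq] at e00 e11
  simp [Matrix.mul_apply, Fin.sum_univ_two] at e01 e10
  have htr : (mat g 0 0 + mat g 1 1) * mat g 0 0 = 2 := by linear_combination hd + e00
  have htr' : (mat g 0 0 + mat g 1 1) * mat g 1 1 = 2 := by linear_combination hd + e11
  have hne : mat g 0 0 + mat g 1 1 ≠ 0 := fun e => h2 (by rw [← htr, e, zero_mul])
  have hb : mat g 0 1 = 0 :=
    (mul_eq_zero.1 (show (mat g 0 0 + mat g 1 1) * mat g 0 1 = 0 by linear_combination e01)).resolve_left hne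
  have hc : mat g 1 0 = 0 :=
    (mul_eq_zero.1 (show (mat g 0 0 + mat g 1 1) * mat g 1 0 = 0 by linear_combination e10)).resolve_left hne
  have ha : mat g 1 1 = mat g 0 0 := mul_left_cancel₀ hne (htr'.trans htr.symm)
  rw [hb, zero_mul, sub_zero, ha] at hd
  rcases mul_self_eq_one_iff.1 hd with h' | h'
  · refine Or.inl (ext_mat fun k l => ?_)
    fin_cases k <;> fin_cases l <;> simp [h', hb, hc, ha]
  · refine Or.inr (Matrix.ext fun k l => ?_)
    fin_cases k <;> fin_cases l <;> simp [h', hb, hc, ha]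

theorem orderOf_two_blk (h2 : (2 : F) ≠ 0) {i : ℕ} (hi : i + 2 ≤ m) :
    ∀ x ∈ Blk c m i 2, ∀ y ∈ Blk c m i 2, orderOf x = 2 → orderOf y = 2 → x ∈ Subgroup.zpowers y := by
  intro x hx y hy hxo hyo
  rw [← range_emb c i hi] at hx hy
  obtain ⟨a, rfl⟩ := hx
  obtain ⟨b, rfl⟩ := hy
  rw [orderOf_injective _ (emb_injective c i hi)] at hxo hyo
  have key : ∀ g : SUg 2 F q, orderOf g = 2 → mat g = -1 := fun g hg =>
    (sq_eq_one_two h2 ((pow_two g).symm.trans (orderOf_dvd_iff_pow_eq_one.1 hg.dvd))).resolve_left fun e => by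
      rw [e, orderOf_one] at hg; omega
  rw [show a = b from ext_mat fun k l => by rw [key a hxo, key b hyo]]
  exact Subgroup.mem_zpowers _

/-- For `q = 3` the diagonal element and the swap are commutators in degree two. -/
theorem mem_commutator_two (hF : Fintype.card F = 3 ^ 2) (h4 : (ω : F) ^ 2 = -1) :
    two c (ω : F) 0 (nm_diag c hω) ∈ commutator (SUg 2 F q) ∧
      two c (0 : F) 1 (nm_swap c) ∈ commutator (SUg 2 F q) := by
  have h3 : (3 : F) = 0 := by
    have := FiniteField.cast_card_eq_zero F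
    rw [hF] at this
    have h9 : (3 : F) ^ 2 = 0 := by rw [← this]; norm_num
    exact pow_eq_zero_iff two_ne_zero |>.1 h9
  set u : F := (ω : F) with hu
  have hs : c.σ u = -u := by
    have : u * (c.σ u + u) = 0 := by linear_combination hω + h4
    exact eq_neg_of_add_eq_zero_left ((mul_eq_zero.1 this).resolve_left ω.ne_zero)
  let g := two c (0 : F) u (by rw [nm_zero, zero_add]; exact hω)
  let h := two c (1 + u) (2 + 2 * u) (by
    unfold nm
    simp only [map_add, map_mul, map_one, map_ofNat, hs]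
    linear_combination (-5 : F) * h4 + 3 * h3)
  let h' := two c (1 + 2 * u) (1 + u) (by
    unfold nm
    simp only [map_add, map_mul, map_one, map_ofNat, hs]
    linear_combination (-5 : F) * h4 + 2 * h3)
  have eq1 : ⁅g, h'⁆ = two c u 0 (nm_diag c hω) := by
    rw [commutatorElement_def, mul_inv_eq_iff_eq_mul, mul_inv_eq_iff_eq_mul]
    refine ext_mat fun k l => ?_
    fin_cases k <;> fin_cases l <;>
      simp [g, h', two, mat_mul, Matrix.mul_apply, Fin.sum_univ_two, hs, map_ofNat] <;>
      grobner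
  have eq2 : ⁅g, h⁆ = two c (0 : F) 1 (nm_swap c) := by
    rw [commutatorElement_def, mul_inv_eq_iff_eq_mul, mul_inv_eq_iff_eq_mul]
    refine ext_mat fun k l => ?_
    fin_cases k <;> fin_cases l <;>
      simp [g, h, two, mat_mul, Matrix.mul_apply, Fin.sum_univ_two, hs, map_ofNat] <;>
      grobner
  exact ⟨eq1 ▸ Subgroup.commutator_mem_commutator (Subgroup.mem_top _) (Subgroup.mem_top _),
    eq2 ▸ Subgroup.commutator_mem_commutator (Subgroup.mem_top _) (Subgroup.mem_top _)⟩

end CfsgLib.SUMult
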