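import Cfsg.Agent.Lib.SUMult.FiveP

/-!
All stem extensions of `SU_5(2)` and `SU_5(3)` are trivial.
-/

set_option autoImplicit false
set_option linter.unusedSectionVars false
set_option linter.style.haveILetI false

namespace CfsgLib.SUMult

open CfsgLib.SUAmalgam CfsgLib.SchurMult CfsgLib.ClassicalForms CfsgLib.Amalgams CfsgLib.SU3Pres

universe u

variable {F : Type u} [Field F] [Fintype F] {q : ℕ}

/-- The derived preimage of a block `SU_3(2)` has no kernel element of order two. -/
theorem DP_blk_two (hF : Fintype.card F = 2 ^ 2) (c : Conj F 2) {Γ : Type u} [Group Γ] [Finite Γ]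
    (ρ : Γ →* SUg 5 F 2) (hρ : Cfsg.IsStemExtension ρ) {z : Γ} (hz : z ∈ DP ρ (Blk c 5 2 3))
    (hzk : z ∈ ρ.ker) (hz2 : z ^ 2 = 1) : z = 1 := by
  haveI := Fact.mk Nat.prime_two
  have h : UniField F c.σ 2 := ⟨c.apply, by rw [Nat.card_eq_fintype_card, hF]⟩
  obtain ⟨e⟩ := exists_suAnti_equiv h
  have h35 : 2 + 3 ≤ 5 := le_rfl
  let f : suAnti c.σ →* SUg 5 F 2 :=
    (Blk c 5 2 3).subtype.comp ((blkEquiv c 2 h35).toMonoidHom.comp e.toMonoidHom)
  have hfi : Function.Injective f :=
    (Subgroup.subtype_injective _).comp ((blkEquiv c 2 h35).injective.comp e.injective)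
  set P := (Uni h).map f with hP
  have hPle : P ≤ Blk c 5 2 3 := by
    rintro _ ⟨x, -, rfl⟩
    exact ((blkEquiv c 2 h35) (e x)).2
  have hcP : Nat.card P = 2 ^ 3 := by rw [hP, Subgroup.card_map_of_injective hfi, card_Uni h]
  have hidx : ¬ 2 ∣ P.relIndex (Blk c 5 2 3) := by
    have h1 : Nat.card P * P.relIndex (Blk c 5 2 3) = Nat.card (Blk c 5 2 3) := by
      rw [← Subgroup.relIndex_bot_left, ← Subgroup.relIndex_bot_left]
      exact Subgroup.relIndex_mul_relIndex _ _ _ bot_le hPle
    rw [hcP, ← Nat.card_congr (blkEquiv c 2 h35).toEquiv, card_su_three hF] at h1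
    omega
  have hmem := mem_DP_of_pow hρ.1 hρ.2.1 Nat.prime_two hPle hidx hz hzk (k := 1) (by simpa using hz2)
  have h2 : (2 : F) = 0 := by
    have := FiniteField.cast_card_eq_zero F
    rw [hF] at this
    norm_num at this
    rw [show (4 : F) = 2 ^ 2 by norm_num] at this
    exact (pow_eq_zero_iff two_ne_zero).1 this
  have h00 : uT h (zP 0 (by simp)) = 1 := by
    apply mat₃_injective c.σ
    rw [mat_uT, map_one]
    ext i j; fin_cases i <;> fin_cases j <;> simp [uMat₃, zP]
  have key : ∀ a : P, orderOf a = 2 → (a : SUg 5 F 2) = f (uT h (zP 1 (by rw [map_one]; linear_combination h2))) := by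
    rintro ⟨_, x, ⟨t, rfl⟩, rfl⟩ ha
    refine congrArg f (uT_congr h ?_ ?_)
    all_goals
      have e2 : uT h (tmul h t t) = uT h (zP 0 (by simp)) := by
        have h1 : f (uT h t) ^ 2 = 1 := by
          have := pow_orderOf_eq_one (⟨f (uT h t), _, ⟨t, rfl⟩, rfl⟩ : P)
          rw [ha] at this
          exact congrArg Subtype.val this
        rw [← map_pow, ← map_one f, pow_two, uT_mul] at h1
        rw [hfi h1, h00]
      have e3 := congrArg (fun s : Tp c.σ => s.1.2) (uT_injective h e2)
      simp only [tmul, zP] at e3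
      have ha0 : t.1.1 = 0 := by
        have e4 : c.σ t.1.1 * t.1.1 = 0 := by linear_combination -e3 + t.1.2 * h2
        rcases mul_eq_zero.1 e4 with e5 | e5
        · exact c.σ.injective (e5.trans (map_zero _).symm)
        · exact e5
    · exact ha0
    · have e4 := t.2
      rw [ha0, zero_mul, add_zero, c.apply] at e4
      rcases mul_eq_zero.1 (show t.1.2 * (t.1.2 + 1) = 0 by linear_combination e4) with e5 | e5
      · exfalso
        have : (⟨f (uT h t), _, ⟨t, rfl⟩, rfl⟩ : P) = 1 := by
          refine Subtype.ext ?_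
          show f (uT h t) = 1
          rw [← map_one f]
          refine congrArg f ?_
          rw [← h00]
          exact uT_congr h ha0 e5
        rw [this, orderOf_one] at ha
        norm_num at ha
      · show t.1.2 = 1
        linear_combination e5 - h2
  refine eq_one_of_uniqueOrderP hρ.2.1 hρ.1 P (IsPGroup.of_card hcP) ?_ hmem hzk
  intro a b ha hb
  rw [show b = a from Subtype.ext ((key b hb).trans (key a ha).symm)]
  exact Subgroup.mem_zpowers a

theorem okAt_five_two_two (hF : Fintype.card F = 2 ^ 2) : OKAt (SUg 5 F 2) 2 := by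
  haveI := Fact.mk Nat.prime_two
  obtain ⟨c⟩ := exists_conj (show Nat.card F = 2 ^ 2 by rw [Nat.card_eq_fintype_card, hF])
  obtain ⟨ω, ho, hω⟩ := exists_omega c hF (N := 3) dvd_rfl
  have hω3 : ω ^ 3 = 1 := ho ▸ pow_orderOf_eq_one ω
  have hωne : ω ≠ 1 := fun e => by rw [e, orderOf_one] at ho; norm_num at ho
  have hωf : c.σ (ω : F) ≠ ω := fun e => by
    rw [e, ← Units.val_mul, Units.val_eq_one, ← pow_two] at hω
    have := orderOf_dvd_of_pow_eq_one hω
    rw [ho] at this
    norm_num at this
  have ht := ((isDiag_xE (m := 5) c hω 2 (by norm_num)).mul ((isDiag_xE (m := 5) c hω 3 (by norm_num)).pow 2)).congr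
    (d' := fun l => if l < 2 then 1 else ω) fun l hl => by
      interval_cases l <;> simp [dX]
      all_goals first
        | group
        | (rw [inv_eq_iff_mul_eq_one, ← hω3]; group)
      all_goals
        calc ω ^ (-2 : ℤ) = ω ^ (-2 : ℤ) * ω ^ 3 := by rw [hω3, mul_one]
          _ = ω := by group
  have h35 : 2 + 3 ≤ 5 := le_rfl
  refine okAt_five_char c hF hω hωf ht rfl rfl rfl ?_ ?_ ?_ ?_ ?_
  · simp only [show (0 : ℕ) < 2 by norm_num, show ¬ (2 : ℕ) < 2 by norm_num, if_true, if_false,
      Units.val_one, map_one, one_mul]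
    exact fun e => hωne (Units.ext e)
  · intro r hr hd
    rw [card_su_five_two hF] at hr
    omega
  · rw [card_su_five_two hF]; norm_num
  · rw [← Nat.card_congr (blkEquiv c 2 h35).toEquiv, card_su_three hF]; exact dvd_mul_right _ _
  · intro Γ _ _ ρ hρ z hz hzk hz2
    exact DP_blk_two hF c ρ hρ hz hzk hz2

theorem okAt_five_three_three (hF : Fintype.card F = 3 ^ 2) : OKAt (SUg 5 F 3) 3 := by
  haveI := Fact.mk Nat.prime_three
  obtain ⟨c⟩ := exists_conj (show Nat.card F = 3 ^ 2 by rw [Nat.card_eq_fintype_card, hF])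
  obtain ⟨ω, ho, hω⟩ := exists_omega c hF (N := 4) dvd_rfl
  have hω4 : ω ^ 4 = 1 := ho ▸ pow_orderOf_eq_one ω
  have hωne : ω ≠ 1 := fun e => by rw [e, orderOf_one] at ho; norm_num at ho
  have hωf : c.σ (ω : F) ≠ ω := fun e => by
    rw [e, ← Units.val_mul, Units.val_eq_one, ← pow_two] at hω
    have := orderOf_dvd_of_pow_eq_one hω
    rw [ho] at this
    norm_num at this
  have hinv : ω⁻¹ ^ 2 = ω ^ 2 := by
    rw [inv_pow, inv_eq_iff_mul_eq_one, ← pow_add, hω4]
  have ht := ((isDiag_xE (m := 5) c hω 0 (by norm_num)).mul (((isDiag_xE (m := 5) c hω 1 (by norm_num)).pow 2).mul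
    ((isDiag_xE (m := 5) c hω 3 (by norm_num)).pow 2))).congr
    (d' := fun l => if l < 2 then ω else ω ^ 2) fun l hl => by
      interval_cases l <;> simp [dX] <;>
        first | exact hinv | (rw [← inv_pow]; exact hinv) | group
  have h35 : 2 + 3 ≤ 5 := le_rfl
  refine okAt_five_char c hF hω hωf ht rfl rfl rfl ?_ ?_ ?_ ?_ ?_
  · simp only [show (0 : ℕ) < 2 by norm_num, show ¬ (2 : ℕ) < 2 by norm_num, if_true, if_false,
      Units.val_pow_eq_pow_val]
    intro e
    apply hωne
    refine Units.ext ?_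
    rw [Units.val_one]
    linear_combination e - (ω : F) * hω
  · intro r hr hd
    rw [card_su_five_three hF] at hr
    omega
  · rw [card_su_five_three hF]; exact dvd_mul_right _ _
  · rw [← Nat.card_congr (blkEquiv c 2 h35).toEquiv, card_su_three hF]; exact dvd_mul_right _ _
  · intro Γ _ _ ρ hρ z hz hzk _
    exact kerFree_DP hρ.1 hρ.2.1 (blkEquiv c 2 h35) (trivMult_three hF le_rfl)
      (Blk_perfect c h35 (commutator_su_eq_top hF le_rfl (by omega))) z hz hzk

theorem trivMult_five (hF : Fintype.card F = q ^ 2) (hq : q = 2 ∨ q = 3) : TrivMult (SUg 5 F q) :=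
  trivMult_of_okAt fun p hp _ => by
    by_cases h0 : p ∣ q
    · rcases hq with rfl | rfl
      · rw [(Nat.prime_dvd_prime_iff_eq hp Nat.prime_two).1 h0]; exact okAt_five_two_two hF
      · rw [(Nat.prime_dvd_prime_iff_eq hp Nat.prime_three).1 h0]; exact okAt_five_three_three hF
    · exact okAt_five_coprime hF hq hp h0

end CfsgLib.SUMult
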