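import Cfsg.Agent.Lib.SUMult.ThreeCoprime
import Cfsg.Agent.Lib.SchurMult.SmallSylow

/-!
The primes different from the characteristic for `SU_5(2)` and `SU_5(3)`.
-/

set_option autoImplicit false
set_option linter.unusedSectionVars false
set_option linter.style.haveILetI false

namespace CfsgLib.SUMult

open CfsgLib.SUAmalgam CfsgLib.SchurMult CfsgLib.ClassicalForms
open scoped commutatorElement

universe u

variable {F : Type u} [Field F] [Fintype F] {q m : ℕ}

/-- A prime dividing the order to the first power only. -/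
theorem okAt_of_sq_not_dvd {G : Type u} [Group G] [Finite G] {p : ℕ} (hp : p.Prime)
    (h2 : ¬ p ^ 2 ∣ Nat.card G) : OKAt G p := by
  intro Γ _ _ ρ hρ z hz hzp
  by_contra hne
  haveI := Fact.mk hp
  refine not_dvd_card_ker_of_sq_not_dvd hρ hp h2 ?_
  rw [← orderOf_eq_prime hzp hne, ← Subgroup.orderOf_mk z hz]
  exact orderOf_dvd_natCard _

theorem okAt_five_two_three (hF : Fintype.card F = 2 ^ 2) : OKAt (SUg 5 F 2) 3 := by
  have := Fact.mk Nat.prime_three
  obtain ⟨c⟩ := exists_conj (show Nat.card F = 2 ^ 2 by rw [Nat.card_eq_fintype_card, hF])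
  obtain ⟨ω, hωo, hω⟩ := exists_omega c hF (N := 3) (by norm_num)
  have hodd : Odd (orderOf ω) := by rw [hωo]; decide
  refine okAt_of_subgroup Nat.prime_three (Tor c hω ⊔ Subgroup.zpowers (wGen c (0 : Fin 4) * wGen c 1))
    (not_dvd_index _ Nat.prime_three (A := 5) (r := 56320)
      (by rw [card_su_five_two hF]; norm_num) (by norm_num) ?_) ?_
  · have hπ : (wGen c (0 : Fin 4) * wGen c 1) ^ 3 = 1 := ext_act fun j => co_ext fun l hl => by
      simp only [pow_succ, pow_zero, one_mul, act_mul, act_one, wGen, co_wE c, Fin.val_zero, Fin.val_one]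
      split_ifs <;> first | omega | contradiction | (subst_vars; simp)
    have hn : wGen c (0 : Fin 4) * wGen c 1 ∉ Tor c hω := fun h => by
      obtain ⟨d, hd⟩ := isDiag_of_mem c hω h
      have h1 := hd (ev 5 F 0) 1 (by omega)
      simp only [act_mul, wGen, co_wE c, Fin.val_zero, Fin.val_one, co_ev (show 0 < 5 by omega)] at h1
      simp at h1
    have h := mul_card_dvd (ℓ := 3) (le_sup_left (b := Subgroup.zpowers (wGen c (0 : Fin 4) * wGen c 1)))
      (Subgroup.mem_sup_right (Subgroup.mem_zpowers _))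
      (mul_mem (wGen_mem_normalizer c hω 0) (wGen_mem_normalizer c hω 1)) hn (by rw [hπ]; exact one_mem _)
    refine dvd_trans ?_ h
    rw [pow_succ']
    exact Nat.mul_dvd_mul_left _ (hωo ▸ card_tor_dvd c hω)
  · intro Γ _ _ σ hσ z hz hzk _
    obtain ⟨hA, Th, hTh⟩ := exists_lift_odd (σ := σ) c hω hσ.1 hσ.2.1 (by norm_num) hodd
    obtain ⟨a₀, ha₀⟩ := hσ.1 (wGen c (0 : Fin 4))
    obtain ⟨a₁, ha₁⟩ := hσ.1 (wGen c (1 : Fin 4))
    rw [← ha₀, ← ha₁, ← map_mul] at hz
    exact hTh.1 z (DP_tor_zpowers_le c hω hσ.2.1 hTh hA _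
      (mul_mem (hTh.2.2 0 a₀ ha₀) (hTh.2.2 1 a₁ ha₁)) hz) hzk

/-- Supported inside a set of coordinates. -/
def SuppIn (S : Set ℕ) (v : Fin m → F) : Prop := ∀ j, j < m → j ∉ S → co v j = 0

/-- The elements preserving the vectors supported inside a set of coordinates. -/
def presSub (S : Set ℕ) : Subgroup (SUg m F q) where
  carrier := {g | ∀ v, SuppIn S v ↔ SuppIn S (act g v)}
  one_mem' := fun v => by rw [act_one]
  mul_mem' := fun {a b} ha hb v => by rw [act_mul, ← ha, ← hb]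
  inv_mem' := fun {a} ha v => by rw [ha (act a⁻¹ v), act_act_inv]

theorem IsDiag.mem_presSub {g : SUg m F q} {d : ℕ → Fˣ} (h : IsDiag g d) (S : Set ℕ) : g ∈ presSub S :=
  fun v => forall₃_congr fun j hj _ => by rw [h v j hj]; simp

theorem okAt_five_three_two (hF : Fintype.card F = 3 ^ 2) : OKAt (SUg 5 F 3) 2 := by
  have := Fact.mk Nat.prime_two
  obtain ⟨c⟩ := exists_conj (show Nat.card F = 3 ^ 2 by rw [Nat.card_eq_fintype_card, hF])
  obtain ⟨ω, hωo, hω⟩ := exists_omega c hF (N := 4) (by norm_num)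
  have hωo' : orderOf ω = 2 ^ 2 := by rw [hωo]; norm_num
  have h2F : (2 : F) ≠ 0 := by
    intro h
    obtain ⟨p, hp⟩ := CharP.exists F
    obtain ⟨n, hpp, hn⟩ := FiniteField.card F p
    have : p = 2 := (Nat.prime_dvd_prime_iff_eq hpp Nat.prime_two).1
      ((CharP.cast_eq_zero_iff F p 2).1 (by exact_mod_cast h))
    subst this
    have h3 : 2 ∣ 3 ^ 2 := by rw [← hF, hn]; exact dvd_pow_self _ n.ne_zero
    norm_num at h3
  set a := wGen c (0 : Fin 4) with ha
  set e := wGen c (1 : Fin 4) * (wGen c 0 * wGen c 2) * (wGen c 1)⁻¹ with he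
  set b := e * a * e⁻¹ with hb
  have hew : e * wGen c (1 : Fin 4) = wGen c 1 * (wGen c 0 * wGen c 2) := by rw [he]; group
  -- the action of `e`
  have hev : ∀ v l, co (act e (act (wGen c (1 : Fin 4)) v)) l =
      co (act (wGen c (1 : Fin 4) * (wGen c 0 * wGen c 2)) v) l := fun v l => by rw [← act_mul, hew]
  have key : ∀ (l : ℕ) (v : Fin 5 → F), co (act e v) l =
      if l = 0 then -co v 2 else if l = 1 then co v 3 else if l = 2 then co v 0 else if l = 3 then -co v 1
        else co v l := by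
    intro l v
    obtain ⟨v, rfl⟩ : ∃ v', act (wGen c (1 : Fin 4)) v' = v := ⟨act (wGen c (1 : Fin 4))⁻¹ v, act_act_inv _ _⟩
    rw [hev]
    simp only [act_mul, wGen, co_wE c, show ((0 : Fin 4) : ℕ) = 0 from rfl,
      show ((1 : Fin 4) : ℕ) = 1 from rfl, show ((2 : Fin 4) : ℕ) = 2 from rfl]
    split_ifs <;> first | omega | contradiction | (subst_vars; simp)
  have hbB : b ∈ Blk c 5 2 2 := by
    intro k hk
    obtain ⟨j, t, hj2, hj5, hje⟩ : ∃ j, ∃ t : F, 2 ≤ j ∧ j < 5 ∧ act e (t • ev 5 F j) = Pi.single k 1 := by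
      refine ⟨if (k : ℕ) < 2 then k + 2 else k, if (k : ℕ) = 0 then -1 else 1, by split_ifs <;> omega,
        by split_ifs <;> omega, ?_⟩
      refine co_ext fun l hl => ?_
      rw [key, ← ev_eq_single, co_ev k.2]
      simp only [co_smul]
      split_ifs <;> rw [co_ev (by omega)] <;> split_ifs <;> first | omega | contradiction | simp
    rw [← hje, hb, act_mul, act_mul, act_inv_act, act_smul a,
      act_ev_Blk c (i := 0) (r := 2) (g := a) (wE_mem c 0 (show 0 + 2 ≤ 4 + 1 by omega)) (Or.inr hj2)]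
  have hae : ∀ t : SUg 5 F 3, t ∈ Tor c hω → ∀ S, t ∈ presSub S := fun t ht S => by
    obtain ⟨d, hd⟩ := isDiag_of_mem c hω ht; exact hd.mem_presSub S
  have hca : ∀ v l, co (act a v) l = if l = 0 then co v 1 else if l = 1 then -co v 0 else co v l :=
    fun v l => by simp only [ha, wGen, co_wE c, show ((0 : Fin 4) : ℕ) = 0 from rfl]
  have ha2 : a ∈ presSub ({2} : Set ℕ) := fun v => by
    constructor <;> intro hv j hj hjs <;> rw [Set.mem_singleton_iff] at hjs
    · rw [hca]; split_ifs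
      · exact hv 1 (by omega) (by simp)
      · rw [hv 0 (by omega) (by simp), neg_zero]
      · exact hv j hj (by simpa using hjs)
    · rcases (show j = 0 ∨ j = 1 ∨ (j ≠ 0 ∧ j ≠ 1) by omega) with rfl | rfl | ⟨h0, h1⟩
      · have := hv 1 (by omega) (by simp); rw [hca, if_neg (by omega), if_pos rfl, neg_eq_zero] at this
        exact this
      · have := hv 0 (by omega) (by simp); rwa [hca, if_pos rfl] at this
      · have := hv j hj (by simpa using hjs); rwa [hca, if_neg h0, if_neg h1] at this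
  have ha01 : a ∈ presSub ({0, 1} : Set ℕ) := fun v => forall₃_congr fun j hj hjs => by
    simp only [Set.mem_insert_iff, Set.mem_singleton_iff, not_or] at hjs
    rw [hca, if_neg hjs.1, if_neg hjs.2]
  have hb01 : b ∈ presSub ({0, 1} : Set ℕ) := fun v => by
    have hfix : ∀ w : Fin 5 → F, SuppIn ({0, 1} : Set ℕ) w → act b w = w := fun w hw =>
      act_fix_of_support fun k => by
        by_cases hk : (k : ℕ) < 2 ∨ 2 + 2 ≤ (k : ℕ)
        · exact Or.inl (hbB k hk)
        · have := hw k k.2 (by simp; omega)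
          rw [co_apply] at this
          exact Or.inr this
    refine ⟨fun hv => by rw [hfix v hv]; exact hv, fun hv => ?_⟩
    have : v = act b v := by conv_lhs => rw [← act_inv_act b v, ← hfix _ hv, act_inv_act]
    rw [this]; exact hv
  set H := Tor c hω ⊔ Subgroup.closure {a, e} with hH
  have haH : a ∈ H := Subgroup.mem_sup_right (Subgroup.subset_closure (Or.inl rfl))
  have heH : e ∈ H := Subgroup.mem_sup_right (Subgroup.subset_closure (Or.inr rfl))
  have hbH : b ∈ H := mul_mem (mul_mem heH haH) (inv_mem heH)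
  have hnT : ∀ i, wGen c i ∈ Subgroup.normalizer ((Tor c hω (k := 4)) : Set (SUg 5 F 3)) :=
    wGen_mem_normalizer c hω
  have heN : e ∈ Subgroup.normalizer ((Tor c hω (k := 4)) : Set (SUg 5 F 3)) :=
    mul_mem (mul_mem (hnT 1) (mul_mem (hnT 0) (hnT 2))) (inv_mem (hnT 1))
  have hsq : ∀ i : Fin 4, wGen c i ^ 2 ∈ Tor c hω := fun i => wGen_sq_mem c hω i (e := 2) (by rw [hωo])
  have he2 : e ^ 2 ∈ Tor c hω := by
    have h1 : Commute (wGen c (0 : Fin 4)) (wGen c 2) := Blk_comm c (wE_mem c 0 _) (wE_mem c 2 _) le_rfl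
    rw [he, conj_pow, h1.mul_pow]
    exact (Subgroup.mem_normalizer_iff.1 (hnT 1) _).1 (mul_mem (hsq 0) (hsq 2))
  have hab : Commute a b := Blk_comm c (wE_mem c 0 _) hbB le_rfl
  set T1 := Tor c hω ⊔ Subgroup.zpowers a with hT1
  set T2 := T1 ⊔ Subgroup.zpowers b with hT2
  have hT1S : T1 ≤ presSub ({2} : Set ℕ) := sup_le (fun t ht => hae t ht _) (Subgroup.zpowers_le.2 ha2)
  have hT2S : T2 ≤ presSub ({0, 1} : Set ℕ) :=
    sup_le (sup_le (fun t ht => hae t ht _) (Subgroup.zpowers_le.2 ha01)) (Subgroup.zpowers_le.2 hb01)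
  have hT1H : T1 ≤ H := sup_le le_sup_left (Subgroup.zpowers_le.2 haH)
  have hT2H : T2 ≤ H := sup_le hT1H (Subgroup.zpowers_le.2 hbH)
  have hbT1 : b ∉ T1 := fun h => by
    have he0 : act e (ev 5 F 0) = ev 5 F 2 := co_ext fun l hl => by
      rw [key, co_ev (show 2 < 5 by omega)]
      simp only [co_ev (show 0 < 5 by omega)]
      split_ifs <;> first | omega | contradiction | simp
    have h1 := ((hT1S h) (ev 5 F 2)).1
      (fun j hj hjs => by rw [co_ev (by omega)]; simp at hjs; simp [hjs]) 3 (by omega) (by simp)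
    rw [← he0, hb, act_mul, act_mul, act_inv_act, key, if_neg (by omega), if_neg (by omega),
      if_neg (by omega), if_pos rfl, hca, if_neg (by omega), if_pos rfl, co_ev (by omega), if_pos rfl] at h1
    simp at h1
  have heT2 : e ∉ T2 := fun h => by
    have h1 := ((hT2S h) (ev 5 F 0)).1
      (fun j hj hjs => by rw [co_ev (by omega)]; simp at hjs; simp [hjs.1]) 2 (by omega) (by simp)
    rw [key, if_neg (by omega), if_neg (by omega), if_pos rfl, co_ev (by omega), if_pos rfl] at h1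
    exact one_ne_zero h1
  have norm_sup : ∀ (K : Subgroup (SUg 5 F 3)) (g x : SUg 5 F 3),
      g ∈ Subgroup.normalizer (K : Set (SUg 5 F 3)) → g * x * g⁻¹ ∈ K ⊔ Subgroup.zpowers x →
      g ∈ Subgroup.normalizer ((K ⊔ Subgroup.zpowers x : Subgroup _) : Set (SUg 5 F 3)) := by
    intro K g x hg hx
    refine Subgroup.mem_normalizer_iff_map_conj_eq.2 (Subgroup.eq_of_le_of_card_ge ?_
      (Subgroup.card_map_of_injective (MulAut.conj g).injective).ge)
    rw [Subgroup.map_sup, MonoidHom.map_zpowers]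
    refine sup_le (le_sup_of_le_left ?_) (Subgroup.zpowers_le.2 hx)
    exact (Subgroup.mem_normalizer_iff_map_conj_eq.1 hg).le
  have hbN1 : b ∈ Subgroup.normalizer (T1 : Set (SUg 5 F 3)) := by
    refine norm_sup _ b a ?_ ?_
    · exact mul_mem (mul_mem heN (hnT 0)) (inv_mem heN)
    · rw [← hab.eq, mul_inv_cancel_right]; exact Subgroup.mem_sup_right (Subgroup.mem_zpowers a)
  have hb2 : b ^ 2 ∈ T1 := by
    rw [hb, conj_pow]
    exact Subgroup.mem_sup_left ((Subgroup.mem_normalizer_iff.1 heN _).1 (hsq 0))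
  have heN2 : e ∈ Subgroup.normalizer (T2 : Set (SUg 5 F 3)) := by
    have haN : a ∈ Subgroup.normalizer ((Tor c hω (k := 4)) : Set (SUg 5 F 3)) := hnT 0
    have hea : e * b * e⁻¹ ∈ Tor c hω ⊔ Subgroup.zpowers a := by
      have e1 : e * b * e⁻¹ = (e ^ 2 * (a * (e ^ 2)⁻¹ * a⁻¹)) * a := by rw [hb, pow_two]; group
      rw [e1]
      exact mul_mem (Subgroup.mem_sup_left (mul_mem he2
        ((Subgroup.mem_normalizer_iff.1 haN _).1 (inv_mem he2)))) (Subgroup.mem_sup_right (Subgroup.mem_zpowers a))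
    refine Subgroup.mem_normalizer_iff_map_conj_eq.2 (Subgroup.eq_of_le_of_card_ge ?_
      (Subgroup.card_map_of_injective (MulAut.conj e).injective).ge)
    rw [hT2, hT1, Subgroup.map_sup, Subgroup.map_sup, MonoidHom.map_zpowers, MonoidHom.map_zpowers]
    refine sup_le (sup_le (le_sup_of_le_left (le_sup_of_le_left ?_)) (Subgroup.zpowers_le.2 ?_))
      (Subgroup.zpowers_le.2 ?_)
    · exact (Subgroup.mem_normalizer_iff_map_conj_eq.1 heN).le
    · exact Subgroup.mem_sup_right (Subgroup.mem_zpowers b)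
    · exact Subgroup.mem_sup_left hea
  refine okAt_of_subgroup Nat.prime_two H (not_dvd_index _ Nat.prime_two (A := 11) (r := 3 ^ 10 * 2135)
    (by rw [card_su_five_three hF]; ring) (by norm_num) ?_) ?_
  · have h0 : orderOf ω ^ 4 ∣ Nat.card (Tor c hω (k := 4)) := card_tor_dvd c hω
    have h1 := mul_card_dvd (ℓ := 2) (le_sup_left : Tor c hω (k := 4) ≤ T1)
      (Subgroup.mem_sup_right (Subgroup.mem_zpowers a)) (hnT 0) (wGen_notMem_tor c hω 0) (hsq 0)
    have h2 := mul_card_dvd (ℓ := 2) (le_sup_left : T1 ≤ T2)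
      (Subgroup.mem_sup_right (Subgroup.mem_zpowers b)) hbN1 hbT1 hb2
    have h3 := mul_card_dvd (ℓ := 2) hT2H heH heN2 heT2 (Subgroup.mem_sup_left (Subgroup.mem_sup_left he2))
    refine dvd_trans ?_ h3
    refine dvd_trans ?_ (Nat.mul_dvd_mul_left 2 h2)
    refine dvd_trans ?_ (Nat.mul_dvd_mul_left 2 (Nat.mul_dvd_mul_left 2 h1))
    refine dvd_trans ?_ (Nat.mul_dvd_mul_left 2 (Nat.mul_dvd_mul_left 2 (Nat.mul_dvd_mul_left 2 h0)))
    rw [hωo]; norm_num
  intro Γ _ _ σ hσ z hz hzk _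
  have hs := hσ.1
  have hc := hσ.2.1
  have hder : ∀ i : Fin 4, tGen c hω i ∈ ⁅Blk c 5 i 2, Blk c 5 i 2⁆ ∧ wGen c i ∈ ⁅Blk c 5 i 2, Blk c 5 i 2⁆ :=
    fun i => commutator_blk c hω hF le_rfl i (fun _ => hωo) hωo'
  obtain ⟨hA, Th, hTh⟩ := exists_lift_two (σ := σ) c hω hs hc (by norm_num) h2F hωo' hder
  obtain ⟨a₀, ha₀⟩ := hs (wGen c (0 : Fin 4))
  obtain ⟨a₁, ha₁⟩ := hs (wGen c (1 : Fin 4))
  obtain ⟨a₂, ha₂⟩ := hs (wGen c (2 : Fin 4))
  set et := a₁ * (a₀ * a₂) * a₁⁻¹ with het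
  have hσe : σ et = e := by rw [het, map_mul, map_mul, map_mul, map_inv, ha₀, ha₁, ha₂]
  have n0 := hTh.2.2 0 a₀ ha₀
  have n1 := hTh.2.2 1 a₁ ha₁
  have n2 := hTh.2.2 2 a₂ ha₂
  have ne : et ∈ Subgroup.normalizer (Th : Set Γ) := mul_mem (mul_mem n1 (mul_mem n0 n2)) (inv_mem n1)
  set bt := et * a₀ * et⁻¹ with hbt
  have hσb : σ bt = b := by rw [hbt, map_mul, map_mul, map_inv, hσe, ha₀]
  have nb : bt ∈ Subgroup.normalizer (Th : Set Γ) := mul_mem (mul_mem ne n0) (inv_mem ne)
  have hcab : Commute a₀ bt := by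
    obtain ⟨d, hd, hde⟩ : ∃ d ∈ DP σ (Blk c 5 0 2), σ d = σ a₀ := by
      have := (hder 0).2
      rw [← ha₀, ← map_DP hs, Subgroup.mem_map] at this
      exact this
    have kk : ∀ g ∈ Blk c 5 0 2, ∀ g' ∈ Blk c 5 2 2, Commute g g' :=
      fun g hg g' hg' => Blk_comm c hg hg' le_rfl
    have h1 := comm_DP hc kk hd (y := bt) (by rw [hσb]; exact hbB)
    rw [← commutatorElement_eq_one_iff_commute, comm_eq_of_map_eq hc hde.symm rfl,
      commutatorElement_eq_one_iff_commute]
    exact h1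
  set γ := bt * a₀⁻¹ with hγ
  have nγ : γ ∈ Subgroup.normalizer (Th : Set Γ) := mul_mem nb (inv_mem n0)
  -- elements over the torus
  have hlift : ∀ g, σ g ∈ Tor c hω → ∃ y ∈ Th, ∃ k ∈ σ.ker, g = y * k := fun g hg => by
    rw [← hTh.2.1, Subgroup.mem_map] at hg
    obtain ⟨y, hy, hye⟩ := hg
    exact ⟨y, hy, y⁻¹ * g, by rw [MonoidHom.mem_ker, map_mul, map_inv, hye, inv_mul_cancel], by group⟩
  have hγ2 : γ ^ 2 ∈ Th := by
    obtain ⟨y, hy, k, hk, e0⟩ := hlift (a₀ ^ 2) (by rw [map_pow, ha₀]; exact hsq 0)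
    have e1 : bt ^ 2 = et * y * et⁻¹ * k := by
      rw [hbt, conj_pow, e0]
      calc et * (y * k) * et⁻¹ = et * y * (k * et⁻¹) := by group
        _ = _ := by rw [← ker_comm hc hk]; group
    have e2 : γ ^ 2 = bt ^ 2 * (a₀ ^ 2)⁻¹ := by rw [hγ, hcab.symm.inv_right.mul_pow, inv_pow]
    rw [e2, e1, e0, show et * y * et⁻¹ * k * (y * k)⁻¹ = et * y * et⁻¹ * y⁻¹ by group]
    exact mul_mem ((Subgroup.mem_normalizer_iff.1 ne _).1 hy) (inv_mem hy)
  set N := Th ⊔ Subgroup.zpowers γ with hN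
  have hNfree : KerFree σ N := by
    intro x hx h1
    rw [hN, ← SetLike.mem_coe, Subgroup.coe_mul_of_right_le_normalizer_left _ _ (Subgroup.zpowers_le.2 nγ)] at hx
    obtain ⟨y, hy, w, hw, rfl⟩ := hx
    obtain ⟨n, rfl⟩ := hw
    rcases Int.even_or_odd n with ⟨r, rfl⟩ | ⟨r, rfl⟩
    · refine hTh.1 _ (mul_mem hy ?_) h1
      show γ ^ (r + r) ∈ Th
      rw [← two_mul, zpow_mul, zpow_two, ← pow_two]
      exact zpow_mem hγ2 r
    · exfalso
      apply hbT1
      have hm : y * (γ ^ 2) ^ r ∈ Th := mul_mem hy (zpow_mem hγ2 r)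
      have e1 : y * γ ^ (2 * r + 1) = y * (γ ^ 2) ^ r * γ := by
        rw [zpow_add_one, ← mul_assoc y, zpow_mul, zpow_two, ← pow_two]
      have h2 : σ γ = (σ (y * (γ ^ 2) ^ r))⁻¹ := by
        refine eq_inv_of_mul_eq_one_right ?_
        rw [← map_mul, ← e1]
        exact h1
      have h3 : b * a⁻¹ ∈ T1 := by
        have : σ γ = b * a⁻¹ := by rw [hγ, map_mul, map_inv, hσb, ha₀]
        rw [← this, h2]
        exact inv_mem (Subgroup.mem_sup_left (hTh.2.1.le ⟨_, hm, rfl⟩))
      simpa using mul_mem h3 (Subgroup.mem_sup_right (Subgroup.mem_zpowers a) : a ∈ T1)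
  have normN : ∀ g : Γ, g ∈ Subgroup.normalizer (Th : Set Γ) → g * γ * g⁻¹ ∈ N →
      g ∈ Subgroup.normalizer (N : Set Γ) := fun g hg hx => by
    refine Subgroup.mem_normalizer_iff_map_conj_eq.2 (Subgroup.eq_of_le_of_card_ge ?_
      (Subgroup.card_map_of_injective (MulAut.conj g).injective).ge)
    rw [hN, Subgroup.map_sup, MonoidHom.map_zpowers]
    exact sup_le (le_sup_of_le_left (Subgroup.mem_normalizer_iff_map_conj_eq.1 hg).le)
      (Subgroup.zpowers_le.2 hx)
  have hle : DP σ H ≤ N := by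
    refine DP_le_of_gens hc ((Th : Set Γ) ∪ {a₀, et}) ?_ N ?_ ?_
    · rw [hH, Set.image_union, Subgroup.closure_union, ← MonoidHom.map_closure, Subgroup.closure_eq, hTh.2.1,
        Set.image_pair, ha₀, hσe]
    · rintro s (hs' | hs' | hs')
      · exact Subgroup.le_normalizer (Subgroup.mem_sup_left hs')
      · rw [hs']
        refine normN _ n0 ?_
        have : Commute a₀ γ := hcab.mul_right ((Commute.refl a₀).inv_right)
        rw [this.eq, mul_inv_cancel_right]
        exact Subgroup.mem_sup_right (Subgroup.mem_zpowers γ)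
      · rw [Set.mem_singleton_iff.1 hs']
        refine normN _ ne ?_
        obtain ⟨y, hy, k, hk, e0⟩ := hlift (et ^ 2) (by rw [map_pow, hσe]; exact he2)
        have e1 : et * γ * et⁻¹ = (et ^ 2 * a₀ * (et ^ 2)⁻¹ * a₀⁻¹) * γ⁻¹ := by
          rw [hγ, hbt, pow_two]; group
        rw [e1, e0]
        refine mul_mem (Subgroup.mem_sup_left ?_) (inv_mem (Subgroup.mem_sup_right (Subgroup.mem_zpowers γ)))
        have e2 : y * k * a₀ * (y * k)⁻¹ * a₀⁻¹ = y * (a₀ * y⁻¹ * a₀⁻¹) := by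
          calc y * k * a₀ * (y * k)⁻¹ * a₀⁻¹ = y * (k * a₀) * k⁻¹ * y⁻¹ * a₀⁻¹ := by group
            _ = _ := by rw [← ker_comm hc hk a₀]; group
        rw [e2]
        exact mul_mem hy ((Subgroup.mem_normalizer_iff.1 n0 _).1 (inv_mem hy))
    · have hT : ∀ y ∈ Th, σ y ∈ Tor c hω := fun y hy => hTh.2.1.le ⟨y, hy, rfl⟩
      have hmix : ∀ g : Γ, g ∈ Subgroup.normalizer (Th : Set Γ) → ∀ y ∈ Th, ⁅g, y⁆ ∈ N := fun g hg y hy => by
        rw [commutatorElement_def]
        exact Subgroup.mem_sup_left (mul_mem ((Subgroup.mem_normalizer_iff.1 hg y).1 hy) (inv_mem hy))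
      have hea : ⁅et, a₀⁆ = γ := by rw [hγ, hbt, commutatorElement_def]
      rintro s (hs' | hs' | hs') t (ht | ht | ht)
      · rw [commutatorElement_eq_one_iff_commute.2 (hA s t (hT s hs') (hT t ht))]; exact one_mem _
      · rw [ht, ← commutatorElement_inv]; exact inv_mem (hmix _ n0 s hs')
      · rw [Set.mem_singleton_iff.1 ht, ← commutatorElement_inv]; exact inv_mem (hmix _ ne s hs')
      · rw [hs']; exact hmix _ n0 t ht
      · rw [hs', ht, commutatorElement_self]; exact one_mem _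
      · rw [hs', Set.mem_singleton_iff.1 ht, ← commutatorElement_inv, hea]
        exact inv_mem (Subgroup.mem_sup_right (Subgroup.mem_zpowers γ))
      · rw [Set.mem_singleton_iff.1 hs']; exact hmix _ ne t ht
      · rw [Set.mem_singleton_iff.1 hs', ht, hea]; exact Subgroup.mem_sup_right (Subgroup.mem_zpowers γ)
      · rw [Set.mem_singleton_iff.1 hs', Set.mem_singleton_iff.1 ht, commutatorElement_self]; exact one_mem _
  exact hNfree z (hle hz) hzk

theorem okAt_five_coprime (hF : Fintype.card F = q ^ 2) (hq : q = 2 ∨ q = 3) {p : ℕ} (hp : p.Prime)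
    (h0 : ¬ p ∣ q) : OKAt (SUg 5 F q) p := by
  rcases hq with rfl | rfl
  · by_cases h3 : p = 3
    · subst h3; exact okAt_five_two_three hF
    refine okAt_of_sq_not_dvd hp fun h => ?_
    rw [card_su_five_two hF, show (13685760 : ℕ) = 2 ^ 10 * (3 ^ 5 * 55) by norm_num] at h
    have hcop : ∀ n : ℕ, n.Prime → p ≠ n → ∀ i, (p ^ 2).Coprime (n ^ i) := fun n hn hne i =>
      ((Nat.coprime_primes hp hn).2 hne).pow _ _
    have h2 := (hcop 3 Nat.prime_three h3 5).dvd_of_dvd_mul_left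
      ((hcop 2 Nat.prime_two (fun e => h0 (e ▸ dvd_rfl)) 10).dvd_of_dvd_mul_left h)
    have := Nat.le_of_dvd (by norm_num) h2
    have hp7 : p ≤ 7 := by nlinarith
    interval_cases p <;> first | (norm_num at hp; done) | (norm_num at h2)
  · by_cases h2 : p = 2
    · subst h2; exact okAt_five_three_two hF
    refine okAt_of_sq_not_dvd hp fun h => ?_
    rw [card_su_five_three hF] at h
    have hcop : ∀ n : ℕ, n.Prime → p ≠ n → ∀ i, (p ^ 2).Coprime (n ^ i) := fun n hn hne i =>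
      ((Nat.coprime_primes hp hn).2 hne).pow _ _
    have h5 := (hcop 2 Nat.prime_two h2 11).dvd_of_dvd_mul_left
      ((hcop 3 Nat.prime_three (fun e => h0 (e ▸ dvd_rfl)) 10).dvd_of_dvd_mul_left h)
    have := Nat.le_of_dvd (by norm_num) h5
    have hp46 : p ≤ 46 := by nlinarith
    interval_cases p <;> first | (norm_num at hp; done) | (norm_num at h5)

end CfsgLib.SUMult
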