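import Cfsg.Agent.Lib.SUMult.Elems

/-!
The radical of the stabiliser of an isotropic vector in `SU_5(q)`.
-/

set_option autoImplicit false
set_option linter.unusedSectionVars false

open Matrix

namespace CfsgLib.SUMult

open CfsgLib.SUAmalgam CfsgLib.ClassicalForms

universe u

variable {F : Type u} [Field F] [Fintype F] {q : ℕ} (c : Conj F q)

/-- A vector on the last three coordinates. -/
def iota (h : Fin 3 → F) : Fin 5 → F := ![0, 0, h 0, h 1, h 2]

/-- An isotropic vector on the first two coordinates. -/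
def vK (κ : F) : Fin 5 → F := ![1, κ, 0, 0, 0]

/-- The norm on the last three coordinates. -/
def nH (h : Fin 3 → F) : F := Cfsg.hermForm 5 F q (iota h) (iota h)

/-- Parameters of the radical. -/
abbrev RP := {x : (Fin 3 → F) × F // x.2 + c.σ x.2 + nH (q := q) x.1 = 0}

/-- The matrix of a radical element. -/
def rMat (κ : F) (h : Fin 3 → F) (a : F) : Matrix (Fin 5) (Fin 5) F :=
  1 + vecMulVec (iota h) (c.σ ∘ vK κ) + vecMulVec (vK κ) (fun i => -c.σ (iota h i) + a * c.σ (vK κ i))

theorem iota_add (h h' : Fin 3 → F) : iota (h + h') = iota h + iota h' := by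
  funext i; fin_cases i <;> simp [iota]

theorem iota_smul (r : F) (h : Fin 3 → F) : iota (r • h) = r • iota h := by
  funext i; fin_cases i <;> simp [iota]

theorem iota_zero : iota (0 : Fin 3 → F) = 0 := by funext i; fin_cases i <;> simp [iota]

theorem vecMul_apply (x w y : Fin 5 → F) : vecMulVec x w *ᵥ y = (∑ i, w i * y i) • x := by
  funext j
  simp only [Matrix.mulVec, dotProduct, vecMulVec_apply, Pi.smul_apply, smul_eq_mul, Finset.sum_mul]
  exact Finset.sum_congr rfl fun i _ => by ring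

theorem rMat_apply (κ : F) (h : Fin 3 → F) (a : F) (y : Fin 5 → F) :
    rMat c κ h a *ᵥ y = y + Cfsg.hermForm 5 F q y (vK κ) • iota h +
      (-Cfsg.hermForm 5 F q y (iota h) + a * Cfsg.hermForm 5 F q y (vK κ)) • vK κ := by
  rw [rMat, Matrix.add_mulVec, Matrix.add_mulVec, Matrix.one_mulVec, vecMul_apply, vecMul_apply]
  congr 2
  · congr 1
    rw [c.herm_apply]
    exact Finset.sum_congr rfl fun i _ => mul_comm _ _
  · rw [c.herm_apply, c.herm_apply, Finset.mul_sum, ← Finset.sum_neg_distrib, ← Finset.sum_add_distrib]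
    exact Finset.sum_congr rfl fun i _ => by ring

variable {κ : F} (hκ : κ * c.σ κ = -1)

include c in
theorem herm_vK_iota (h : Fin 3 → F) : Cfsg.hermForm 5 F q (iota h) (vK κ) = 0 := by
  simp [c.herm_apply, Fin.sum_univ_five, iota, vK]

include c in
theorem herm_iota_vK (h : Fin 3 → F) : Cfsg.hermForm 5 F q (vK κ) (iota h) = 0 := by
  simp [c.herm_apply, Fin.sum_univ_five, iota, vK]

include hκ in
theorem herm_vK : Cfsg.hermForm 5 F q (vK κ) (vK κ) = 0 := by
  simp [c.herm_apply, Fin.sum_univ_five, vK, hκ]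

include hκ in
theorem rMat_mul (h h' : Fin 3 → F) (a a' : F) :
    rMat c κ h a * rMat c κ h' a' =
      rMat c κ (h + h') (a + a' - Cfsg.hermForm 5 F q (iota h') (iota h)) := by
  refine Matrix.ext_of_mulVec_single fun k => ?_
  rw [← Matrix.mulVec_mulVec]
  simp only [rMat_apply, c.add_left, c.smul_left, herm_vK c hκ, herm_vK_iota c, herm_iota_vK c, iota_add,
    c.add_right, smul_add, mul_zero, add_zero, neg_add_rev]
  module

theorem rMat_zero : rMat c κ (0 : Fin 3 → F) 0 = 1 := by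
  refine Matrix.ext_of_mulVec_single fun k => ?_
  rw [rMat_apply, Matrix.one_mulVec, iota_zero, c.zero_right, neg_zero, zero_mul, add_zero, smul_zero,
    zero_smul, add_zero, add_zero]

include hκ in
theorem rMat_pow_exists (h : Fin 3 → F) (a : F) (n : ℕ) :
    ∃ b, rMat c κ h a ^ n = rMat c κ ((n : F) • h) b ∧ (h = 0 → b = (n : F) * a) := by
  induction n with
  | zero => exact ⟨0, by simp [rMat_zero], fun _ => by simp⟩
  | succ n ih =>
    obtain ⟨b, hb, hb0⟩ := ih
    refine ⟨_, by rw [pow_succ, hb, rMat_mul c hκ, Nat.cast_succ, add_smul, one_smul], fun h0 => ?_⟩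
    subst h0
    rw [hb0 rfl, iota_zero, c.zero_left]
    push_cast; ring

include hκ in
theorem det_rMat (h : Fin 3 → F) (a : F) : (rMat c κ h a).det = 1 := by
  obtain ⟨p, hp⟩ := CharP.exists F
  obtain ⟨n, hpp, -⟩ := FiniteField.card F p
  have := Fact.mk hpp
  obtain ⟨b, hb, -⟩ := rMat_pow_exists c hκ h a p
  obtain ⟨b', hb', hb0⟩ := rMat_pow_exists c hκ ((p : F) • h) b p
  have hp0 : (p : F) = 0 := CharP.cast_eq_zero F p
  have h1 : rMat c κ h a ^ (p * p) = 1 := by
    rw [pow_mul, hb, hb', hb0 (by rw [hp0, zero_smul]), hp0]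
    simp [rMat_zero]
  have h2 : (rMat c κ h a).det ^ p ^ 2 = 1 := by rw [pow_two, ← Matrix.det_pow, h1, Matrix.det_one]
  exact (frobenius_inj F p).iterate 2 (by simpa [iterate_frobenius] using h2)

include hκ in
theorem herm_rMat (x : RP c) (y y' : Fin 5 → F) :
    Cfsg.hermForm 5 F q (rMat c κ x.1.1 x.1.2 *ᵥ y) (rMat c κ x.1.1 x.1.2 *ᵥ y') =
      Cfsg.hermForm 5 F q y y' := by
  have hx := x.2
  unfold nH at hx
  rw [rMat_apply, rMat_apply]
  simp only [c.add_left, c.add_right, c.smul_left, c.smul_right, herm_vK c hκ, herm_vK_iota c,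
    herm_iota_vK c, map_add, map_neg, map_mul, ← c.herm_symm]
  linear_combination (Cfsg.hermForm 5 F q y (vK κ) * Cfsg.hermForm 5 F q (vK κ) y') * hx

/-- A radical element. -/
def gR (x : RP c) : SUg 5 F q :=
  mk (rMat c κ x.1.1 x.1.2) (det_rMat c hκ _ _) (herm_rMat c hκ x)

theorem act_gR (x : RP c) (y : Fin 5 → F) :
    act (gR c hκ x) y = y + Cfsg.hermForm 5 F q y (vK κ) • iota x.1.1 +
      (-Cfsg.hermForm 5 F q y (iota x.1.1) + x.1.2 * Cfsg.hermForm 5 F q y (vK κ)) • vK κ :=
  rMat_apply c κ _ _ y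

/-- The product of parameters. -/
def rmul (x x' : RP c) : RP c :=
  ⟨(x.1.1 + x'.1.1, x.1.2 + x'.1.2 - Cfsg.hermForm 5 F q (iota x'.1.1) (iota x.1.1)), by
    have h1 := x.2; have h2 := x'.2
    simp only [nH, iota_add, c.add_left, c.add_right, map_add, map_sub, ← c.herm_symm] at h1 h2 ⊢
    linear_combination h1 + h2⟩

theorem gR_mul (x x' : RP c) : gR c hκ x * gR c hκ x' = gR c hκ (rmul c x x') :=
  Subtype.ext (Subtype.ext (rMat_mul c hκ _ _ _ _))

theorem gR_injective : Function.Injective (gR c hκ) := fun x x' e => by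
  have h1 := congrArg (fun g => act g (Pi.single (0 : Fin 5) (1 : F))) e
  simp only [act_gR, c.single_left] at h1
  have e0 := congrFun h1 0
  have e2 := congrFun h1 2
  have e3 := congrFun h1 3
  have e4 := congrFun h1 4
  simp [iota, vK] at e0 e2 e3 e4
  refine Subtype.ext (Prod.ext ?_ e0)
  funext i; fin_cases i
  · exact e2
  · exact e3
  · exact e4

/-- The radical. -/
def Rad : Subgroup (SUg 5 F q) where
  carrier := Set.range (gR c hκ)
  one_mem' := ⟨⟨(0, 0), by simp [nH, iota_zero, c.zero_left]⟩, Subtype.ext (Subtype.ext (rMat_zero c))⟩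
  mul_mem' := by rintro _ _ ⟨x, rfl⟩ ⟨x', rfl⟩; exact ⟨_, (gR_mul c hκ x x').symm⟩
  inv_mem' := by
    rintro _ ⟨x, rfl⟩
    refine ⟨⟨(-x.1.1, -x.1.2 - Cfsg.hermForm 5 F q (iota x.1.1) (iota x.1.1)), ?_⟩, ?_⟩
    · have h1 := x.2
      have hn : iota (-x.1.1) = -iota x.1.1 := by rw [← neg_one_smul F, iota_smul, neg_one_smul]
      have hn' : nH (q := q) (-x.1.1) = nH (q := q) x.1.1 := by
        rw [nH, hn, ← neg_one_smul F (iota x.1.1), c.smul_left, c.smul_right, map_neg, map_one]
        simp [nH]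
      rw [hn']
      simp only [nH, map_sub, map_neg, c.herm_self] at h1 ⊢
      linear_combination -h1
    · refine eq_inv_of_mul_eq_one_left ?_
      rw [gR_mul]
      refine Subtype.ext (Subtype.ext ?_)
      show rMat c κ (-x.1.1 + x.1.1) ((-x.1.2 - Cfsg.hermForm 5 F q (iota x.1.1) (iota x.1.1)) + x.1.2 -
        Cfsg.hermForm 5 F q (iota x.1.1) (iota (-x.1.1))) = 1
      rw [neg_add_cancel, show ((-x.1.2 - Cfsg.hermForm 5 F q (iota x.1.1) (iota x.1.1)) + x.1.2 -
        Cfsg.hermForm 5 F q (iota x.1.1) (iota (-x.1.1))) = 0 by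
          have hn : iota (-x.1.1) = -iota x.1.1 := by rw [← neg_one_smul F, iota_smul, neg_one_smul]
          rw [hn, ← neg_one_smul F (iota x.1.1), c.smul_right, map_neg, map_one]; ring,
        rMat_zero]

theorem card_skew (hF : Nat.card F = q ^ 2) : Nat.card {k : F // c.σ k = -k} = q := by
  obtain ⟨δ, hδ0, hδ⟩ : ∃ δ : F, δ ≠ 0 ∧ c.σ δ = -δ := by
    obtain ⟨ζ, hζ⟩ : ∃ ζ, c.σ ζ ≠ ζ := by
      by_contra! h; exact c.ne (RingHom.ext h)
    exact ⟨ζ - c.σ ζ, sub_ne_zero.2 fun e => hζ e.symm, by rw [map_sub, c.invol, neg_sub]⟩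
  refine Eq.trans ?_ (c.card_fixed hF)
  refine (Nat.card_congr (α := {x : F // c.σ x = x}) ⟨fun x => ⟨x.1 * δ, by rw [map_mul, x.2, hδ, mul_neg]⟩,
    fun k => ⟨k.1 / δ, by rw [map_div₀, k.2, hδ, neg_div_neg_eq]⟩, fun x => Subtype.ext (mul_div_cancel_right₀ _ hδ0),
    fun k => Subtype.ext (div_mul_cancel₀ _ hδ0)⟩).symm

theorem card_Rad (hF : Nat.card F = q ^ 2) : Nat.card (Rad c hκ) = q ^ 7 := by
  classical
  have hex : ∀ h : Fin 3 → F, ∃ a, a + c.σ a = -nH (q := q) h := fun h => by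
    obtain ⟨θ, hθ⟩ := c.exists_trace_one
    refine ⟨-nH (q := q) h * θ, ?_⟩
    have hs : c.σ (nH (q := q) h) = nH (q := q) h := c.herm_self _
    rw [map_mul, map_neg, hs]
    linear_combination (-nH (q := q) h) * hθ
  choose r hr using hex
  let e : RP c ≃ (Fin 3 → F) × {k : F // c.σ k = -k} :=
    { toFun := fun x => (x.1.1, ⟨x.1.2 - r x.1.1, by
        have := x.2; have := hr x.1.1; rw [map_sub]; grobner⟩)
      invFun := fun x => ⟨(x.1, r x.1 + x.2.1), by
        have := hr x.1; have hk := x.2.2; rw [map_add, hk]; linear_combination this⟩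
      left_inv := fun x => Subtype.ext (Prod.ext rfl (by show r _ + (_ - r _) = _; ring))
      right_inv := fun x => Prod.ext rfl (Subtype.ext (by show r _ + _ - r _ = _; ring)) }
  show Nat.card (Set.range (gR c hκ)) = _
  rw [Nat.card_range_of_injective (gR_injective c hκ), Nat.card_congr e, Nat.card_prod, Nat.card_fun,
    Nat.card_fin, hF, card_skew c hF]
  ring

/-- The coordinates of a vector in the block. -/
def resH (x : Fin 5 → F) : Fin 3 → F := ![x 2, x 3, x 4]

theorem iota_resH_of_Blk {l : SUg 5 F q} (hl : l ∈ Blk c 5 2 3) (h : Fin 3 → F) :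
    iota (resH (act l (iota h))) = act l (iota h) := by
  funext i
  have h0 := co_Blk c hl (j := 0) (Or.inl (by omega)) (iota h)
  have h1 := co_Blk c hl (j := 1) (Or.inl (by omega)) (iota h)
  rw [co_mk _ (show 0 < 5 by omega), co_mk _ (show 0 < 5 by omega)] at h0
  rw [co_mk _ (show 1 < 5 by omega), co_mk _ (show 1 < 5 by omega)] at h1
  fin_cases i
  · simpa [iota, resH] using h0.symm
  · simpa [iota, resH] using h1.symm
  all_goals simp [iota, resH]

/-- The parameter moved by a block element. -/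
def lact (l : Blk c 5 2 3) (x : RP c) : RP c :=
  ⟨(resH (act (l : SUg 5 F q) (iota x.1.1)), x.1.2), by
    have := x.2
    rwa [nH, iota_resH_of_Blk c l.2, herm_act]⟩

theorem conj_gR (l : Blk c 5 2 3) (x : RP c) :
    (l : SUg 5 F q) * gR c hκ x * (l : SUg 5 F q)⁻¹ = gR c hκ (lact c l x) := by
  have hv : act (l : SUg 5 F q) (vK κ) = vK κ := act_fix_of_support fun k => by
    by_cases hk : (k : ℕ) < 2
    · exact Or.inl (l.2 k (Or.inl hk))
    · refine Or.inr ?_
      fin_cases k <;> simp [vK] at hk ⊢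
  refine ext_act fun k => ?_
  set y : Fin 5 → F := Pi.single k 1
  obtain ⟨y', hy'⟩ : ∃ y', act (l : SUg 5 F q) y' = y := ⟨_, act_act_inv _ y⟩
  rw [act_mul, act_mul, ← hy', act_inv_act, act_gR, act_gR, act_add, act_add, act_smul, act_smul, hv,
    show iota (lact c l x).1.1 = act (l : SUg 5 F q) (iota x.1.1) from iota_resH_of_Blk c l.2 _]
  have e1 : Cfsg.hermForm 5 F q (act (l : SUg 5 F q) y') (vK κ) = Cfsg.hermForm 5 F q y' (vK κ) := by
    conv_lhs => rw [← hv, herm_act]
  rw [e1, herm_act]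
  rfl

theorem conj_diag {t : SUg 5 F q} {d : ℕ → Fˣ} (ht : IsDiag t d) (h1 : d 1 = d 0)
    (h3 : d 3 = d 2) (h4 : d 4 = d 2) (x : RP c) :
    ∃ x' : RP c, x'.1.1 = (c.σ (d 0 : F) * (d 2 : F)) • x.1.1 ∧ x'.1.2 = x.1.2 ∧
      t * gR c hκ x * t⁻¹ = gR c hκ x' := by
  have hnorm : ∀ j, j < 5 → (d j : F) * c.σ (d j : F) = 1 := by
    intro j hj
    have e := herm_act t (ev 5 F j) (ev 5 F j)
    have hs : act t (ev 5 F j) = (d j : F) • ev 5 F j := co_ext fun l hl => by
      rw [ht _ l hl, co_smul, co_ev hj]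
      split_ifs with h0 <;> simp [h0]
    rw [hs, c.smul_left, c.smul_right, show Cfsg.hermForm 5 F q (ev 5 F j) (ev 5 F j) = 1 by
      rw [show ev 5 F j = Pi.single (⟨j, hj⟩ : Fin 5) 1 from ev_eq_single ⟨j, hj⟩, c.single_right, Pi.single_eq_same]] at e
    linear_combination e
  set r := c.σ (d 0 : F) * (d 2 : F) with hr
  have hrn : r * c.σ r = 1 := by
    rw [hr, map_mul, c.invol]; linear_combination (d 0 : F) * c.σ (d 0 : F) * hnorm 2 (by omega) + hnorm 0 (by omega)
  refine ⟨⟨(r • x.1.1, x.1.2), ?_⟩, rfl, rfl, ?_⟩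
  · have := x.2
    simp only [nH, iota_smul, c.smul_left, c.smul_right] at this ⊢
    linear_combination this + Cfsg.hermForm 5 F q (iota x.1.1) (iota x.1.1) * hrn
  have hv : act t (vK κ) = (d 0 : F) • vK κ := co_ext fun l hl => by
    rw [ht _ l hl, co_smul]
    interval_cases l <;> simp [co, vK, h1]
  have hi : act t (iota x.1.1) = (d 2 : F) • iota x.1.1 := co_ext fun l hl => by
    rw [ht _ l hl, co_smul]
    interval_cases l <;> simp [co, iota, h3, h4]
  refine ext_act fun k => ?_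
  obtain ⟨y', hy'⟩ : ∃ y', act t y' = Pi.single k 1 := ⟨_, act_act_inv _ _⟩
  have e1 : Cfsg.hermForm 5 F q (act t y') (vK κ) = (d 0 : F) * Cfsg.hermForm 5 F q y' (vK κ) := by
    have := herm_act t y' (vK κ)
    rw [hv, c.smul_right] at this
    linear_combination (d 0 : F) * this - Cfsg.hermForm 5 F q (act t y') (vK κ) * hnorm 0 (by omega)
  have e2 : Cfsg.hermForm 5 F q (act t y') (iota x.1.1) = (d 2 : F) * Cfsg.hermForm 5 F q y' (iota x.1.1) := by
    have := herm_act t y' (iota x.1.1)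
    rw [hi, c.smul_right] at this
    linear_combination (d 2 : F) * this - Cfsg.hermForm 5 F q (act t y') (iota x.1.1) * hnorm 2 (by omega)
  rw [act_mul, act_mul, ← hy', act_inv_act, act_gR, act_gR, act_add, act_add, act_smul, act_smul, hv, hi]
  simp only [iota_smul, c.smul_right, e1, e2, smul_smul, hr, map_mul, c.invol]
  refine congrArg₂ (· + ·) (congrArg (_ + ·) (congrArg (· • _) ?_)) (congrArg (· • _) ?_)
  · linear_combination (-(d 2 : F) * Cfsg.hermForm 5 F q y' (vK κ)) * hnorm 0 (by omega)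
  · linear_combination ((d 0 : F) * Cfsg.hermForm 5 F q y' (iota x.1.1)) * hnorm 2 (by omega)

end CfsgLib.SUMult
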