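import Cfsg.Agent.Lib.SUMult.Orders
import Cfsg.Agent.Lib.SU3Pres.Fields
import Mathlib.FieldTheory.Finite.Basic
import Mathlib.FieldTheory.Normal.Basic

/-!
The characteristic for `SU_3(q)`, `q ≥ 3`.
-/

set_option autoImplicit false
set_option linter.unusedSectionVars false
set_option linter.style.haveILetI false

namespace CfsgLib.SUMult

open CfsgLib.SUAmalgam CfsgLib.SchurMult CfsgLib.ClassicalForms CfsgLib.Amalgams CfsgLib.SU3Pres
open Polynomial
open scoped commutatorElement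

universe u v

variable {F : Type u} [Field F] [Fintype F] {q : ℕ}

/-- A biadditive map invariant under simultaneous scaling by `μ` vanishes when the minimal polynomial of `μ` does
not kill `μ⁻¹`. -/
theorem pairing_zero_of_inv {p : ℕ} [Fact p.Prime] [Algebra (ZMod p) F] {W : Type v} [AddCommGroup W]
    (e : F → F → W) (hl : ∀ a b d, e (a + b) d = e a d + e b d) (hr : ∀ a b d, e a (b + d) = e a b + e a d)
    (μ : Fˣ) (hinv : ∀ a b, e ((μ : F) * a) ((μ : F) * b) = e a b)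
    (hne : aeval ((μ⁻¹ : Fˣ) : F) (minpoly (ZMod p) (μ : F)) ≠ 0) (a b : F) : e a b = 0 := by
  have h0l : ∀ y, e 0 y = 0 := fun y => by have := hl 0 0 y; rw [add_zero] at this; exact add_eq_left.1 this.symm
  have h0r : ∀ x, e x 0 = 0 := fun x => by have := hr x 0 0; rw [add_zero] at this; exact add_eq_left.1 this.symm
  have hn : ∀ (n : ℕ) (x y : F), e x ((n : F) * y) = e ((n : F) * x) y := by
    intro n
    induction n with
    | zero => intro x y; simp [h0l, h0r]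
    | succ n ih => intro x y; push_cast; rw [add_mul, add_mul, one_mul, one_mul, hr, hl, ih]
  have key : ∀ P : (ZMod p)[X], ∀ x y,
      e x (aeval (μ : F) P * y) = e (aeval ((μ⁻¹ : Fˣ) : F) P * x) y := by
    intro P
    induction P using Polynomial.induction_on' with
    | add P Q hP hQ => intro x y; rw [map_add, map_add, add_mul, add_mul, hr, hl, hP, hQ]
    | monomial n a =>
      intro x y
      rw [aeval_monomial, aeval_monomial, ← ZMod.natCast_zmod_val a, map_natCast, mul_assoc, hn, mul_assoc]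
      induction n generalizing x y with
      | zero => rw [pow_zero, pow_zero, one_mul, one_mul]
      | succ n ih =>
        have h1 : ∀ z, e z (((μ : F) ^ (n + 1)) * y) = e (((μ⁻¹ : Fˣ) : F) * z) ((μ : F) ^ n * y) := fun z => by
          rw [← hinv ((μ⁻¹ : Fˣ) * z) ((μ : F) ^ n * y), ← mul_assoc, Units.mul_inv, one_mul, pow_succ', mul_assoc]
        rw [h1, ← mul_assoc, mul_comm _ (a.val : F), mul_assoc, ih]
        congr 1
        rw [pow_succ]; ring
  have := key (minpoly (ZMod p) (μ : F)) ((aeval ((μ⁻¹ : Fˣ) : F) (minpoly (ZMod p) (μ : F)))⁻¹ * a) b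
  rw [minpoly.aeval, zero_mul, h0r, mul_inv_cancel_left₀ hne] at this
  exact this.symm

/-- The torus character of a generator is not conjugate to its inverse. -/
theorem aeval_inv_ne {σ : F →+* F} (h : UniField F σ q) (hq : 3 ≤ q) {p f : ℕ} [hp : Fact p.Prime]
    [Algebra (ZMod p) F] (hqp : q = p ^ f) {g : Fˣ} (hg : orderOf g = q ^ 2 - 1) :
    aeval (((muU σ g)⁻¹ : Fˣ) : F) (minpoly (ZMod p) ((muU σ g : Fˣ) : F)) ≠ 0 := by
  intro h0
  set μ := muU σ g with hμ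
  obtain ⟨φ, hφ⟩ : ∃ φ : Gal(F/ZMod p), φ (μ : F) = ((μ⁻¹ : Fˣ) : F) := by
    obtain ⟨φ, hφ⟩ := (Normal.minpoly_eq_iff_mem_orbit (F := ZMod p) (E := F) (x := ((μ⁻¹ : Fˣ) : F)) (y := (μ : F))).1
      (minpoly.eq_of_irreducible_of_monic (minpoly.irreducible (IsIntegral.of_finite (ZMod p) (μ : F))) h0
        (minpoly.monic (IsIntegral.of_finite (ZMod p) (μ : F)))).symm
    exact ⟨φ, hφ⟩
  obtain ⟨n, rfl⟩ := (FiniteField.bijective_frobeniusAlgEquivOfAlgebraic_pow (ZMod p) F).2 φ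
  have hfr : ∀ (i : ℕ) (x : F), (FiniteField.frobeniusAlgEquivOfAlgebraic (ZMod p) F ^ i) x = x ^ p ^ i := by
    intro i
    induction i with
    | zero => intro x; simp
    | succ i ih =>
      intro x
      rw [pow_succ, AlgEquiv.mul_apply, ih, FiniteField.coe_frobeniusAlgEquivOfAlgebraic, ← pow_mul,
        Fintype.card_eq_nat_card, Nat.card_zmod, ← pow_succ']
  rw [hfr, ← Units.val_pow_eq_pow_val] at hφ
  have hμr : μ ^ p ^ (n : ℕ) = μ⁻¹ := Units.ext hφ
  have hfin : Module.finrank (ZMod p) F = 2 * f := by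
    have h1 := Module.natCard_eq_pow_finrank (K := ZMod p) (V := F)
    rw [h.card, Nat.card_zmod, hqp, ← pow_mul] at h1
    rw [mul_comm]
    exact (Nat.pow_right_injective hp.out.two_le h1).symm
  have hn : (n : ℕ) < 2 * f := hfin ▸ n.2
  obtain ⟨r, hrf, hr⟩ : ∃ r, r ≤ f ∧ μ ^ p ^ r = μ⁻¹ := by
    by_cases hnf : (n : ℕ) ≤ f
    · exact ⟨n, hnf, hμr⟩
    · refine ⟨2 * f - n, by omega, ?_⟩
      have h1 : (μ⁻¹) ^ p ^ (2 * f - n) = μ := by
        rw [← hμr, ← pow_mul, ← pow_add, show (n : ℕ) + (2 * f - n) = 2 * f by omega]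
        apply Units.ext
        rw [Units.val_pow_eq_pow_val, pow_mul', pow_two, ← hqp, pow_mul, ← h.apply_eq, ← h.apply_eq, h.conj_conj]
      rw [inv_pow] at h1
      exact inv_eq_iff_eq_inv.1 h1
  have hmul : μ ^ (p ^ r + 1) = 1 := by rw [pow_succ, hr, inv_mul_cancel]
  have hμg : μ = g ^ (2 * q) * g⁻¹ := by
    refine Units.ext ?_
    rw [hμ, coe_muU, muF, Units.val_mul, Units.val_pow_eq_pow_val, h.apply_eq, ← pow_mul, mul_comm 2 q,
      Units.val_inv_eq_inv_val, div_eq_mul_inv]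
  have hμg' : μ = g ^ (2 * q - 1) := by rw [hμg, pow_sub g (show 1 ≤ 2 * q by omega), pow_one]
  rw [hμg', ← pow_mul] at hmul
  have hdvd := orderOf_dvd_of_pow_eq_one hmul
  rw [hg] at hdvd
  have hple : p ^ r ≤ q := hqp ▸ Nat.pow_le_pow_right hp.out.pos hrf
  have hdvd3 : q ^ 2 - 1 ∣ 3 * (p ^ r + 1) := by
    have h1 : (((q ^ 2 - 1 : ℕ)) : ℤ) ∣ ((2 * q - 1 : ℕ) : ℤ) * ((p ^ r + 1 : ℕ) : ℤ) := by
      exact_mod_cast hdvd
    have h4 : 4 ≤ q ^ 2 := by nlinarith
    rw [Nat.cast_sub (by omega : 1 ≤ q ^ 2), Nat.cast_sub (by omega : 1 ≤ 2 * q)] at h1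
    push_cast at h1
    have h2 : ((q : ℤ) ^ 2 - 1) ∣ 3 * ((p : ℤ) ^ r + 1) := by
      have h3 := (h1.mul_left (2 * (q : ℤ) + 1)).sub (dvd_mul_right ((q : ℤ) ^ 2 - 1) (4 * ((p : ℤ) ^ r + 1)))
      rw [show (3 : ℤ) * ((p : ℤ) ^ r + 1) = (2 * (q : ℤ) + 1) * ((2 * (q : ℤ) - 1) * ((p : ℤ) ^ r + 1)) -
        ((q : ℤ) ^ 2 - 1) * (4 * ((p : ℤ) ^ r + 1)) by ring]
      exact h3
    have h5 : (((q ^ 2 - 1 : ℕ)) : ℤ) ∣ ((3 * (p ^ r + 1) : ℕ) : ℤ) := by
      rw [Nat.cast_sub (by omega : 1 ≤ q ^ 2)]; push_cast; exact h2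
    exact_mod_cast h5
  have hq4 : q ≤ 4 := by
    by_contra hq5
    have h1 := Nat.le_of_dvd (by positivity) hdvd3
    have h5 : 5 * q ≤ q ^ 2 := by nlinarith
    omega
  rcases (show q = 3 ∨ q = 4 by omega) with rfl | rfl
  · have : p = 3 := (Nat.prime_dvd_prime_iff_eq hp.out Nat.prime_three).1
      (hqp ▸ dvd_pow_self p (fun e => by rw [e, pow_zero] at hqp; omega))
    subst this
    obtain rfl : f = 1 := (Nat.pow_right_injective (le_refl 2 |>.trans (by norm_num)) (hqp.symm.trans (pow_one 3).symm))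
    interval_cases r <;> norm_num at hdvd
  · have : p = 2 := (Nat.prime_dvd_prime_iff_eq hp.out Nat.prime_two).1
      (hp.out.dvd_of_dvd_pow (show p ∣ 2 ^ 2 from (show (4 : ℕ) = 2 ^ 2 by norm_num) ▸ hqp ▸
        dvd_pow_self p (fun e => by rw [e, pow_zero] at hqp; omega)))
    subst this
    obtain rfl : f = 2 := Nat.pow_right_injective le_rfl (hqp.symm.trans (by norm_num))
    interval_cases r <;> norm_num at hdvd

section Model

variable {σ : F →+* F} (h : UniField F σ q)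
include h

/-- The upper unitriangular subgroup. -/
noncomputable def Uni : Subgroup (suAnti σ) where
  carrier := Set.range (uT h)
  one_mem' := ⟨⟨(0, 0), by simp⟩, mat₃_injective σ (by
    rw [mat_uT, map_one]
    ext i j; fin_cases i <;> fin_cases j <;> simp [uMat₃])⟩
  mul_mem' := by rintro _ _ ⟨t, rfl⟩ ⟨t', rfl⟩; exact ⟨_, (uT_mul h t t').symm⟩
  inv_mem' := by rintro _ ⟨t, rfl⟩; exact ⟨_, uT_tinv h t⟩

theorem card_Tp : Nat.card (Tp σ) = q ^ 3 := by
  obtain ⟨δ, hδ0, hδ⟩ := h.exists_skew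
  have hσσ := h.conj_conj
  let fx : Type u := {x : F // σ x = x}
  have hfx : Nat.card fx = q := by
    have hF' : Nat.card F = q ^ 2 := h.card
    let c : Conj F q := ⟨σ, h.apply_eq, hσσ, fun e => by
      obtain ⟨ζ, hζ⟩ := h.exists_not_fix; exact hζ (by rw [e]; rfl)⟩
    rw [← c.card_fixed hF']
    rfl
  choose r hr using fun a : F => h.exists_trace (a := -(a * σ a))
    (by rw [map_neg, map_mul, hσσ, mul_comm])
  let e : Tp σ ≃ F × fx :=
    { toFun := fun t => (t.1.1, ⟨(t.1.2 - r t.1.1) / δ, by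
        rw [map_div₀, map_sub, hδ]
        have e1 := t.2
        have e2 := hr t.1.1
        field_simp
        linear_combination e2 - e1⟩)
      invFun := fun x => ⟨(x.1, r x.1 + δ * x.2.1), by
        have e2 := hr x.1
        have e3 : σ x.2.1 = x.2.1 := x.2.2
        rw [map_add, map_mul, hδ, e3]
        linear_combination e2⟩
      left_inv := fun t => Subtype.ext (Prod.ext rfl (by
        show r t.1.1 + δ * ((t.1.2 - r t.1.1) / δ) = t.1.2
        field_simp; ring))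
      right_inv := fun x => Prod.ext rfl (Subtype.ext (by
        show (r x.1 + δ * x.2.1 - r x.1) / δ = x.2.1
        field_simp; ring)) }
  rw [Nat.card_congr e, Nat.card_prod, hfx, h.card]; ring

theorem card_Uni : Nat.card (Uni h) = q ^ 3 := by
  rw [← card_Tp h]
  exact (Nat.card_congr (Equiv.ofInjective _ (uT_injective h))).symm

theorem uT_congr {t t' : Tp σ} (e1 : t.1.1 = t'.1.1) (e2 : t.1.2 = t'.1.2) : uT h t = uT h t' :=
  congrArg (uT h) (Subtype.ext (Prod.ext e1 e2))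

theorem commute_zP {k : F} (hk : σ k = -k) (t : Tp σ) : Commute (uT h (zP k hk)) (uT h t) := by
  show _ * _ = _ * _
  rw [uT_mul, uT_mul]
  exact uT_congr h (by simp [tmul, zP]) (by simp [tmul, zP, add_comm])

/-- In a central extension of `SU_3(q)` the derived preimage of the unitriangular group meets the kernel
trivially. -/
theorem DP_Uni_kerFree (hq : 3 ≤ q) {p : ℕ} [Fact p.Prime] [Algebra (ZMod p) F] {f : ℕ} (hqp : q = p ^ f)
    {Γ : Type u} [Group Γ] [Finite Γ] {ρ : Γ →* suAnti σ} (hs : Function.Surjective ρ)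
    (hc : ρ.ker ≤ Subgroup.center Γ) {z : Γ} (hz : z ∈ DP ρ (Uni h)) (hzk : ρ z = 1) : z = 1 := by
  classical
  obtain ⟨g, hg⟩ := h.exists_gen
  have hσσ := h.conj_conj
  obtain ⟨c, -⟩ : ∃ c : Conj F q, c.σ = σ := ⟨⟨σ, h.apply_eq, hσσ, fun e => by
    obtain ⟨ζ, hζ⟩ := h.exists_not_fix; exact hζ (by rw [e]; rfl)⟩, rfl⟩
  have hval : ∀ x : Fˣ, ((x : F) * σ (x : F)) = ((x ^ (q + 1) : Fˣ) : F) := fun x => by
    rw [Units.val_pow_eq_pow_val, pow_succ', h.apply_eq]
  have h4 : 4 ≤ q ^ 2 := by nlinarith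
  have hsq : q ^ 2 - 1 = (q + 1) * (q - 1) := by simpa using Nat.sq_sub_sq q 1
  -- a norm-one parameter moving the short root
  set lam := g ^ (q - 1) with hlam
  have hν1 : nuF σ lam = 1 := by
    rw [nuF, hval, hlam, ← pow_mul, mul_comm, ← hsq, ← hg, pow_orderOf_eq_one, Units.val_one]
  have hμ1 : muF σ lam ≠ 1 := by
    intro e
    have h1 : (lam : F) ^ 3 = 1 := by
      rw [muF, div_eq_one_iff_eq lam.ne_zero] at e
      have h2 : σ (lam : F) * (lam : F) = 1 := by rw [mul_comm]; exact hν1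
      have h3 : (σ (lam : F) * (lam : F)) ^ 2 = 1 := by rw [h2, one_pow]
      rw [← h3, mul_pow, e]; ring
    have h2 : lam ^ 3 = 1 := Units.ext (by rw [Units.val_pow_eq_pow_val, h1, Units.val_one])
    rw [hlam, ← pow_mul] at h2
    have h3 := orderOf_dvd_of_pow_eq_one h2
    rw [hg, hsq, mul_comm (q + 1)] at h3
    have := Nat.le_of_dvd (by omega) (Nat.dvd_of_mul_dvd_mul_left (by omega : 0 < q - 1) h3)
    omega
  have hνg : nuF σ g ≠ 1 := by
    intro e
    rw [nuF, hval] at e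
    have h3 := orderOf_dvd_of_pow_eq_one (Units.ext e : g ^ (q + 1) = 1)
    rw [hg] at h3
    have := Nat.le_of_dvd (by omega) h3
    have : 3 * q ≤ q ^ 2 := by nlinarith
    omega
  set UC := (Uni h).comap ρ with hUC
  have hU : ∀ {x : Γ}, x ∈ UC ↔ ∃ t, ρ x = uT h t := by
    intro x; exact ⟨fun ⟨t, ht⟩ => ⟨t, ht.symm⟩, fun ⟨t, ht⟩ => ⟨t, ht.symm⟩⟩
  -- torus lifts commute
  choose dh hdh using fun l : Fˣ => hs (dT h l)
  have hdcomm : ∀ l l', Commute (dh l) (dh l') := fun l l' => by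
    haveI : IsCyclic (dT h).range :=
      isCyclic_of_surjective (dT h).rangeRestrict (MonoidHom.rangeRestrict_surjective _)
    have hm := Subgroup.commutator_mem_commutator
      (show dh l ∈ (dT h).range.comap ρ from ⟨l, (hdh l).symm⟩)
      (show dh l' ∈ (dT h).range.comap ρ from ⟨l', (hdh l').symm⟩)
    rw [commutator_comap_eq_bot_of_isCyclic hc hs, Subgroup.mem_bot] at hm
    exact commutatorElement_eq_one_iff_commute.1 hm
  have hconj : ∀ l x t, ρ x = uT h t → ρ (dh l * x * (dh l)⁻¹) = uT h (tact h l t) := fun l x t e => by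
    rw [map_mul, map_mul, map_inv, hdh, e, dT_uT]
  -- the long root group is central
  have hcen : ∀ k (hk : σ k = -k) w, ρ w = uT h (zP k hk) → ∀ x ∈ UC, Commute x w := by
    intro k hk w hw
    have hfix : ρ (dh lam * w * (dh lam)⁻¹) = ρ w := by
      rw [hconj lam w _ hw, hw]
      exact uT_congr h (by simp [tact, zP]) (by simp [tact, zP, hν1])
    have hK : ∀ x t, ρ x = uT h t → Commute (dh lam * x * (dh lam)⁻¹ * x⁻¹) w := by
      intro x t hx
      set d := dh lam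
      have hxw : Commute (ρ x) (ρ w) := by rw [hx, hw]; exact (commute_zP h hk t).symm
      have e1 : ⁅d * x * d⁻¹, w⁆ = ⁅x, w⁆ := by
        rw [← comm_conj hc hxw d, comm_eq_of_map_eq hc (a := d * x * d⁻¹) rfl hfix.symm]
      have hxw' : Commute (ρ x⁻¹) (ρ w) := by rw [map_inv]; exact hxw.inv_left
      refine commutatorElement_eq_one_iff_commute.1 ?_
      rw [comm_mul_left hc hxw', e1, ← comm_mul_left hc hxw', mul_inv_cancel, commutatorElement_one_left]
    -- lifts with prescribed short coordinate centralising `w`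
    have hK1 : ∀ a : F, ∃ y t, ρ y = uT h t ∧ t.1.1 = a ∧ Commute y w := by
      intro a
      obtain ⟨r, hr⟩ := h.exists_trace (a := -((a / (muF σ lam - 1)) * σ (a / (muF σ lam - 1))))
        (by rw [map_neg, map_mul, hσσ, mul_comm])
      let t : Tp σ := ⟨(a / (muF σ lam - 1), r), by linear_combination hr⟩
      obtain ⟨x, hx⟩ := hs (uT h t)
      refine ⟨_, tmul h (tact h lam t) (tinv h t), ?_, ?_, hK x t hx⟩
      · rw [map_mul, hconj lam x t hx, map_inv, hx, ← uT_tinv, uT_mul]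
      · simp only [tmul, tact, tinv, t]
        field_simp [sub_ne_zero.2 hμ1]
        ring
    have hK2 : ∀ k' (hk' : σ k' = -k'), ∃ y, ρ y = uT h (zP k' hk') ∧ Commute y w := by
      intro k' hk'
      obtain ⟨θ, hθ⟩ := h.exists_trace (a := 1) (map_one σ)
      obtain ⟨y₁, t₁, hy₁, ht₁, hw₁⟩ := hK1 1
      obtain ⟨y₂, t₂, hy₂, ht₂, hw₂⟩ := hK1 (k' * θ)
      refine ⟨⁅y₂, y₁⁆, ?_, ?_⟩
      · rw [map_commutatorElement, hy₁, hy₂, commutatorElement_def, mul_inv_eq_iff_eq_mul,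
          mul_inv_eq_iff_eq_mul, uT_mul, uT_mul, uT_mul]
        refine uT_congr h ?_ ?_
        · simp [tmul, zP, ht₁, ht₂, add_comm]
        · simp only [tmul, zP, ht₁, ht₂, map_mul, hk', map_one, map_zero, map_add]
          linear_combination k' * hθ
      · exact ((hw₂.mul_left hw₁).mul_left hw₂.inv_left).mul_left hw₁.inv_left
    intro x hx
    obtain ⟨t, ht⟩ := hU.1 hx
    obtain ⟨y, t', hy, ht', hyw⟩ := hK1 t.1.1
    have hdiff : ∃ k' hk', ρ (y⁻¹ * x) = uT h (zP k' hk') := by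
      rw [map_mul, map_inv, hy, ht, ← uT_tinv, uT_mul]
      set s := tmul h (tinv h t') t with hs'
      have hs1 : s.1.1 = 0 := by simp [hs', tmul, tinv, ht']
      refine ⟨s.1.2, ?_, uT_congr h hs1 rfl⟩
      have := s.2
      rw [hs1] at this
      simp at this
      exact eq_neg_of_add_eq_zero_right this
    obtain ⟨k', hk', he⟩ := hdiff
    obtain ⟨y', hy', hyw'⟩ := hK2 k' hk'
    have hker : y'⁻¹ * (y⁻¹ * x) ∈ ρ.ker := by
      rw [MonoidHom.mem_ker, map_mul, map_inv, hy', he, inv_mul_cancel]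
    have e : x = y * y' * (y'⁻¹ * (y⁻¹ * x)) := by group
    rw [e]
    exact (hyw.mul_left hyw').mul_left (ker_comm hc hker w).symm
  set ZC : Subgroup Γ := Subgroup.closure {w | ∃ k hk, ρ w = uT h (zP k hk)} with hZC
  have hZmem : ∀ {w}, w ∈ ZC → ∃ k hk, ρ w = uT h (zP k hk) := by
    intro w hw
    induction hw using Subgroup.closure_induction with
    | mem w hw => exact hw
    | one => exact ⟨0, by simp, by rw [map_one]; exact (mat₃_injective σ (by
        rw [mat_uT, map_one]; ext i j; fin_cases i <;> fin_cases j <;> simp [uMat₃, zP])).symm⟩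
    | mul a b _ _ ha hb =>
      obtain ⟨k, hk, e⟩ := ha
      obtain ⟨k', hk', e'⟩ := hb
      refine ⟨k + k', by rw [map_add, hk, hk', neg_add], ?_⟩
      rw [map_mul, e, e', uT_mul]
      exact uT_congr h (by simp [tmul, zP]) (by simp [tmul, zP])
    | inv a _ ha =>
      obtain ⟨k, hk, e⟩ := ha
      refine ⟨-k, by rw [map_neg, hk], ?_⟩
      rw [map_inv, e, ← uT_tinv]
      exact uT_congr h (by simp [tinv, zP]) (by simp [tinv, zP, hk])
  have hZmem' : ∀ {w k hk}, ρ w = uT h (zP k hk) → w ∈ ZC := fun e => Subgroup.subset_closure ⟨_, _, e⟩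
  have hZU : ZC ≤ UC := fun w hw => by obtain ⟨k, hk, e⟩ := hZmem hw; exact hU.2 ⟨_, e⟩
  have hZcen : ∀ w ∈ ZC, ∀ x ∈ UC, Commute x w := fun w hw => by
    obtain ⟨k, hk, e⟩ := hZmem hw; exact hcen k hk w e
  -- the complement in the long root group
  have hconjZ : ∀ l w, w ∈ ZC → dh l * w * (dh l)⁻¹ ∈ ZC := fun l w hw => by
    obtain ⟨k, hk, e⟩ := hZmem hw
    refine hZmem' (k := nuF σ l * k) (hk := by rw [map_mul, nuF_fixed h, hk, mul_neg]) ?_
    rw [hconj l w _ e]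
    exact uT_congr h (by simp [tact, zP]) (by simp [tact, zP])
  let Zs : Subgroup Γ :=
    { carrier := {y | ∃ w ∈ ZC, y = ⁅dh g, w⁆}
      one_mem' := ⟨1, one_mem _, by simp⟩
      mul_mem' := by
        rintro _ _ ⟨w, hw, rfl⟩ ⟨w', hw', rfl⟩
        refine ⟨w * w', mul_mem hw hw', ?_⟩
        have hm : ⁅dh g, w'⁆ ∈ ZC := by
          rw [commutatorElement_def]; exact mul_mem (hconjZ g w' hw') (inv_mem hw')
        have hcw : w * ⁅dh g, w'⁆ * w⁻¹ = ⁅dh g, w'⁆ := by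
          rw [(hZcen _ hm w (hZU hw)).eq, mul_inv_cancel_right]
        calc ⁅dh g, w⁆ * ⁅dh g, w'⁆ = ⁅dh g, w⁆ * (w * ⁅dh g, w'⁆ * w⁻¹) := by rw [hcw]
          _ = ⁅dh g, w * w'⁆ := by simp only [commutatorElement_def]; group
      inv_mem' := by
        rintro _ ⟨w, hw, rfl⟩
        refine ⟨w⁻¹, inv_mem hw, ?_⟩
        have hm : ⁅dh g, w⁆ ∈ ZC := by
          rw [commutatorElement_def]; exact mul_mem (hconjZ g w hw) (inv_mem hw)
        have hcw : w⁻¹ * ⁅dh g, w⁆⁻¹ * w = ⁅dh g, w⁆⁻¹ := by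
          rw [mul_assoc, ((hZcen _ hm w (hZU hw)).inv_right).eq.symm, inv_mul_cancel_left]
        calc ⁅dh g, w⁆⁻¹ = w⁻¹ * ⁅dh g, w⁆⁻¹ * w := hcw.symm
          _ = ⁅dh g, w⁻¹⁆ := by simp only [commutatorElement_def]; group }
  have hZsmem : ∀ y ∈ Zs, y ∈ ZC := by
    rintro _ ⟨w, hw, rfl⟩
    rw [commutatorElement_def]; exact mul_mem (hconjZ g w hw) (inv_mem hw)
  have hZsfree : KerFree ρ Zs := by
    rintro _ ⟨w, hw, rfl⟩ h1
    obtain ⟨k, hk, e⟩ := hZmem hw
    rw [commutatorElement_def, map_mul, map_inv, hconj g w _ e, e, mul_inv_eq_one] at h1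
    have h2 := congrArg (fun t : Tp σ => t.1.2) (uT_injective h h1)
    simp only [tact, zP] at h2
    have hk0 : k = 0 := by
      have : (nuF σ g - 1) * k = 0 := by linear_combination h2
      exact (mul_eq_zero.1 this).resolve_left (sub_ne_zero.2 hνg)
    have hwk : w ∈ ρ.ker := by
      rw [MonoidHom.mem_ker, e]
      subst hk0
      apply mat₃_injective σ
      rw [mat_uT, map_one]; ext i j; fin_cases i <;> fin_cases j <;> simp [uMat₃, zP]
    exact commutatorElement_eq_one_iff_commute.2 (ker_comm hc hwk _)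
  have hsec : ∀ x y, x ∈ UC → y ∈ UC → ∃ s ∈ Zs, ρ s = ρ ⁅x, y⁆ := by
    intro x y hx hy
    obtain ⟨t, ht⟩ := hU.1 hx
    obtain ⟨t', ht'⟩ := hU.1 hy
    obtain ⟨k, hk, e⟩ : ∃ k hk, ρ ⁅x, y⁆ = uT h (zP k hk) := by
      rw [map_commutatorElement, ht, ht', commutatorElement_def, ← uT_tinv, ← uT_tinv, uT_mul, uT_mul, uT_mul]
      set s := tmul h (tmul h (tmul h t t') (tinv h t)) (tinv h t') with hs'
      have hs1 : s.1.1 = 0 := by simp only [hs', tmul, tinv]; ring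
      refine ⟨s.1.2, ?_, uT_congr h hs1 rfl⟩
      have := s.2
      rw [hs1] at this
      simp at this
      exact eq_neg_of_add_eq_zero_right this
    have hne : nuF σ g - 1 ≠ 0 := sub_ne_zero.2 hνg
    have hk2 : σ (k / (nuF σ g - 1)) = -(k / (nuF σ g - 1)) := by
      rw [map_div₀, map_sub, map_one, nuF_fixed h, hk, neg_div]
    obtain ⟨w, hw⟩ := hs (uT h (zP _ hk2))
    refine ⟨⁅dh g, w⁆, ⟨w, hZmem' hw, rfl⟩, ?_⟩
    rw [e, commutatorElement_def, map_mul, map_inv, hconj g w _ hw, hw, mul_inv_eq_iff_eq_mul, uT_mul]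
    refine uT_congr h (by simp [tact, zP, tmul]) ?_
    simp only [tact, zP, tmul, map_zero]
    field_simp
    ring
  have hZsconj : ∀ l, ∀ y ∈ Zs, dh l * y * (dh l)⁻¹ ∈ Zs := by
    rintro l _ ⟨w, hw, rfl⟩
    refine ⟨dh l * w * (dh l)⁻¹, hconjZ l w hw, ?_⟩
    rw [conjugate_commutatorElement, (hdcomm l g).eq, mul_inv_cancel_right]
  suffices key : ∀ x ∈ UC, ∀ y ∈ UC, ⁅x, y⁆ ∈ Zs by
    have hle : DP ρ (Uni h) ≤ Zs := by rw [DP, Subgroup.commutator_le]; exact key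
    exact hZsfree z (hle hz) hzk
  -- the error term
  choose rr hrr using fun a : F => h.exists_trace (a := -(a * σ a)) (by rw [map_neg, map_mul, hσσ, mul_comm])
  let tp : F → Tp σ := fun a => ⟨(a, rr a), by linear_combination hrr a⟩
  choose ul hul using fun a : F => hs (uT h (tp a))
  have hulU : ∀ a, ul a ∈ UC := fun a => hU.2 ⟨_, hul a⟩
  have hmod : ∀ x t, ρ x = uT h t → ∃ w ∈ ZC, x = ul t.1.1 * w := by
    intro x t ht
    refine ⟨(ul t.1.1)⁻¹ * x, ?_, by group⟩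
    set s := tmul h (tinv h (tp t.1.1)) t with hs'
    have hs1 : s.1.1 = 0 := by simp [hs', tmul, tinv, tp]
    refine hZmem' (k := s.1.2) (hk := ?_) ?_
    · have := s.2
      rw [hs1] at this
      simp at this
      exact eq_neg_of_add_eq_zero_right this
    · rw [map_mul, map_inv, hul, ht, ← uT_tinv, uT_mul]
      exact uT_congr h hs1 rfl
  have hcomm : ∀ x y t t', ρ x = uT h t → ρ y = uT h t' → ⁅x, y⁆ = ⁅ul t.1.1, ul t'.1.1⁆ := by
    intro x y t t' ht ht'
    obtain ⟨w, hw, rfl⟩ := hmod x t ht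
    obtain ⟨w', hw', rfl⟩ := hmod y t' ht'
    have c1 : Commute w (ul t'.1.1 * w') := (hZcen w hw _ (mul_mem (hulU _) (hZU hw'))).symm
    have c2 : Commute (ul t.1.1) w' := hZcen w' hw' _ (hulU _)
    have e1 : ⁅w, ul t'.1.1 * w'⁆ = 1 := commutatorElement_eq_one_iff_commute.2 c1
    have e2 : ⁅ul t.1.1, w'⁆ = 1 := commutatorElement_eq_one_iff_commute.2 c2
    calc ⁅ul t.1.1 * w, ul t'.1.1 * w'⁆
        = ul t.1.1 * ⁅w, ul t'.1.1 * w'⁆ * (ul t.1.1)⁻¹ * ⁅ul t.1.1, ul t'.1.1 * w'⁆ := by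
          simp only [commutatorElement_def]; group
      _ = ⁅ul t.1.1, ul t'.1.1⁆ * (ul t'.1.1 * ⁅ul t.1.1, w'⁆ * (ul t'.1.1)⁻¹) := by
          rw [e1]; simp only [commutatorElement_def]; group
      _ = _ := by rw [e2, mul_one, mul_inv_cancel, mul_one]
  choose sec hsecm hsecρ using fun a b => hsec (ul a) (ul b) (hulU a) (hulU b)
  haveI : IsMulCommutative ρ.ker := ⟨⟨fun a b => Subtype.ext (Subgroup.mem_center_iff.1 (hc b.2) (a : Γ))⟩⟩
  letI : CommGroup ρ.ker := { mul_comm := fun a b => mul_comm' a b }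
  let e : F → F → Additive ρ.ker := fun a b => Additive.ofMul ⟨⁅ul a, ul b⁆ * (sec a b)⁻¹, by
    rw [MonoidHom.mem_ker, map_mul, map_inv, hsecρ, mul_inv_cancel]⟩
  suffices he : ∀ a b, e a b = 0 by
    intro x hx y hy
    obtain ⟨t, ht⟩ := hU.1 hx
    obtain ⟨t', ht'⟩ := hU.1 hy
    have h1 := congrArg (fun v : Additive ρ.ker => ((Additive.toMul v : ρ.ker) : Γ)) (he t.1.1 t'.1.1)
    simp only [e, toMul_ofMul, toMul_zero, OneMemClass.coe_one, mul_inv_eq_one] at h1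
    rw [hcomm x y t t' ht ht', h1]
    exact hsecm _ _
  -- uniqueness of the section
  have huniq : ∀ s s', s ∈ Zs → s' ∈ Zs → ρ s = ρ s' → s = s' := fun s s' h1 h2 h3 => hZsfree.eq h1 h2 h3
  have hZC' : ∀ a b, ⁅ul a, ul b⁆ ∈ ZC := fun a b => by
    obtain ⟨s, hs1, hs2⟩ := hsec (ul a) (ul b) (hulU a) (hulU b)
    obtain ⟨k, hk, e'⟩ := hZmem (hZsmem s hs1)
    exact hZmem' (hs2.symm.trans e')
  have hmulu : ∀ a b, ∃ t : Tp σ, ρ (ul a * ul b) = uT h t ∧ t.1.1 = a + b := fun a b =>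
    ⟨tmul h (tp a) (tp b), by rw [map_mul, hul, hul, uT_mul], by simp [tmul, tp]⟩
  have haddl : ∀ a b d, ⁅ul (a + b), ul d⁆ = ⁅ul a, ul d⁆ * ⁅ul b, ul d⁆ := fun a b d => by
    obtain ⟨t, ht, hta⟩ := hmulu a b
    have := hcomm _ _ t (tp d) ht (hul d)
    rw [hta] at this
    rw [show ⁅ul (a + b), ul d⁆ = _ from this.symm]
    have c1 : ul a * ⁅ul b, ul d⁆ * (ul a)⁻¹ = ⁅ul b, ul d⁆ := by
      rw [(hZcen _ (hZC' b d) _ (hulU a)).eq, mul_inv_cancel_right]
    calc ⁅ul a * ul b, ul d⁆ = ul a * ⁅ul b, ul d⁆ * (ul a)⁻¹ * ⁅ul a, ul d⁆ := by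
          simp only [commutatorElement_def]; group
      _ = _ := by rw [c1]; exact ((hZcen _ (hZC' a d) _ (hZU (hZC' b d))).eq)
  have haddr : ∀ a b d, ⁅ul a, ul (b + d)⁆ = ⁅ul a, ul b⁆ * ⁅ul a, ul d⁆ := fun a b d => by
    rw [← commutatorElement_inv, haddl, mul_inv_rev, commutatorElement_inv, commutatorElement_inv]
    exact (hZcen _ (hZC' a b) _ (hZU (hZC' a d))).eq
  have hsl : ∀ a b d, sec (a + b) d = sec a d * sec b d := fun a b d =>
    huniq _ _ (hsecm _ _) (mul_mem (hsecm _ _) (hsecm _ _)) (by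
      rw [map_mul, hsecρ, hsecρ, hsecρ, haddl, map_mul])
  have hsr : ∀ a b d, sec a (b + d) = sec a b * sec a d := fun a b d =>
    huniq _ _ (hsecm _ _) (mul_mem (hsecm _ _) (hsecm _ _)) (by
      rw [map_mul, hsecρ, hsecρ, hsecρ, haddr, map_mul])
  have hfour : ∀ A B S S' : Γ, S ∈ ZC → B ∈ ZC → S' ∈ ZC →
      A * B * (S * S')⁻¹ = A * S⁻¹ * (B * S'⁻¹) := fun A B S S' hS hB hS' => by
    have c1 : Commute (B * S'⁻¹) S⁻¹ :=
      (hZcen _ hS _ (hZU (mul_mem hB (inv_mem hS')))).inv_right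
    rw [mul_inv_rev]
    calc A * B * (S'⁻¹ * S⁻¹) = A * ((B * S'⁻¹) * S⁻¹) := by group
      _ = _ := by rw [c1.eq]; group
  refine pairing_zero_of_inv e ?_ ?_ (muU σ g) ?_ (aeval_inv_ne h hq hqp hg)
  · intro a b d
    refine Additive.toMul.injective (Subtype.ext ?_)
    show ⁅ul (a + b), ul d⁆ * (sec (a + b) d)⁻¹ = (⁅ul a, ul d⁆ * (sec a d)⁻¹) * (⁅ul b, ul d⁆ * (sec b d)⁻¹)
    rw [haddl, hsl]
    exact hfour _ _ _ _ (hZsmem _ (hsecm a d)) (hZC' b d) (hZsmem _ (hsecm b d))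
  · intro a b d
    refine Additive.toMul.injective (Subtype.ext ?_)
    show ⁅ul a, ul (b + d)⁆ * (sec a (b + d))⁻¹ = (⁅ul a, ul b⁆ * (sec a b)⁻¹) * (⁅ul a, ul d⁆ * (sec a d)⁻¹)
    rw [haddr, hsr]
    exact hfour _ _ _ _ (hZsmem _ (hsecm a b)) (hZC' a d) (hZsmem _ (hsecm a d))
  · intro a b
    set d := dh g with hd
    have e1 : d * ⁅ul a, ul b⁆ * d⁻¹ = ⁅ul ((muU σ g : Fˣ) * a), ul ((muU σ g : Fˣ) * b)⁆ := by
      rw [conjugate_commutatorElement, hcomm _ _ _ _ (hconj g _ _ (hul a)) (hconj g _ _ (hul b))]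
      simp [tact, tp, coe_muU]
    have e2 : d * sec a b * d⁻¹ = sec ((muU σ g : Fˣ) * a) ((muU σ g : Fˣ) * b) :=
      huniq _ _ (hZsconj g _ (hsecm a b)) (hsecm _ _) (by
        rw [map_mul, map_mul, hsecρ, hsecρ, ← map_mul, ← map_mul, e1])
    refine Additive.toMul.injective (Subtype.ext ?_)
    show ⁅ul _, ul _⁆ * (sec _ _)⁻¹ = ⁅ul a, ul b⁆ * (sec a b)⁻¹
    rw [← e1, ← e2]
    have hk : ⁅ul a, ul b⁆ * (sec a b)⁻¹ ∈ ρ.ker := by
      rw [MonoidHom.mem_ker, map_mul, map_inv, hsecρ, mul_inv_cancel]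
    calc d * ⁅ul a, ul b⁆ * d⁻¹ * (d * sec a b * d⁻¹)⁻¹ = d * (⁅ul a, ul b⁆ * (sec a b)⁻¹) * d⁻¹ := by group
      _ = _ := by rw [ker_comm hc hk d, mul_inv_cancel_right]

end Model

/-- The characteristic. -/
theorem okAt_three_char (hF : Fintype.card F = q ^ 2) (hq : 3 ≤ q) {p : ℕ} (hp : p.Prime) (hpq : p ∣ q) :
    OKAt (SUg 3 F q) p := by
  obtain ⟨c⟩ := exists_conj (show Nat.card F = q ^ 2 by rw [Nat.card_eq_fintype_card, hF])
  have h : UniField F c.σ q := ⟨c.apply, by rw [Nat.card_eq_fintype_card, hF]⟩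
  obtain ⟨e⟩ := exists_suAnti_equiv h
  refine OKAt.of_equiv e ?_
  haveI : Finite (suAnti c.σ) := Finite.of_equiv _ e.symm.toEquiv
  obtain ⟨p', hp'⟩ := CharP.exists F
  obtain ⟨n, hn', hn⟩ := FiniteField.card F p'
  obtain rfl : p = p' := (Nat.prime_dvd_prime_iff_eq hp hn').1 (hp.dvd_of_dvd_pow
    (show p ∣ p' ^ (n : ℕ) from hn ▸ hF ▸ dvd_pow hpq two_ne_zero))
  haveI := Fact.mk hp
  obtain ⟨f, -, hf⟩ := (Nat.dvd_prime_pow hp).1 (show q ∣ p ^ (n : ℕ) from hn ▸ hF ▸ dvd_pow_self q two_ne_zero)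
  letI := ZMod.algebra F p
  refine okAt_of_subgroup hp (Uni h) (not_dvd_index _ hp (A := 3 * f) (r := (q ^ 2 - 1) * (q ^ 3 + 1)) ?_ ?_ ?_) ?_
  · rw [Nat.card_congr e.toEquiv, show Nat.card (Cfsg.SU 3 F q) = _ from card_su_three hF, hf, ← pow_mul,
      mul_comm f 3]
  · intro hd
    have h4 : 4 ≤ q ^ 2 := by nlinarith
    rcases (Nat.Prime.dvd_mul hp).1 hd with hd | hd
    · have := Nat.dvd_sub (dvd_pow hpq two_ne_zero) hd
      rw [show q ^ 2 - (q ^ 2 - 1) = 1 by omega] at this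
      exact hp.not_dvd_one this
    · exact hp.not_dvd_one ((Nat.dvd_add_right (dvd_pow hpq three_ne_zero)).1 hd)
  · rw [card_Uni h, hf, ← pow_mul, mul_comm f 3]
  · intro Γ _ _ ρ hρ z hz hzk _
    exact DP_Uni_kerFree h hq (p := p) (f := f) hf hρ.1 hρ.2.1 hz hzk

end CfsgLib.SUMult
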