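import Cfsg.Agent.Lib.SUMult.ThreeCoprime
import Cfsg.Agent.Lib.SUMult.ThreeP

/-!
All stem extensions of `SU_3(q)`, `q ≥ 3`, are trivial.
-/

set_option autoImplicit false

namespace CfsgLib.SUMult

open CfsgLib.SUAmalgam

universe u

variable {F : Type u} [Field F] [Fintype F] {q : ℕ}

theorem trivMult_three (hF : Fintype.card F = q ^ 2) (hq : 3 ≤ q) : TrivMult (SUg 3 F q) :=
  trivMult_of_okAt fun p hp hd => by
    by_cases h : p ∣ q
    · exact okAt_three_char hF hq hp h
    · exact okAt_three_coprime hF hp h hd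

end CfsgLib.SUMult
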