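import Cfsg.Agent.Lib.SUMult.FiveCoprime
import Cfsg.Agent.Lib.SUMult.FiveRadical
import Cfsg.Agent.Lib.SUMult.Three

/-!
The characteristic for `SU_5(q)`, `q` prime, from the local statement for `SU_3(q)`.
-/

set_option autoImplicit false
set_option linter.unusedSectionVars false
set_option linter.style.haveILetI false

namespace CfsgLib.SUMult

open CfsgLib.SUAmalgam CfsgLib.SchurMult CfsgLib.ClassicalForms CfsgLib.Amalgams
open scoped commutatorElement

universe u

variable {F : Type u} [Field F] [Fintype F] {q : ℕ}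

section Prime

variable (c : Conj F q) {κ : F} (hκ : κ * c.σ κ = -1)

/-- A central parameter. -/
def zR (k : F) (hk : c.σ k = -k) : RP c := ⟨(0, k), by simp [nH, iota_zero, c.zero_left, hk]⟩

include hκ in
theorem gR_congr {x x' : RP c} (e1 : x.1.1 = x'.1.1) (e2 : x.1.2 = x'.1.2) : gR c hκ x = gR c hκ x' :=
  congrArg (gR c hκ) (Subtype.ext (Prod.ext e1 e2))

theorem gR_zR_add {k k' : F} (hk : c.σ k = -k) (hk' : c.σ k' = -k') :
    gR c hκ (zR c k hk) * gR c hκ (zR c k' hk') =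
      gR c hκ (zR c (k + k') (by rw [map_add, hk, hk', neg_add])) := by
  rw [gR_mul]; exact gR_congr c hκ (by simp [rmul, zR]) (by simp [rmul, zR, iota_zero, c.zero_left])

theorem gR_zR_comm {k : F} (hk : c.σ k = -k) (x : RP c) :
    Commute (gR c hκ x) (gR c hκ (zR c k hk)) := by
  show _ * _ = _ * _
  rw [gR_mul, gR_mul]
  exact gR_congr c hκ (by simp [rmul, zR])
    (by simp [rmul, zR, iota_zero, c.zero_left, c.zero_right, add_comm])

theorem gR_one {x : RP c} (h1 : x.1.1 = 0) (h2 : x.1.2 = 0) : gR c hκ x = 1 :=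
  Subtype.ext (Subtype.ext (by show rMat c κ x.1.1 x.1.2 = 1; rw [h1, h2, rMat_zero]))

theorem gR_comm (x x' : RP c) :
    ⁅gR c hκ x, gR c hκ x'⁆ = gR c hκ (zR c
      (Cfsg.hermForm 5 F q (iota x.1.1) (iota x'.1.1) - Cfsg.hermForm 5 F q (iota x'.1.1) (iota x.1.1))
      (by rw [map_sub, ← c.herm_symm, ← c.herm_symm, neg_sub])) := by
  rw [commutatorElement_def, mul_inv_eq_iff_eq_mul, mul_inv_eq_iff_eq_mul, gR_mul, gR_mul, gR_mul]
  refine gR_congr c hκ ?_ ?_
  · simp [rmul, zR, add_comm]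
  · simp only [rmul, zR, iota_zero, iota_add, c.add_left, c.add_right, c.zero_left, c.zero_right,
      zero_add, add_zero]
    ring

variable [hqp : Fact q.Prime]

theorem eq_natCast_comb (hF : Fintype.card F = q ^ 2) {ω : F} (hω : c.σ ω ≠ ω) (x : F) :
    ∃ m n : ℕ, x = (m : F) + (n : F) * ω := by
  haveI : NeZero q := ⟨hqp.out.ne_zero⟩
  haveI : CharP F q := by
    obtain ⟨p, hp⟩ := CharP.exists F
    obtain ⟨n, hpp, hn⟩ := FiniteField.card F p
    have : p = q := (Nat.prime_dvd_prime_iff_eq hpp hqp.out).1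
      (hpp.dvd_of_dvd_pow (n := 2) (by rw [← hF, hn]; exact dvd_pow_self _ n.ne_zero))
    rwa [← this]
  let f : ZMod q × ZMod q → F := fun y => ZMod.castHom dvd_rfl F y.1 + ZMod.castHom dvd_rfl F y.2 * ω
  have hfix : ∀ a : ZMod q, c.σ (ZMod.castHom dvd_rfl F a) = ZMod.castHom dvd_rfl F a := fun a => by
    rw [← ZMod.natCast_zmod_val a, map_natCast, map_natCast]
  have hinj : Function.Injective f := by
    rintro ⟨a, b⟩ ⟨a', b'⟩ e
    have e' : ZMod.castHom dvd_rfl F (a - a') = -(ZMod.castHom dvd_rfl F (b - b') * ω) := by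
      rw [map_sub, map_sub]; simp only [f] at e; linear_combination e
    have hb : b = b' := by
      by_contra hne
      have hb0 : ZMod.castHom dvd_rfl F (b - b') ≠ 0 := fun h =>
        hne (sub_eq_zero.1 ((ZMod.castHom dvd_rfl F).injective (h.trans (map_zero _).symm)))
      have h1 := congrArg c.σ e'
      rw [hfix, map_neg, map_mul, hfix, e'] at h1
      exact hω (mul_left_cancel₀ hb0 (neg_inj.1 h1)).symm
    subst hb
    rw [sub_self, map_zero, zero_mul, neg_zero] at e'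
    rw [sub_eq_zero.1 ((ZMod.castHom dvd_rfl F).injective (e'.trans (map_zero _).symm))]
  obtain ⟨⟨a, b⟩, e⟩ := ((Fintype.bijective_iff_injective_and_card f).2
    ⟨hinj, by rw [Fintype.card_prod, ZMod.card, hF, pow_two]⟩).2 x
  refine ⟨a.val, b.val, ?_⟩
  rw [← e]
  simp only [f, ← map_natCast (ZMod.castHom (dvd_refl q) F), ZMod.natCast_zmod_val]

set_option maxHeartbeats 1000000 in
theorem okAt_five_char (hF : Fintype.card F = q ^ 2) {ω : Fˣ} (hω : (ω : F) * c.σ (ω : F) = 1)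
    (hωf : c.σ (ω : F) ≠ ω) {t : SUg 5 F q} {d : ℕ → Fˣ} (ht : IsDiag t d) (h1 : d 1 = d 0)
    (h3 : d 3 = d 2) (h4 : d 4 = d 2) (hd : c.σ (d 0 : F) * (d 2 : F) ≠ 1)
    (hr : ∀ r, Nat.card (SUg 5 F q) = q ^ 10 * r → ¬ q ∣ r)
    (hdiv : q ^ 10 ∣ Nat.card (SUg 5 F q)) (hL3 : q ^ 3 ∣ Nat.card (Blk c 5 2 3))
    (hL : ∀ (Γ : Type u) [Group Γ] [Finite Γ] (ρ : Γ →* SUg 5 F q), Cfsg.IsStemExtension ρ →
      ∀ z ∈ DP ρ (Blk c 5 2 3), z ∈ ρ.ker → z ^ q = 1 → z = 1) : OKAt (SUg 5 F q) q := by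
  obtain ⟨κ, hκ⟩ := c.exists_norm (d := -1) (by rw [map_neg, map_one])
  have hF' : Nat.card F = q ^ 2 := by rw [Nat.card_eq_fintype_card, hF]
  set Q := Rad c hκ with hQ
  set L := Blk c 5 2 3 with hLdef
  have hLQ : L ≤ Subgroup.normalizer (Q : Set (SUg 5 F q)) := fun l hl => by
    refine Subgroup.mem_normalizer_iff_map_conj_eq.2 (Subgroup.eq_of_le_of_card_ge ?_
      (Subgroup.card_map_of_injective (MulAut.conj l).injective).ge)
    rintro _ ⟨_, ⟨x, rfl⟩, rfl⟩
    exact ⟨lact c ⟨l, hl⟩ x, (conj_gR c hκ ⟨l, hl⟩ x).symm⟩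
  have hQL : ∀ g, g ∈ Q → g ∈ L → g = 1 := by
    rintro _ ⟨x, rfl⟩ hg
    have h0 := hg 0 (Or.inl (by norm_num))
    rw [act_gR, c.single_left, c.single_left] at h0
    have e0 := congrFun h0 0
    have e2 := congrFun h0 2
    have e3 := congrFun h0 3
    have e4 := congrFun h0 4
    simp [iota, vK, Matrix.vecHead, Matrix.vecTail, Pi.single_apply, Fin.ext_iff] at e0 e2 e3 e4
    refine gR_one c hκ ?_ e0
    funext i; fin_cases i
    · exact e2
    · exact e3
    · exact e4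
  set H := Q ⊔ L with hH
  have hcardH : Nat.card H = Nat.card Q * Nat.card L := by
    rw [← Nat.card_prod]
    refine (Nat.card_congr (Equiv.ofBijective
      (fun y : Q × L => (⟨y.1 * y.2, mul_mem (Subgroup.mem_sup_left y.1.2) (Subgroup.mem_sup_right y.2.2)⟩ : H))
      ⟨?_, ?_⟩)).symm
    · rintro ⟨a, b⟩ ⟨a', b'⟩ e
      have e' : (a : SUg 5 F q) * b = a' * b' := congrArg Subtype.val e
      have e1 : (a' : SUg 5 F q)⁻¹ * a = b' * (b : SUg 5 F q)⁻¹ := by
        rw [eq_mul_inv_iff_mul_eq, mul_assoc, e', inv_mul_cancel_left]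
      have e2 := hQL _ (mul_mem (inv_mem a'.2) a.2) (e1 ▸ mul_mem b'.2 (inv_mem b.2))
      have ea : (a : SUg 5 F q) = a' := (inv_mul_eq_one.1 e2).symm
      rw [e2] at e1
      exact Prod.ext (Subtype.ext ea) (Subtype.ext (mul_inv_eq_one.1 e1.symm).symm)
    · rintro ⟨g, hg⟩
      rw [hH, ← SetLike.mem_coe, Subgroup.coe_mul_of_right_le_normalizer_left _ _ hLQ] at hg
      obtain ⟨a, ha, b, hb, rfl⟩ := hg
      exact ⟨(⟨a, ha⟩, ⟨b, hb⟩), rfl⟩
  obtain ⟨r, hrr⟩ := hdiv
  refine okAt_of_subgroup hqp.out H (not_dvd_index H hqp.out hrr (hr r hrr) ?_) ?_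
  · rw [hcardH, card_Rad c hκ hF', pow_add q 7 3]
    exact Nat.mul_dvd_mul_left _ hL3
  intro Γ _ _ ρ hρ z hz hzk hzq
  have hs := hρ.1
  have hc := hρ.2.1
  have hU : ∀ {x : Γ}, x ∈ Q.comap ρ ↔ ∃ y, ρ x = gR c hκ y := by
    intro x; exact ⟨fun ⟨y, hy⟩ => ⟨y, hy.symm⟩, fun ⟨y, hy⟩ => ⟨y, hy.symm⟩⟩
  set rT := c.σ (d 0 : F) * (d 2 : F) with hrT
  have hrT1 : rT - 1 ≠ 0 := sub_ne_zero.2 hd
  obtain ⟨th, hth⟩ := hs t
  have hconj : ∀ x y, ρ x = gR c hκ y → ∃ y' : RP c, y'.1.1 = rT • y.1.1 ∧ y'.1.2 = y.1.2 ∧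
      ρ (th * x * th⁻¹) = gR c hκ y' := fun x y e => by
    obtain ⟨y', e1, e2, e3⟩ := conj_diag c hκ ht h1 h3 h4 y
    exact ⟨y', e1, e2, by rw [map_mul, map_mul, map_inv, hth, e, e3]⟩
  -- the long root group is central
  have hcen : ∀ k (hk : c.σ k = -k) w, ρ w = gR c hκ (zR c k hk) → ∀ x ∈ Q.comap ρ, Commute x w := by
    intro k hk w hw
    have hfix : ρ (th * w * th⁻¹) = ρ w := by
      obtain ⟨y', e1, e2, e3⟩ := hconj w _ hw
      rw [e3, hw]
      exact gR_congr c hκ (by rw [e1]; simp [zR]) e2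
    have hK : ∀ x y, ρ x = gR c hκ y → Commute (th * x * th⁻¹ * x⁻¹) w := by
      intro x y hx
      have hxw : Commute (ρ x) (ρ w) := by rw [hx, hw]; exact gR_zR_comm c hκ hk y
      have e1 : ⁅th * x * th⁻¹, w⁆ = ⁅x, w⁆ := by
        rw [← comm_conj hc hxw th, comm_eq_of_map_eq hc (a := th * x * th⁻¹) rfl hfix.symm]
      have hxw' : Commute (ρ x⁻¹) (ρ w) := by rw [map_inv]; exact hxw.inv_left
      refine commutatorElement_eq_one_iff_commute.1 ?_
      rw [comm_mul_left hc hxw', e1, ← comm_mul_left hc hxw', mul_inv_cancel, commutatorElement_one_left]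
    have hK1 : ∀ a : Fin 3 → F, ∃ y x, ρ y = gR c hκ x ∧ x.1.1 = a ∧ Commute y w := by
      intro a
      obtain ⟨θ, hθ⟩ := c.exists_trace_one
      have hs' : c.σ (nH (q := q) ((rT - 1)⁻¹ • a)) = nH (q := q) ((rT - 1)⁻¹ • a) := c.herm_self _
      let x₀ : RP c := ⟨((rT - 1)⁻¹ • a, -nH (q := q) ((rT - 1)⁻¹ • a) * θ), by
        rw [map_mul, map_neg, hs']
        linear_combination (-nH (q := q) ((rT - 1)⁻¹ • a)) * hθ⟩
      obtain ⟨x, hx⟩ := hs (gR c hκ x₀)
      obtain ⟨y', e1, e2, e3⟩ := hconj x x₀ hx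
      obtain ⟨xi, hxi⟩ : ∃ xi : RP c, gR c hκ xi = (gR c hκ x₀)⁻¹ :=
        inv_mem (show gR c hκ x₀ ∈ Q from ⟨x₀, rfl⟩)
      refine ⟨_, rmul c y' xi, by rw [map_mul, e3, map_inv, hx, ← hxi, gR_mul], ?_, hK x x₀ hx⟩
      have hxi' : xi.1.1 = -x₀.1.1 := by
        have h := congrArg (fun y : RP c => y.1.1) (gR_injective c hκ (a₁ := rmul c xi x₀)
          (a₂ := zR c 0 (by simp)) (by rw [← gR_mul, hxi, inv_mul_cancel, gR_one c hκ rfl rfl]))
        simp only [rmul, zR] at h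
        exact eq_neg_of_add_eq_zero_left h
      show y'.1.1 + xi.1.1 = a
      rw [e1, hxi', ← sub_eq_add_neg, ← one_smul F x₀.1.1, smul_smul, mul_one, ← sub_smul]
      simp [x₀, smul_smul, mul_inv_cancel₀ hrT1]
    intro x hx
    obtain ⟨x₁, hx₁⟩ := hU.1 hx
    obtain ⟨y, x', hy, hx', hyw⟩ := hK1 x₁.1.1
    obtain ⟨k', hk', he⟩ : ∃ k' hk', ρ (y⁻¹ * x) = gR c hκ (zR c k' hk') := by
      obtain ⟨s, hs'⟩ : ∃ s, gR c hκ s = ρ (y⁻¹ * x) := by
        rw [map_mul, map_inv, hy, hx₁]; exact mul_mem (inv_mem (show gR c hκ x' ∈ Q from ⟨x', rfl⟩)) (show gR c hκ x₁ ∈ Q from ⟨x₁, rfl⟩)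
      have e : rmul c x' s = x₁ := gR_injective c hκ (by
        rw [← gR_mul, hs', map_mul, map_inv, hy, hx₁, mul_inv_cancel_left])
      have h1 : s.1.1 = 0 := by
        have := congrArg (fun y : RP c => y.1.1) e
        simpa [rmul, hx'] using this
      refine ⟨s.1.2, ?_, hs'.symm.trans (gR_congr c hκ h1 rfl)⟩
      have := s.2
      rw [nH, h1, iota_zero, c.zero_left, add_zero] at this
      exact eq_neg_of_add_eq_zero_right this
    obtain ⟨θ, hθ⟩ := c.exists_trace_one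
    obtain ⟨y₁, x₁', hy₁, hx₁', hw₁⟩ := hK1 (Pi.single 0 1)
    obtain ⟨y₂, x₂', hy₂, hx₂', hw₂⟩ := hK1 (Pi.single 0 (k' * θ))
    have hy' : ρ ⁅y₂, y₁⁆ = gR c hκ (zR c k' hk') := by
      rw [map_commutatorElement, hy₁, hy₂, gR_comm]
      refine gR_congr c hκ rfl ?_
      simp [zR, hx₁', hx₂', c.herm_apply, Fin.sum_univ_five, iota, map_mul, hk']
      linear_combination k' * hθ
    have hker : ⁅y₂, y₁⁆⁻¹ * (y⁻¹ * x) ∈ ρ.ker := by
      rw [MonoidHom.mem_ker, map_mul, map_inv, hy', he, inv_mul_cancel]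
    have e : x = y * ⁅y₂, y₁⁆ * (⁅y₂, y₁⁆⁻¹ * (y⁻¹ * x)) := by group
    rw [e]
    refine (hyw.mul_left ?_).mul_left (ker_comm hc hker w).symm
    exact ((hw₂.mul_left hw₁).mul_left hw₂.inv_left).mul_left hw₁.inv_left
  have hcomZ : ∀ a b, a ∈ Q.comap ρ → b ∈ Q.comap ρ → ∀ x ∈ Q.comap ρ, Commute x ⁅a, b⁆ := by
    intro a b ha hb
    obtain ⟨y, hy⟩ := hU.1 ha
    obtain ⟨y', hy'⟩ := hU.1 hb
    exact hcen _ _ _ (by rw [map_commutatorElement, hy, hy', gR_comm])
  -- the commutator map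
  obtain ⟨θ, hθ⟩ := c.exists_trace_one
  let par : (Fin 3 → F) → RP c := fun a => ⟨(a, -nH (q := q) a * θ), by
    have hs' : c.σ (nH (q := q) a) = nH (q := q) a := c.herm_self _
    rw [map_mul, map_neg, hs']
    linear_combination (-nH (q := q) a) * hθ⟩
  choose ul hul using fun a : Fin 3 → F => hs (gR c hκ (par a))
  have hulU : ∀ a, ul a ∈ Q.comap ρ := fun a => hU.2 ⟨_, hul a⟩
  have hmod : ∀ x y, ρ x = gR c hκ y → ∃ k hk w, ρ w = gR c hκ (zR c k hk) ∧ x = ul y.1.1 * w := by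
    intro x y hy
    obtain ⟨s, hs'⟩ : ∃ s, gR c hκ s = ρ ((ul y.1.1)⁻¹ * x) := by
      rw [map_mul, map_inv, hul, hy]; exact mul_mem (inv_mem (show gR c hκ (par y.1.1) ∈ Q from ⟨_, rfl⟩)) (show gR c hκ y ∈ Q from ⟨_, rfl⟩)
    have e : rmul c (par y.1.1) s = y := gR_injective c hκ (by
      rw [← gR_mul, hs', map_mul, map_inv, hul, hy, mul_inv_cancel_left])
    have h1 : s.1.1 = 0 := by
      have := congrArg (fun y : RP c => y.1.1) e
      simpa [rmul, par] using this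
    refine ⟨s.1.2, ?_, _, hs'.symm.trans (gR_congr c hκ h1 rfl), by group⟩
    have := s.2
    rw [nH, h1, iota_zero, c.zero_left, add_zero] at this
    exact eq_neg_of_add_eq_zero_right this
  set f : (Fin 3 → F) → (Fin 3 → F) → Γ := fun a b => ⁅ul a, ul b⁆ with hf
  have hcomm : ∀ x x' y y', ρ x = gR c hκ y → ρ x' = gR c hκ y' → ⁅x, x'⁆ = f y.1.1 y'.1.1 := by
    intro x x' y y' hy hy'
    obtain ⟨k, hk, w, hw, rfl⟩ := hmod x y hy
    obtain ⟨k', hk', w', hw', rfl⟩ := hmod x' y' hy'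
    have hw'U : w' ∈ Q.comap ρ := hU.2 ⟨_, hw'⟩
    have c1 : Commute w (ul y'.1.1 * w') := (hcen k hk w hw _ (mul_mem (hulU _) hw'U)).symm
    have c2 : Commute (ul y.1.1) w' := hcen k' hk' w' hw' _ (hulU _)
    calc ⁅ul y.1.1 * w, ul y'.1.1 * w'⁆
        = ul y.1.1 * ⁅w, ul y'.1.1 * w'⁆ * (ul y.1.1)⁻¹ * ⁅ul y.1.1, ul y'.1.1 * w'⁆ := by
          simp only [commutatorElement_def]; group
      _ = ⁅ul y.1.1, ul y'.1.1⁆ * (ul y'.1.1 * ⁅ul y.1.1, w'⁆ * (ul y'.1.1)⁻¹) := by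
          rw [commutatorElement_eq_one_iff_commute.2 c1]; simp only [commutatorElement_def]; group
      _ = _ := by rw [commutatorElement_eq_one_iff_commute.2 c2, mul_one, mul_inv_cancel, mul_one]
  have hfU : ∀ a b, f a b ∈ Q.comap ρ := fun a b => by
    rw [hf]; simp only [commutatorElement_def]
    exact mul_mem (mul_mem (mul_mem (hulU a) (hulU b)) (inv_mem (hulU a))) (inv_mem (hulU b))
  have hfc : ∀ a b, ∀ x ∈ Q.comap ρ, Commute x (f a b) := fun a b => hcomZ _ _ (hulU a) (hulU b)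
  have hfl : ∀ a b e, f (a + b) e = f a e * f b e := fun a b e => by
    have := hcomm (ul a * ul b) (ul e) (rmul c (par a) (par b)) (par e)
      (by rw [map_mul, hul, hul, gR_mul]) (hul e)
    simp only [rmul, par] at this
    rw [← this]
    calc ⁅ul a * ul b, ul e⁆ = ul a * f b e * (ul a)⁻¹ * f a e := by
          simp only [hf, commutatorElement_def]; group
      _ = f b e * f a e := by rw [(hfc b e _ (hulU a)).eq, mul_inv_cancel_right]
      _ = _ := (hfc a e _ (hfU b e)).eq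
  have hfi : ∀ a b, f b a = (f a b)⁻¹ := fun a b => (commutatorElement_inv _ _).symm
  have hfr : ∀ a b e, f a (b + e) = f a b * f a e := fun a b e => by
    rw [hfi _ a, hfl, mul_inv_rev, ← hfi, ← hfi]
    exact (hfc a b _ (hfU a e)).eq
  have hf0 : ∀ e, f 0 e = 1 := fun e => by
    have := hfl 0 0 e
    rw [add_zero] at this
    exact mul_eq_left.1 this.symm
  have hfn : ∀ (n : ℕ) a e, f ((n : F) • a) e = f a e ^ n := by
    intro n
    induction n with
    | zero => intro a e; rw [Nat.cast_zero, zero_smul, hf0, pow_zero]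
    | succ n ih => intro a e; rw [Nat.cast_succ, add_smul, one_smul, hfl, ih, pow_succ]
  have hfn' : ∀ (n : ℕ) a e, f a ((n : F) • e) = f a e ^ n := fun n a e => by
    rw [hfi _ a, hfn, hfi a e, inv_pow, inv_inv]
  have hρf : ∀ a b, ρ (f a b) = gR c hκ (zR c
      (Cfsg.hermForm 5 F q (iota a) (iota b) - Cfsg.hermForm 5 F q (iota b) (iota a))
      (by rw [map_sub, ← c.herm_symm, ← c.herm_symm, neg_sub])) := fun a b => by
    rw [hf, map_commutatorElement, hul, hul, gR_comm]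
  -- the cross terms
  have hsingle : ∀ (i j : Fin 3) (x y : F), i ≠ j →
      Cfsg.hermForm 5 F q (iota (Pi.single i x)) (iota (Pi.single j y)) = 0 := by
    intro i j x y hij
    rw [c.herm_apply, Fin.sum_univ_five]
    fin_cases i <;> fin_cases j <;> simp [iota] at hij ⊢
  have hcross : ∀ (i j : Fin 3) (x y : F), i ≠ j → f (Pi.single i x) (Pi.single j y) = 1 := by
    intro i j x y hij
    obtain ⟨l, δ, hδ, hlL, hδi, hδj⟩ : ∃ (l : SUg 5 F q) (δ : ℕ → Fˣ), IsDiag l δ ∧ l ∈ L ∧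
        δ (2 + i) ≠ 1 ∧ δ (2 + j) = 1 := by
      have hωne : ω ≠ 1 := fun e => hωf (by rw [e, Units.val_one, map_one])
      have hωne' : ω⁻¹ ≠ 1 := inv_ne_one.2 hωne
      have h23 : Blk c 5 2 2 ≤ L := Blk_mono c le_rfl (by norm_num)
      have h33 : Blk c 5 3 2 ≤ L := Blk_mono c (by norm_num) (by norm_num)
      fin_cases j
      · refine ⟨_, _, isDiag_xE c hω 3 (by norm_num), h33 (xE_mem c hω 3 _), ?_, by simp [dX]⟩
        fin_cases i <;> simp [dX] at hij ⊢ <;> first | exact hωne | exact hωne'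
      · refine ⟨_, _, (isDiag_xE c hω 2 (by norm_num)).mul (isDiag_xE c hω 3 (by norm_num)),
          mul_mem (h23 (xE_mem c hω 2 _)) (h33 (xE_mem c hω 3 _)), ?_, by simp [dX]⟩
        fin_cases i <;> simp [dX] at hij ⊢ <;> first | exact hωne | exact hωne'
      · refine ⟨_, _, isDiag_xE c hω 2 (by norm_num), h23 (xE_mem c hω 2 _), ?_, by simp [dX]⟩
        fin_cases i <;> simp [dX] at hij ⊢ <;> first | exact hωne | exact hωne'
    have hact : ∀ (k : Fin 3) (u : F), resH (act l (iota (Pi.single k u))) =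
        Pi.single k ((δ (2 + k) : F) * u) := by
      intro k u
      funext m
      have e2 := hδ (iota (Pi.single k u)) (2 + m) (by omega)
      rw [co_mk _ (show 2 + (m : ℕ) < 5 by omega), co_mk _ (show 2 + (m : ℕ) < 5 by omega)] at e2
      fin_cases m <;> fin_cases k <;> simp [resH, iota] at e2 ⊢ <;> exact e2
    obtain ⟨lh, hlh⟩ := hs l
    have hk : ∀ u v, f (Pi.single i u) (Pi.single j v) ∈ ρ.ker := fun u v => by
      rw [MonoidHom.mem_ker, hρf]
      exact gR_one c hκ rfl (by simp [zR, hsingle i j u v hij, hsingle j i v u hij.symm])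
    have hinv : ∀ u v, f (Pi.single i ((δ (2 + i) : F) * u)) (Pi.single j v) =
        f (Pi.single i u) (Pi.single j v) := by
      intro u v
      have e1 : lh * f (Pi.single i u) (Pi.single j v) * lh⁻¹ =
          f (lact c ⟨l, hlL⟩ (par (Pi.single i u))).1.1 (lact c ⟨l, hlL⟩ (par (Pi.single j v))).1.1 := by
        rw [hf]; simp only
        rw [conjugate_commutatorElement]
        exact hcomm _ _ _ _ (by rw [map_mul, map_mul, map_inv, hlh, hul, ← conj_gR c hκ ⟨l, hlL⟩])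
          (by rw [map_mul, map_mul, map_inv, hlh, hul, ← conj_gR c hκ ⟨l, hlL⟩])
      rw [ker_comm hc (hk u v), mul_inv_cancel_right] at e1
      simp only [lact, par, hact, hδj, Units.val_one, one_mul] at e1
      exact e1.symm
    have hne : (δ (2 + i) : F) - 1 ≠ 0 := sub_ne_zero.2 fun e => hδi (Units.ext e)
    set u := x / ((δ (2 + i) : F) - 1) with hu
    have e2 : (Pi.single i ((δ (2 + i) : F) * u) : Fin 3 → F) = Pi.single i x + Pi.single i u := by
      rw [← Pi.single_add]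
      congr 1
      rw [hu]; field_simp; ring
    have e3 := hinv u y
    rw [e2, hfl] at e3
    exact mul_eq_right.1 e3
  -- the diagonal terms
  set βj : Fin 3 → Γ := fun j => f (Pi.single j 1) (Pi.single j (ω : F)) with hβj
  have hdiag : ∀ j x y, f (Pi.single j x) (Pi.single j y) ∈ Subgroup.zpowers (βj j) := by
    intro j x y
    obtain ⟨m, n, rfl⟩ := eq_natCast_comb c hF hωf x
    obtain ⟨m', n', rfl⟩ := eq_natCast_comb c hF hωf y
    have e : ∀ a b : ℕ, (Pi.single j ((a : F) + (b : F) * ω) : Fin 3 → F) =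
        (a : F) • Pi.single j 1 + (b : F) • Pi.single j (ω : F) := fun a b => by
      rw [Pi.single_add, ← Pi.single_smul', ← Pi.single_smul', smul_eq_mul, smul_eq_mul, mul_one]
    have hself : ∀ v, f v v = 1 := fun v => commutatorElement_self _
    rw [e, e, hfl, hfr, hfr]
    simp only [hfn, hfn', hself, one_pow, one_mul, mul_one]
    rw [hfi (Pi.single j 1) (Pi.single j (ω : F))]
    exact mul_mem (pow_mem (pow_mem (Subgroup.mem_zpowers _) _) _)
      (pow_mem (pow_mem (inv_mem (Subgroup.mem_zpowers _)) _) _)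
  -- all diagonal generators agree up to powers
  set β := βj 0 with hβ
  obtain ⟨w2, hw2⟩ := hs (wE c 2 (show 2 + 2 ≤ 5 by norm_num))
  obtain ⟨w3, hw3⟩ := hs (wE c 3 (show 3 + 2 ≤ 5 by norm_num))
  have h2L : wE c 2 (show 2 + 2 ≤ 5 by norm_num) ∈ L := Blk_mono c (r := 2) le_rfl (by norm_num) (wE_mem c 2 _)
  have h3L : wE c 3 (show 3 + 2 ≤ 5 by norm_num) ∈ L := Blk_mono c (r := 2) (by norm_num) (by norm_num) (wE_mem c 3 _)
  set πh := ⁅w2, w3⁆ with hπh
  have hπL : πh ∈ DP ρ L := Subgroup.commutator_mem_commutator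
    (show ρ w2 ∈ L by rw [hw2]; exact h2L) (show ρ w3 ∈ L by rw [hw3]; exact h3L)
  set π := ⁅wE c 2 (show 2 + 2 ≤ 5 by norm_num), wE c 3 (show 3 + 2 ≤ 5 by norm_num)⁆ with hπ
  have hρπ : ρ πh = π := by rw [hπh, map_commutatorElement, hw2, hw3]
  have hπmem : π ∈ L := by
    rw [hπ, commutatorElement_def]
    exact mul_mem (mul_mem (mul_mem h2L h3L) (inv_mem h2L)) (inv_mem h3L)
  have hπact : ∀ v : Fin 5 → F, co (act π v) 2 = co v 3 ∧ co (act π v) 3 = -co v 4 ∧
      co (act π v) 4 = -co v 2 := by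
    intro v
    have e : π * (wE c 3 (show 3 + 2 ≤ 5 by norm_num) * wE c 2 (show 2 + 2 ≤ 5 by norm_num)) =
        wE c 2 (show 2 + 2 ≤ 5 by norm_num) * wE c 3 (show 3 + 2 ≤ 5 by norm_num) := by
      rw [hπ, commutatorElement_def]; group
    obtain ⟨v, rfl⟩ : ∃ v', act (wE c 3 (show 3 + 2 ≤ 5 by norm_num) * wE c 2 (show 2 + 2 ≤ 5 by norm_num)) v' = v :=
      ⟨_, act_act_inv _ v⟩
    rw [← act_mul, e]
    simp [act_mul, co_wE c]
  have hπf : ∀ (u v : F), ∀ w, ρ w ∈ Q → (∃ k hk, ρ w = gR c hκ (zR c k hk)) → Commute πh w := by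
    intro u v w _ hw
    obtain ⟨k, hk, hw⟩ := hw
    have key : ∀ g ∈ L, ∀ g' ∈ Subgroup.zpowers (ρ w), Commute g g' := by
      intro g hg g' hg'
      obtain ⟨n, rfl⟩ := hg'
      refine (Commute.zpow_right ?_ n)
      rw [hw]
      refine mul_inv_eq_iff_eq_mul.1 ((conj_gR c hκ ⟨g, hg⟩ _).trans (gR_congr c hκ ?_ rfl))
      simp [lact, zR, iota_zero, resH]
    exact comm_DP hc key hπL (Subgroup.mem_zpowers _)
  have hstep : ∀ (i j : Fin 3) (a b : F), (∀ u : F, resH (act π (iota (Pi.single i u))) = Pi.single j (-u)) →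
      f (Pi.single i a) (Pi.single i b) = f (Pi.single j a) (Pi.single j b) := by
    intro i j a b hij
    have e1 : πh * f (Pi.single i a) (Pi.single i b) * πh⁻¹ =
        f (Pi.single j (-a)) (Pi.single j (-b)) := by
      rw [hf]; simp only
      rw [conjugate_commutatorElement]
      refine (hcomm _ _ (lact c ⟨π, hπmem⟩ (par (Pi.single i a))) (lact c ⟨π, hπmem⟩ (par (Pi.single i b)))
        (by rw [map_mul, map_mul, map_inv, hρπ, hul, ← conj_gR c hκ ⟨π, hπmem⟩])
        (by rw [map_mul, map_mul, map_inv, hρπ, hul, ← conj_gR c hκ ⟨π, hπmem⟩])).trans ?_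
      simp only [lact, par, hij, hf]
    have hc1 : Commute πh (f (Pi.single i a) (Pi.single i b)) :=
      hπf a b _ (hfU _ _) ⟨_, _, hρf _ _⟩
    rw [hc1.eq, mul_inv_cancel_right] at e1
    rw [e1]
    have e : ∀ v w, f (-v) w = (f v w)⁻¹ := fun v w => by
      refine eq_inv_of_mul_eq_one_left ?_
      rw [← hfl, neg_add_cancel, hf0]
    rw [Pi.single_neg, Pi.single_neg, e, hfi _ (Pi.single j a), e, inv_inv, ← hfi]
  have hres : ∀ (i : Fin 3) (u : F), resH (act π (iota (Pi.single i u))) =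
      ![co (iota (Pi.single i u)) 3, -co (iota (Pi.single i u)) 4, -co (iota (Pi.single i u)) 2] := by
    intro i u
    obtain ⟨e2, e3, e4⟩ := hπact (iota (Pi.single i u))
    rw [co_mk _ (show 2 < 5 by norm_num)] at e2
    rw [co_mk _ (show 3 < 5 by norm_num)] at e3
    rw [co_mk _ (show 4 < 5 by norm_num)] at e4
    funext m; fin_cases m
    · exact e2
    · exact e3
    · exact e4
  have hβ2 : βj 0 = βj 2 := hstep 0 2 1 ω fun u => by
    rw [hres]; funext m; fin_cases m <;> simp [co, iota]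
  have hβ1 : βj 1 = βj 0 := ((hstep 2 1 1 ω fun u => by
    rw [hres]; funext m; fin_cases m <;> simp [co, iota]).symm).trans hβ2.symm
  have hfβ : ∀ a b, f a b ∈ Subgroup.zpowers β := by
    intro a b
    have hdec : ∀ v : Fin 3 → F, v = Pi.single 0 (v 0) + Pi.single 1 (v 1) + Pi.single 2 (v 2) := fun v => by
      funext m; fin_cases m <;> simp
    have hj : ∀ j : Fin 3, βj j = β := fun j => by
      fin_cases j
      · rfl
      · exact hβ1
      · exact hβ2.symm
    rw [hdec a, hdec b, hfl, hfl]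
    simp only [hfr]
    have key : ∀ i j : Fin 3, ∀ x y, f (Pi.single i x) (Pi.single j y) ∈ Subgroup.zpowers β := fun i j x y => by
      by_cases hij : i = j
      · subst hij; rw [← hj i]; exact hdiag i x y
      · rw [hcross i j x y hij]; exact one_mem _
    refine mul_mem (mul_mem ?_ ?_) ?_ <;> refine mul_mem (mul_mem ?_ ?_) ?_ <;> exact key _ _ _ _
  have hβval : Cfsg.hermForm 5 F q (iota (Pi.single (0 : Fin 3) (1 : F))) (iota (Pi.single 0 (ω : F))) -
      Cfsg.hermForm 5 F q (iota (Pi.single (0 : Fin 3) (ω : F))) (iota (Pi.single 0 1)) ≠ 0 := by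
    simp [c.herm_apply, Fin.sum_univ_five, iota]
    exact sub_ne_zero.2 hωf
  have hq0 : (q : F) = 0 := by
    have := FiniteField.cast_card_eq_zero F
    rw [hF] at this
    push_cast at this
    exact (pow_eq_zero_iff two_ne_zero).1 this
  have hβq : β ^ q = 1 := by
    rw [hβ, hβj]
    simp only
    rw [← hfn, hq0, zero_smul, hf0]
  have hρβ : ρ β ≠ 1 := fun e => by
    rw [hβ, hβj] at e
    simp only at e
    rw [hρf, ← gR_one c hκ (x := zR c 0 (by simp)) rfl rfl] at e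
    exact hβval (congrArg (fun y : RP c => y.1.2) (gR_injective c hκ e))
  have hoβ : orderOf (ρ β) = q := orderOf_eq_prime (by rw [← map_pow, hβq, map_one]) hρβ
  have hβfree : KerFree ρ (Subgroup.zpowers β) := by
    rintro _ ⟨n, rfl⟩ e
    have h1 : (q : ℤ) ∣ n := by
      rw [← hoβ]; exact orderOf_dvd_iff_zpow_eq_one.2 (by rw [← map_zpow]; exact e)
    obtain ⟨m, rfl⟩ := h1
    show β ^ ((q : ℤ) * m) = 1
    rw [zpow_mul, zpow_natCast, hβq, one_zpow]
  have hDQ : DP ρ Q ≤ Subgroup.zpowers β := by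
    rw [DP, Subgroup.commutator_le]
    intro x hx y hy
    obtain ⟨a, ha⟩ := hU.1 hx
    obtain ⟨b, hb⟩ := hU.1 hy
    rw [hcomm x y a b ha hb]; exact hfβ _ _
  have hβc : ∀ x ∈ Q.comap ρ, Commute x β := hfc _ _
  -- every central parameter comes from `β`
  have hZall : ∀ k hk, ∃ n : ℕ, ρ (β ^ n) = gR c hκ (zR c k hk) := by
    intro k hk
    let Zk := {k : F // c.σ k = -k}
    let g : Fin q → Zk := fun n => ⟨(n : ℕ) * (Cfsg.hermForm 5 F q (iota (Pi.single (0 : Fin 3) (1 : F)))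
      (iota (Pi.single 0 (ω : F))) -
      Cfsg.hermForm 5 F q (iota (Pi.single (0 : Fin 3) (ω : F))) (iota (Pi.single 0 1))), by
        rw [map_mul, map_natCast, map_sub, ← c.herm_symm, ← c.herm_symm, ← mul_neg, neg_sub]⟩
    have hg : ∀ n : Fin q, ρ (β ^ (n : ℕ)) = gR c hκ (zR c (g n).1 (g n).2) := by
      have key : ∀ m : ℕ, ∃ hm, ρ (β ^ m) = gR c hκ (zR c ((m : F) *
          (Cfsg.hermForm 5 F q (iota (Pi.single (0 : Fin 3) (1 : F))) (iota (Pi.single 0 (ω : F))) -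
            Cfsg.hermForm 5 F q (iota (Pi.single (0 : Fin 3) (ω : F))) (iota (Pi.single 0 1)))) hm) := by
        intro m
        refine ⟨by rw [map_mul, map_natCast, map_sub, ← c.herm_symm, ← c.herm_symm, ← mul_neg, neg_sub], ?_⟩
        induction m with
        | zero => rw [pow_zero, map_one]; exact (gR_one c hκ rfl (by simp [zR])).symm
        | succ m ih =>
          rw [pow_succ, map_mul, ih, hβ, hβj]
          simp only
          rw [hρf, gR_zR_add]
          exact gR_congr c hκ rfl (by simp [zR]; ring)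
      intro n
      obtain ⟨hm, e⟩ := key n
      exact e
    have hinj : Function.Injective g := fun a b e => by
      have h1 : ρ β ^ (a : ℕ) = ρ β ^ (b : ℕ) := by
        rw [← map_pow, ← map_pow, hg a, hg b]
        exact gR_congr c hκ rfl (congrArg Subtype.val e)
      exact Fin.ext (pow_injOn_Iio_orderOf (Set.mem_Iio.2 (by rw [hoβ]; exact a.2))
        (Set.mem_Iio.2 (by rw [hoβ]; exact b.2)) h1)
    obtain ⟨n, hn⟩ := ((Nat.bijective_iff_injective_and_card g).2
      ⟨hinj, by rw [card_skew c hF', Nat.card_fin]⟩).2 ⟨k, hk⟩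
    refine ⟨n, (hg n).trans (gR_congr c hκ rfl ?_)⟩
    exact congrArg Subtype.val hn
  have hthβ : th * β * th⁻¹ = β := by
    have e1 : th * β * th⁻¹ ∈ Subgroup.zpowers β := by
      rw [hβ, hβj]
      simp only [hf]
      rw [conjugate_commutatorElement]
      obtain ⟨y₁, -, -, e1⟩ := hconj _ _ (hul (Pi.single 0 1))
      obtain ⟨y₂, -, -, e2⟩ := hconj _ _ (hul (Pi.single 0 (ω : F)))
      rw [hcomm _ _ _ _ e1 e2]
      exact hfβ _ _
    refine hβfree.eq e1 (Subgroup.mem_zpowers β) ?_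
    obtain ⟨y, e2, e3, e4⟩ := hconj β _ (hρf _ _)
    rw [e4]
    conv_rhs => rw [hβ, hβj]
    simp only
    rw [hρf]
    exact gR_congr c hκ (by rw [e2]; simp [zR]) e3
  have hQn : ∀ x ∈ Q.comap ρ, th * x * th⁻¹ ∈ Q.comap ρ := fun x hx => by
    obtain ⟨y, hy⟩ := hU.1 hx
    obtain ⟨y', -, -, e⟩ := hconj x y hy
    exact hU.2 ⟨y', e⟩
  have htw : ∀ w ∈ Q.comap ρ, ⁅th, w⁆ ∈ Q.comap ρ := fun w hw => by
    rw [commutatorElement_def]; exact mul_mem (hQn w hw) (inv_mem hw)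
  -- the complement in the radical
  have hXmul : ∀ w w', w ∈ Q.comap ρ → w' ∈ Q.comap ρ →
      ∃ n : ℤ, ⁅th, w⁆ * ⁅th, w'⁆ = ⁅th, w * w'⁆ * β ^ n := by
    intro w w' hw hw'
    obtain ⟨n, hn⟩ : ∃ n : ℤ, β ^ n = ⁅w, ⁅th, w'⁆⁻¹⁆ := hDQ (Subgroup.commutator_mem_commutator
      hw (inv_mem (htw w' hw')))
    exact ⟨n, by rw [hn]; simp only [commutatorElement_def]; group⟩
  let X : Subgroup Γ :=
    { carrier := {x | ∃ w ∈ Q.comap ρ, ∃ n : ℤ, x = ⁅th, w⁆ * β ^ n}
      one_mem' := ⟨1, one_mem _, 0, by simp⟩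
      mul_mem' := by
        rintro _ _ ⟨w, hw, n, rfl⟩ ⟨w', hw', n', rfl⟩
        obtain ⟨m, hm⟩ := hXmul w w' hw hw'
        refine ⟨w * w', mul_mem hw hw', m + n + n', ?_⟩
        have hb : Commute ⁅th, w'⁆ (β ^ n) := (hβc _ (htw w' hw')).zpow_right n
        calc ⁅th, w⁆ * β ^ n * (⁅th, w'⁆ * β ^ n') = ⁅th, w⁆ * (β ^ n * ⁅th, w'⁆) * β ^ n' := by group
          _ = ⁅th, w⁆ * ⁅th, w'⁆ * β ^ (n + n') := by rw [← hb.eq, zpow_add]; group
          _ = _ := by rw [hm, add_assoc, zpow_add β m]; group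
      inv_mem' := by
        rintro _ ⟨w, hw, n, rfl⟩
        obtain ⟨m, hm⟩ := hXmul w⁻¹ w (inv_mem hw) hw
        rw [inv_mul_cancel, commutatorElement_one_right, one_mul] at hm
        refine ⟨w⁻¹, inv_mem hw, -m - n, ?_⟩
        have hb : Commute ⁅th, w⁻¹⁆ (β ^ (-n)) := (hβc _ (htw _ (inv_mem hw))).zpow_right _
        have e : ⁅th, w⁆⁻¹ = β ^ (-m) * ⁅th, w⁻¹⁆ := by
          refine inv_eq_of_mul_eq_one_left ?_
          rw [mul_assoc, hm, zpow_neg, inv_mul_cancel]
        have hb' : Commute ⁅th, w⁻¹⁆ (β ^ (-m)) := (hβc _ (htw _ (inv_mem hw))).zpow_right _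
        rw [mul_inv_rev, e, ← hb'.eq, ← zpow_neg, ← mul_assoc, ← hb.eq, mul_assoc, ← zpow_add]
        congr 2; ring }
  have hXβ : β ∈ X := ⟨1, one_mem _, 1, by simp⟩
  have hXQ : ∀ x ∈ X, x ∈ Q.comap ρ := by
    rintro _ ⟨w, hw, n, rfl⟩
    exact mul_mem (htw w hw) (zpow_mem (hfU _ _) n)
  have hXfree : KerFree ρ X := by
    rintro _ ⟨w, hw, n, rfl⟩ h1
    obtain ⟨y, hy⟩ := hU.1 hw
    obtain ⟨y', e1, -, e3⟩ := hconj w y hy
    have hy0 : y.1.1 = 0 := by
      obtain ⟨m, hm⟩ : ∃ m : RP c, ρ (β ^ n) = gR c hκ m := hU.1 (zpow_mem (hfU _ _) n)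
      have hm0 : m.1.1 = 0 := by
        have : Commute (ρ (β ^ n)) (ρ (β ^ n)) := Commute.refl _
        obtain ⟨j, hj⟩ : ∃ j : ℕ, ρ (β ^ n) = ρ (β ^ j) := by
          refine ⟨((n % q).toNat), ?_⟩
          rw [map_zpow, map_pow, ← zpow_natCast, Int.toNat_of_nonneg (Int.emod_nonneg _ (by exact_mod_cast hqp.out.ne_zero)),
            ← zpow_mod_orderOf (ρ β) n, hoβ]
        rw [hj] at hm
        clear hj this
        induction j generalizing m with
        | zero =>
          rw [pow_zero, map_one, ← gR_one c hκ (x := zR c 0 (by simp)) rfl rfl] at hm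
          rw [← gR_injective c hκ hm]; rfl
        | succ j ih =>
          obtain ⟨m', hm'⟩ : ∃ m', ρ (β ^ j) = gR c hκ m' := hU.1 (pow_mem (hfU _ _) j)
          rw [pow_succ, map_mul, hm', show ρ β = _ from hρf _ _, gR_mul] at hm
          rw [← gR_injective c hκ hm]
          show m'.1.1 + 0 = 0
          rw [ih m' hm', add_zero]
      rw [map_mul, commutatorElement_def, map_mul _ (th * w * th⁻¹), e3, map_inv, hy, hm] at h1
      have h2 : gR c hκ y' = gR c hκ (rmul c (zR c 0 (by simp)) y) * gR c hκ (zR c 0 (by simp)) ∨ True := Or.inr trivial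
      obtain ⟨mi, hmi⟩ : ∃ mi : RP c, gR c hκ mi = (gR c hκ m)⁻¹ := inv_mem (show gR c hκ m ∈ Q from ⟨m, rfl⟩)
      have h3 : y' = rmul c mi y := gR_injective c hκ (by
        rw [← gR_mul, hmi]
        have := eq_inv_of_mul_eq_one_left h1
        rw [← this]; group)
      have h4 : mi.1.1 = 0 := by
        have h := congrArg (fun y : RP c => y.1.1) (gR_injective c hκ (a₁ := rmul c mi m)
          (a₂ := zR c 0 (by simp)) (by rw [← gR_mul, hmi, inv_mul_cancel, gR_one c hκ rfl rfl]))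
        simpa [rmul, zR, hm0] using h
      have h5 := congrArg (fun y : RP c => y.1.1) h3
      simp only [rmul, h4, zero_add, e1] at h5
      have h6 : (rT - 1) • y.1.1 = 0 := by rw [sub_smul, one_smul, h5, sub_self]
      exact (smul_eq_zero.1 h6).resolve_left hrT1
    obtain ⟨j, hj⟩ := hZall y.1.2 (by
      have := y.2
      rw [nH, hy0, iota_zero, c.zero_left, add_zero] at this
      exact eq_neg_of_add_eq_zero_right this)
    have e0 : ⁅th, w⁆ = 1 := by
      rw [comm_eq_of_map_eq hc (a' := th) (b' := β ^ j) rfl (by rw [hy, hj]; exact gR_congr c hκ hy0 rfl),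
        commutatorElement_eq_one_iff_commute]
      exact Commute.pow_right (mul_inv_eq_iff_eq_mul.1 hthβ) j
    rw [e0, one_mul] at h1 ⊢
    exact hβfree _ (Subgroup.zpow_mem _ (Subgroup.mem_zpowers β) n) h1
  have hXmap : X.map ρ = Q := by
    refine le_antisymm ?_ ?_
    · rintro _ ⟨x, hx, rfl⟩; exact hXQ x hx
    rintro _ ⟨y, rfl⟩
    obtain ⟨w, hw⟩ := hs (gR c hκ (par ((rT - 1)⁻¹ • y.1.1)))
    have hwQ : w ∈ Q.comap ρ := hU.2 ⟨_, hw⟩
    obtain ⟨s, hsy⟩ := hU.1 (htw w hwQ)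
    obtain ⟨si, hsi⟩ : ∃ si : RP c, gR c hκ si = (gR c hκ s)⁻¹ * gR c hκ y :=
      mul_mem (inv_mem (show gR c hκ s ∈ Q from ⟨s, rfl⟩)) ⟨y, rfl⟩
    have hy2 : rmul c s si = y := gR_injective c hκ (by rw [← gR_mul, hsi, mul_inv_cancel_left])
    obtain ⟨y', e1, -, e3⟩ := hconj w _ hw
    have hs1 : s.1.1 = y.1.1 := by
      have e : rmul c s (par ((rT - 1)⁻¹ • y.1.1)) = y' := gR_injective c hκ (by
        rw [← gR_mul, ← hsy, ← hw, ← e3, ← map_mul, commutatorElement_def, inv_mul_cancel_right])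
      have h5 := congrArg (fun y : RP c => y.1.1) e
      simp only [rmul, par, e1] at h5
      rw [eq_sub_of_add_eq h5, ← one_smul F ((rT - 1)⁻¹ • y.1.1), smul_smul rT, mul_one, ← sub_smul,
        smul_smul, mul_inv_cancel₀ hrT1, one_smul]
    have hsi1 : si.1.1 = 0 := by
      have := congrArg (fun y : RP c => y.1.1) hy2
      simpa [rmul, hs1] using this
    obtain ⟨j, hj⟩ := hZall si.1.2 (by
      have := si.2
      rw [nH, hsi1, iota_zero, c.zero_left, add_zero] at this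
      exact eq_neg_of_add_eq_zero_right this)
    refine ⟨⁅th, w⁆ * β ^ (j : ℤ), ⟨w, hwQ, _, rfl⟩, ?_⟩
    rw [map_mul, hsy, zpow_natCast, hj, ← hy2, ← gR_mul]
    exact congrArg _ (gR_congr c hκ hsi1.symm rfl)
  -- normalisation by the lifts
  have hnX : ∀ g : Γ, (∀ x ∈ X, g * x * g⁻¹ ∈ X) → g ∈ Subgroup.normalizer (X : Set Γ) := fun g hg =>
    Subgroup.mem_normalizer_iff_map_conj_eq.2 (Subgroup.eq_of_le_of_card_ge
      (by rintro _ ⟨x, hx, rfl⟩; exact hg x hx) (Subgroup.card_map_of_injective (MulAut.conj g).injective).ge)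
  have hlX : ∀ l : Γ, ρ l ∈ L → l ∈ Subgroup.normalizer (X : Set Γ) := by
    intro l hl
    have hlQ : ∀ x ∈ Q.comap ρ, l * x * l⁻¹ ∈ Q.comap ρ := fun x hx => by
      show ρ (l * x * l⁻¹) ∈ Q
      rw [map_mul, map_mul, map_inv]
      exact (Subgroup.mem_normalizer_iff.1 (hLQ hl) _).1 hx
    refine hnX l ?_
    rintro _ ⟨w, hw, n, rfl⟩
    have hlt : ρ (l * th * l⁻¹) = ρ th := by
      have hcm : Commute t (ρ l) := ht.commute_Blk c (show 2 + 3 ≤ 5 by norm_num) (fun a h2 h5 => by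
        interval_cases a
        · rfl
        · exact h3
        · exact h4) hl
      rw [map_mul, map_mul, map_inv, hth, ← hcm.eq, mul_inv_cancel_right]
    have e : l * (⁅th, w⁆ * β ^ n) * l⁻¹ = ⁅th, l * w * l⁻¹⁆ * (l * β * l⁻¹) ^ n := by
      rw [← comm_eq_of_map_eq hc hlt (rfl : ρ (l * w * l⁻¹) = _), ← conjugate_commutatorElement, conj_zpow]
      group
    rw [e]
    refine mul_mem ⟨_, hlQ w hw, 0, by simp⟩ (zpow_mem ?_ n)
    obtain ⟨i, hi⟩ : l * β * l⁻¹ ∈ Subgroup.zpowers β := by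
      refine hDQ ?_
      rw [hβ, hβj]
      simp only [hf]
      rw [conjugate_commutatorElement]
      exact Subgroup.commutator_mem_commutator (hlQ _ (hulU _)) (hlQ _ (hulU _))
    rw [← hi]; exact zpow_mem hXβ i
  set DL := DP ρ L with hDL
  have hDLX : DL ≤ Subgroup.normalizer (X : Set Γ) := fun x hx => hlX x (DP_le_comap L hx)
  set N := X ⊔ DL with hN
  have hle : DP ρ H ≤ N := by
    refine DP_le_of_gens hc ((X : Set Γ) ∪ (L.comap ρ : Set Γ)) ?_ N ?_ ?_
    · rw [hH, Set.image_union, Subgroup.closure_union, ← MonoidHom.map_closure, ← MonoidHom.map_closure,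
        Subgroup.closure_eq, Subgroup.closure_eq, hXmap, Subgroup.map_comap_eq_self_of_surjective hs]
    · rintro s (hs' | hs')
      · exact Subgroup.le_normalizer (Subgroup.mem_sup_left hs')
      · refine Subgroup.mem_normalizer_iff_map_conj_eq.2 (Subgroup.eq_of_le_of_card_ge ?_
          (Subgroup.card_map_of_injective (MulAut.conj s).injective).ge)
        rw [hN, Subgroup.map_sup]
        refine sup_le (le_sup_of_le_left ?_) (le_sup_of_le_right ?_)
        · rintro _ ⟨x, hx, rfl⟩; exact (Subgroup.mem_normalizer_iff.1 (hlX s hs') x).1 hx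
        · rw [hDL, DP, Subgroup.map_commutator]
          have h' : (L.comap ρ).map (MulAut.conj s).toMonoidHom ≤ L.comap ρ := by
            rintro _ ⟨x, hx, rfl⟩; exact mul_mem (mul_mem hs' hx) (inv_mem hs')
          exact Subgroup.commutator_mono h' h'
    · rintro s (hs' | hs') y (hy | hy)
      · refine Subgroup.mem_sup_left ?_
        obtain ⟨i, hi⟩ := hDQ (Subgroup.commutator_mem_commutator (hXQ s hs') (hXQ y hy))
        rw [← hi]; exact zpow_mem hXβ i
      · rw [← commutatorElement_inv, commutatorElement_def]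
        refine inv_mem (Subgroup.mem_sup_left ?_)
        exact mul_mem ((Subgroup.mem_normalizer_iff.1 (hlX y hy) s).1 hs') (inv_mem hs')
      · rw [commutatorElement_def]
        refine Subgroup.mem_sup_left ?_
        exact mul_mem ((Subgroup.mem_normalizer_iff.1 (hlX s hs') y).1 hy) (inv_mem hy)
      · exact Subgroup.mem_sup_right (Subgroup.commutator_mem_commutator hs' hy)
  have hzN := hle hz
  rw [hN, ← SetLike.mem_coe, Subgroup.coe_mul_of_right_le_normalizer_left _ _ hDLX] at hzN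
  obtain ⟨x, hx, y, hy, rfl⟩ := hzN
  have hρ1 : ρ x * ρ y = 1 := by rw [← map_mul]; exact hzk
  have hy1 : ρ y = 1 := by
    refine hQL _ ?_ (DP_le_comap L hy)
    rw [eq_inv_of_mul_eq_one_right hρ1]
    exact inv_mem (hXQ x hx)
  rw [hy1, mul_one] at hρ1
  have hx1 := hXfree x hx hρ1
  subst hx1
  simp only [one_mul] at hzq hzk ⊢
  exact hL Γ ρ hρ y hy hzk hzq

end Prime

end CfsgLib.SUMult
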