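import Cfsg.Agent.Lib.SUMult.Basic
import Cfsg.Agent.Lib.SUAmalgam.Pairs
import Cfsg.Agent.Lib.ClassicalForms.Unitary.Simple
import Cfsg.Agent.Lib.ClassicalLinear.Generation

/-!
For `q ≥ 4` all stem extensions of `SU_m(q)` are trivial as soon as this holds in degree three.
-/

set_option autoImplicit false

namespace CfsgLib.SUMult

open CfsgLib.SUAmalgam CfsgLib.ClassicalForms

universe u

variable {F : Type u} [Field F] [Fintype F] {q : ℕ}

theorem commutator_su_two (hF : Fintype.card F = q ^ 2) (hq : 3 < q) :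
    commutator (SUg 2 F q) = ⊤ := by
  have hF' : Nat.card F = q ^ 2 := by rw [Nat.card_eq_fintype_card, hF]
  obtain ⟨c⟩ := exists_conj hF'
  have : Fintype c.fixed := Fintype.ofFinite _
  obtain ⟨e⟩ := nonempty_su_two_equiv (F := F) (K := c.fixed) hF' (c.card_fixed hF')
  have h := ClassicalLinear.commutator_sl_eq_top (ι := Fin 2) (F := c.fixed)
    (Or.inr (ClassicalLinear.exists_sq_ne_one_of_four_le_card (by rw [c.card_fixed hF']; omega)))
  rw [commutator_def, ← Subgroup.map_top_of_surjective e.symm.toMonoidHom e.symm.surjective,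
    ← Subgroup.map_commutator, ← commutator_def, h]

set_option maxHeartbeats 400000 in
theorem trivMult_large (hF : Fintype.card F = q ^ 2) (hq : 3 < q) (h3 : TrivMult (SUg 3 F q))
    {m : ℕ} (hm : 3 ≤ m) : TrivMult (SUg m F q) := by
  intro Γ _ _ σ hσ
  have hF' : Nat.card F = q ^ 2 := by rw [Nat.card_eq_fintype_card, hF]
  obtain ⟨c⟩ := exists_conj hF'
  have p2 : ∀ i, i + 2 ≤ m → Blk c m i 2 ≤ ⁅Blk c m i 2, Blk c m i 2⁆ := fun i hi =>
    Blk_perfect c hi (commutator_su_two hF hq)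
  have p3 : ∀ i, i + 3 ≤ m → Blk c m i 3 ≤ ⁅Blk c m i 3, Blk c m i 3⁆ := fun i hi =>
    Blk_perfect c hi (commutator_su_eq_top hF le_rfl (by omega))
  have hcomm : ∀ i j, i + 2 ≤ j → j + 2 ≤ m → ∀ a ∈ DP σ (Blk c m i 2),
      ∀ b ∈ DP σ (Blk c m j 2), a * b = b * a := by
    intro i j hij hj a ha b hb
    have hb' : σ b ∈ Blk c m j 2 := DP_le_comap (π := σ) _ hb
    have key : ∀ x ∈ Blk c m i 2, ∀ y ∈ Blk c m j 2, Commute x y :=
      fun x hx y hy => Blk_comm c hx hy hij
    exact (comm_DP hσ.2.1 key ha hb').eq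
  have hinj : ∀ i, i + 3 ≤ m →
      KerFree σ (DP σ (Blk c m i 2) ⊔ DP σ (Blk c m (i + 1) 2)) := by
    intro i hi a ha h1
    have hle : DP σ (Blk c m i 2) ⊔ DP σ (Blk c m (i + 1) 2) ≤ DP σ (Blk c m i 3) :=
      sup_le (DP_mono (Blk_mono c (Nat.le_refl i) (by omega)))
        (DP_mono (Blk_mono c (Nat.le_succ i) (Nat.le_refl _)))
    exact kerFree_DP hσ.1 hσ.2.1 (blkEquiv c i hi) h3 (p3 i hi) a (hle ha) h1
  let C : Cover c m Γ :=
    { π := σ
      S := fun i => DP σ (Blk c m i 2)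
      hm := hm
      map_S := fun i hi => map_DP_perfect hσ.1 (p2 i hi)
      comm := hcomm
      inj := hinj }
  have hg := C.good hF' hq 0
  refine ker_eq_bot_of_le hσ ?_ hg.inj
  refine le_trans (fun g _ => ?_) hg.map
  intro l hl
  exact absurd hl (by have := l.isLt; omega)

end CfsgLib.SUMult
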