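import Cfsg.Agent.Lib.SUMult.Basic
import Cfsg.Agent.Lib.SchurMult.Quaternion

/-!
The local conditions at the single primes.
-/

set_option autoImplicit false

namespace CfsgLib.SUMult

open CfsgLib.SUAmalgam CfsgLib.SchurMult
open scoped commutatorElement

universe u

/-- No stem extension has a kernel element of order `p`. -/
def OKAt (Δ : Type u) [Group Δ] (p : ℕ) : Prop :=
  ∀ (Γ : Type u) [Group Γ] [Finite Γ] (ρ : Γ →* Δ), Cfsg.IsStemExtension ρ →
    ∀ z ∈ ρ.ker, z ^ p = 1 → z = 1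

theorem OKAt.of_equiv {Δ Δ' : Type u} [Group Δ] [Group Δ'] (e : Δ ≃* Δ') {p : ℕ} (h : OKAt Δ p) :
    OKAt Δ' p := by
  intro Γ _ _ ρ hρ
  have hk : (e.symm.toMonoidHom.comp ρ).ker = ρ.ker := by
    ext x
    simp [MonoidHom.mem_ker]
  have := h Γ (e.symm.toMonoidHom.comp ρ) ⟨e.symm.surjective.comp hρ.1, hk ▸ hρ.2.1, hk ▸ hρ.2.2⟩
  rwa [hk] at this

theorem trivMult_of_okAt {Δ : Type u} [Group Δ] [Finite Δ]
    (h : ∀ p : ℕ, p.Prime → p ∣ Nat.card Δ → OKAt Δ p) : TrivMult Δ := by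
  intro Γ _ _ ρ hρ
  rw [eq_bot_iff]
  intro z hz
  rw [Subgroup.mem_bot]
  by_contra hne
  obtain ⟨p, hp, hpd⟩ := Nat.exists_prime_and_dvd (n := orderOf z) (mt orderOf_eq_one_iff.1 hne)
  have hw : orderOf (z ^ (orderOf z / p)) = p := orderOf_pow_orderOf_div (orderOf_pos z).ne' hpd
  have := h p hp (hpd.trans (orderOf_dvd_of_pow_eq_one (ker_pow_card hρ hz))) Γ ρ hρ _ (pow_mem hz _)
    (by have e := pow_orderOf_eq_one (z ^ (orderOf z / p)); rwa [hw] at e)
  rw [this, orderOf_one] at hw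
  exact hp.one_lt.ne hw

/-- The criterion: a subgroup of prime-to-`p` index. -/
theorem okAt_of_subgroup {Δ : Type u} [Group Δ] {p : ℕ} (hp : p.Prime) (H : Subgroup Δ)
    (hH : ¬ p ∣ H.index)
    (h : ∀ (Γ : Type u) [Group Γ] [Finite Γ] (ρ : Γ →* Δ), Cfsg.IsStemExtension ρ →
      ∀ z ∈ DP ρ H, z ∈ ρ.ker → z ^ p = 1 → z = 1) : OKAt Δ p := by
  intro Γ _ _ ρ hρ z hz hzp
  exact h Γ ρ hρ z (mem_commutator_of_pow_eq_one hρ hp H hH hz (k := 1) (by rw [pow_one]; exact hzp)) hz hzp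

/-- The criterion with an abelian preimage. -/
theorem okAt_of_cyclic {Δ : Type u} [Group Δ] {p : ℕ} (hp : p.Prime) (H : Subgroup Δ) [IsCyclic H]
    (hH : ¬ p ∣ H.index) : OKAt Δ p :=
  okAt_of_subgroup hp H hH fun Γ _ _ ρ hρ z hz _ _ => by
    rw [DP, commutator_comap_eq_bot_of_isCyclic hρ.2.1 hρ.1 H, Subgroup.mem_bot] at hz
    exact hz

variable {Γ G : Type u} [Group Γ] [Group G] {π : Γ →* G}

/-- Transfer inside the preimage of a subgroup: `p`-torsion of the kernel inside a derived preimage lies in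
the derived preimage of a subgroup of prime-to-`p` relative index. -/
theorem mem_DP_of_pow [Finite Γ] (hs : Function.Surjective π) (hc : π.ker ≤ Subgroup.center Γ)
    {K P : Subgroup G} {p : ℕ} (hp : p.Prime) (hPK : P ≤ K) (hP : ¬ p ∣ P.relIndex K)
    {z : Γ} (hz : z ∈ DP π K) (hzk : z ∈ π.ker) {k : ℕ} (hk : z ^ p ^ k = 1) : z ∈ DP π P := by
  set C := K.comap π with hC
  have hzC : z ∈ C := DP_le_comap K hz
  have hidx : ((P.comap π).subgroupOf C).index = P.relIndex K := by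
    show (P.comap π).relIndex C = _
    rw [Subgroup.relIndex_comap, hC, Subgroup.map_comap_eq_self_of_surjective hs]
  have hcen : (⟨z, hzC⟩ : C) ∈ Subgroup.center C :=
    Subgroup.mem_center_iff.2 fun g => Subtype.ext (Subgroup.mem_center_iff.1 (hc hzk) (g : Γ))
  have hcom : (⟨z, hzC⟩ : C) ∈ commutator C := by
    have h1 : z ∈ (commutator C).map C.subtype := by
      rw [commutator_def, Subgroup.map_commutator, ← MonoidHom.range_eq_map, Subgroup.range_subtype]
      exact hz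
    obtain ⟨y, hy, e⟩ := h1
    rwa [show (⟨z, hzC⟩ : C) = y from Subtype.ext e.symm]
  have hpow := pow_index_mem_commutator ((P.comap π).subgroupOf C) hcen hcom
  rw [hidx] at hpow
  have h2 := Subgroup.mem_map_of_mem C.subtype hpow
  rw [Subgroup.map_commutator, Subgroup.subgroupOf_map_subtype,
    inf_eq_left.2 (Subgroup.comap_mono hPK : P.comap π ≤ C)] at h2
  have hcop : (orderOf z).Coprime (P.relIndex K) :=
    Nat.Coprime.of_dvd_left (orderOf_dvd_of_pow_eq_one hk) ((hp.coprime_iff_not_dvd.2 hP).pow_left k)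
  obtain ⟨j, hj⟩ := exists_pow_eq_self_of_coprime hcop.symm
  rw [← hj]
  exact pow_mem h2 j

/-- If a subgroup of prime-to-`p` index of `K` has a unique subgroup of order `p`, the derived preimage of
`K` has no kernel element of `p`-power order. -/
theorem eq_one_of_rankOne_sylow [Finite Γ] [Finite G] (hs : Function.Surjective π)
    (hc : π.ker ≤ Subgroup.center Γ) {K : Subgroup G} {p : ℕ} [Fact p.Prime]
    (hu : ∀ x ∈ K, ∀ y ∈ K, orderOf x = p → orderOf y = p → x ∈ Subgroup.zpowers y)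
    {z : Γ} (hz : z ∈ DP π K) (hzk : z ∈ π.ker) {k : ℕ} (hk : z ^ p ^ k = 1) : z = 1 := by
  obtain ⟨S⟩ : Nonempty (Sylow p K) := inferInstance
  set P : Subgroup G := (S : Subgroup K).map K.subtype with hP
  have hPK : P ≤ K := Subgroup.map_subtype_le _
  have hidx : ¬ p ∣ P.relIndex K := by
    rw [hP, Subgroup.relIndex, Subgroup.subgroupOf,
      Subgroup.comap_map_eq_self_of_injective K.subtype_injective]
    exact S.not_dvd_index
  have hmem := mem_DP_of_pow hs hc (Fact.out : p.Prime) hPK hidx hz hzk hk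
  refine eq_one_of_uniqueOrderP hc hs P (S.isPGroup'.map _) ?_ hmem hzk
  intro a b ha hb
  obtain ⟨i, hi⟩ := hu b (hPK b.2) a (hPK a.2) (by rw [Subgroup.orderOf_coe, hb]) (by rw [Subgroup.orderOf_coe, ha])
  exact ⟨i, Subtype.ext ((Subgroup.coe_zpow _ _ _).trans hi)⟩

end CfsgLib.SUMult
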