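import Cfsg.Agent.Lib.SUMult.Basic
import Cfsg.Agent.Lib.SUPres.Cover3
import Cfsg.Agent.Lib.ClassicalForms.Unitary.Simple

/-!
For every `q` all stem extensions of `SU_m(q)`, `m ≥ 6`, are trivial as soon as this holds in degree five
(for `m = 6` the group in degree three must be perfect).
-/

set_option autoImplicit false

namespace CfsgLib.SUMult

open CfsgLib.SUAmalgam CfsgLib.SUPres CfsgLib.ClassicalForms

universe u

variable {F : Type u} [Field F] [Fintype F] {q m : ℕ}

/-- The lift of the block on three coordinates taken in the window from `a` on. -/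
def winLift {Γ : Type u} [Group Γ] (σ : Γ →* SUg m F q) (c : Conj F q) (a i : ℕ) : Subgroup Γ :=
  DP σ (Blk c m a 5) ⊓ (Blk c m i 3).comap σ

theorem mem_winLift {Γ : Type u} [Group Γ] {σ : Γ →* SUg m F q} {c : Conj F q} {a i : ℕ} {x : Γ} :
    x ∈ winLift σ c a i ↔ x ∈ DP σ (Blk c m a 5) ∧ σ x ∈ Blk c m i 3 := by
  rw [winLift, Subgroup.mem_inf, Subgroup.mem_comap]

theorem winLift_le {Γ : Type u} [Group Γ] {σ : Γ →* SUg m F q} {c : Conj F q} {a i : ℕ} :
    winLift σ c a i ≤ DP σ (Blk c m a 5) := inf_le_left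

theorem exists_good_small (hF : Fintype.card F = q ^ 2) (h5 : TrivMult (SUg 5 F q)) (hm : 6 ≤ m)
    (h67 : 7 ≤ m ∨ commutator (SUg 3 F q) = ⊤) (c : Conj F q)
    {Γ : Type u} [Group Γ] [Finite Γ] (σ : Γ →* SUg m F q) (hσ : Cfsg.IsStemExtension σ) :
    ∃ C : Cover3 c m Γ, C.π = σ := by
  have hs := hσ.1
  have hc := hσ.2.1
  have p4 : ∀ b, b + 4 ≤ m → Blk c m b 4 ≤ ⁅Blk c m b 4, Blk c m b 4⁆ := fun b hb =>
    Blk_perfect c hb (commutator_su_eq_top hF (by norm_num) (by omega))
  have p5 : ∀ a, a + 5 ≤ m → Blk c m a 5 ≤ ⁅Blk c m a 5, Blk c m a 5⁆ := fun a ha =>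
    Blk_perfect c ha (commutator_su_eq_top hF (by norm_num) (by omega))
  have k5 : ∀ a, a + 5 ≤ m → KerFree σ (DP σ (Blk c m a 5)) := fun a ha =>
    kerFree_DP hs hc (blkEquiv c a ha) h5 (p5 a ha)
  -- elements of the lift lie in the derived preimage of every perfect block in the window
  have inBlock : ∀ a i b r, a + 5 ≤ m → a ≤ b → b + r ≤ a + 5 → b ≤ i → i + 3 ≤ b + r →
      Blk c m b r ≤ ⁅Blk c m b r, Blk c m b r⁆ →
      ∀ x ∈ winLift σ c a i, x ∈ DP σ (Blk c m b r) := by
    intro a i b r ha h1 h2 h3 h4 hp x hx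
    rw [mem_winLift] at hx
    have hb : σ x ∈ Blk c m b r := Blk_mono c h3 h4 hx.2
    rw [← map_DP_perfect hs hp, Subgroup.mem_map] at hb
    obtain ⟨d, hd, he⟩ := hb
    have hd5 : d ∈ DP σ (Blk c m a 5) := DP_mono (Blk_mono c h1 h2) hd
    rwa [(k5 a ha).eq hx.1 hd5 he.symm]
  -- two neighbouring windows give the same lift
  have step : ∀ a i, a + 6 ≤ m → a + 1 ≤ i → i + 3 ≤ a + 5 →
      winLift σ c a i = winLift σ c (a + 1) i := by
    intro a i ha h1 h2
    refine le_antisymm (fun x hx => mem_winLift.2 ⟨?_, (mem_winLift.1 hx).2⟩)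
      (fun x hx => mem_winLift.2 ⟨?_, (mem_winLift.1 hx).2⟩)
    · exact DP_mono (Blk_mono c (Nat.le_refl _) (by omega))
        (inBlock a i (a + 1) 4 (by omega) (by omega) (by omega) h1 (by omega) (p4 _ (by omega)) x hx)
    · exact DP_mono (Blk_mono c (Nat.le_succ a) (by omega))
        (inBlock (a + 1) i (a + 1) 4 (by omega) (by omega) (by omega) h1 (by omega) (p4 _ (by omega)) x hx)
  have move : ∀ d a i, a + d + 5 ≤ m → a + d ≤ i → i + 3 ≤ a + 5 →
      winLift σ c a i = winLift σ c (a + d) i := by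
    intro d
    induction d with
    | zero => intros; rfl
    | succ d ih =>
      intro a i h1 h2 h3
      rw [ih a i (by omega) (by omega) h3, step (a + d) i (by omega) (by omega) (by omega)]
      rfl
  have change : ∀ a a' i, a + 5 ≤ m → a' + 5 ≤ m → a ≤ i → i + 3 ≤ a + 5 → a' ≤ i → i + 3 ≤ a' + 5 →
      winLift σ c a i = winLift σ c a' i := by
    intro a a' i h1 h2 h3 h4 h5 h6
    rcases le_total a a' with h | h
    · obtain ⟨d, rfl⟩ := Nat.exists_eq_add_of_le h
      exact move d a i h2 h5 h4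
    · obtain ⟨d, rfl⟩ := Nat.exists_eq_add_of_le h
      exact (move d a' i h1 h3 h6).symm
  have toWin : ∀ i a, i + 3 ≤ m → a + 5 ≤ m → a ≤ i → i + 3 ≤ a + 5 →
      winLift σ c (min i (m - 5)) i = winLift σ c a i :=
    fun i a hi h1 h2 h3 => change _ a i (by omega) h1 (by omega) (by omega) h2 h3
  have hmap : ∀ i, i + 3 ≤ m → (winLift σ c (min i (m - 5)) i).map σ = Blk c m i 3 := by
    intro i hi
    refine le_antisymm ?_ fun g hg => ?_
    · intro g hg
      rw [Subgroup.mem_map] at hg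
      obtain ⟨x, hx, rfl⟩ := hg
      exact (mem_winLift.1 hx).2
    · have hw : g ∈ Blk c m (min i (m - 5)) 5 := Blk_mono c (by omega) (by omega) hg
      rw [← map_DP_perfect hs (p5 (min i (m - 5)) (by omega)), Subgroup.mem_map] at hw
      obtain ⟨d, hd, he⟩ := hw
      exact Subgroup.mem_map.2 ⟨d, mem_winLift.2 ⟨hd, by rwa [he]⟩, he⟩
  have hinj : ∀ i, i + 4 ≤ m → KerFree σ
      (winLift σ c (min i (m - 5)) i ⊔ winLift σ c (min (i + 1) (m - 5)) (i + 1)) := by
    intro i hi x hx h1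
    refine k5 (min i (m - 5)) (by omega) x ?_ h1
    revert hx
    refine fun hx => (sup_le winLift_le ?_) hx
    rw [toWin (i + 1) (min i (m - 5)) (by omega) (by omega) (by omega) (by omega)]
    exact winLift_le
  have hcomm : ∀ i j, i + 3 ≤ j → j + 3 ≤ m →
      ∀ x ∈ winLift σ c (min i (m - 5)) i, ∀ y ∈ winLift σ c (min j (m - 5)) j, Commute x y := by
    intro i j hij hj x hx y hy
    have viaL : ∀ b r, b ≤ i → i + 3 ≤ b + r → b + r ≤ j → r ≤ 5 →
        Blk c m b r ≤ ⁅Blk c m b r, Blk c m b r⁆ → Commute x y := by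
      intro b r h1 h2 h3 hr hp
      rw [toWin i (min b (m - 5)) (by omega) (by omega) (by omega) (by omega)] at hx
      have hx' := inBlock _ i b r (by omega) (by omega) (by omega) h1 h2 hp x hx
      have key : ∀ g ∈ Blk c m b r, ∀ g' ∈ Blk c m j 3, Commute g g' :=
        fun g hg g' hg' => Blk_comm c hg hg' h3
      exact comm_DP hc key hx' (mem_winLift.1 hy).2
    rcases h67 with h7 | h3
    · by_cases h4 : i + 4 ≤ j
      · exact viaL i 4 le_rfl (by omega) h4 (by norm_num) (p4 i (by omega))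
      by_cases h1 : 1 ≤ i
      · exact viaL (i - 1) 4 (by omega) (by omega) (by omega) (by norm_num) (p4 _ (by omega))
      obtain rfl : i = 0 := by omega
      obtain rfl : j = 3 := by omega
      rw [toWin 3 (min 3 (m - 5)) (by omega) (by omega) (by omega) (by omega)] at hy
      have hy' := inBlock _ 3 3 4 (by omega) (by omega) (by omega) le_rfl (by omega) (p4 3 (by omega)) y hy
      have key : ∀ g ∈ Blk c m 3 4, ∀ g' ∈ Blk c m 0 3, Commute g g' :=
        fun g hg g' hg' => (Blk_comm c hg' hg (Nat.le_refl 3)).symm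
      exact (comm_DP hc key hy' (mem_winLift.1 hx).2).symm
    · exact viaL i 3 le_rfl le_rfl hij (by norm_num) (Blk_perfect c (by omega) h3)
  have hlr : ∀ i, i + 5 ≤ m → ∀ x ∈ winLift σ c (min i (m - 5)) i,
      ∀ y ∈ winLift σ c (min (i + 2) (m - 5)) (i + 2), σ x * σ y = σ y * σ x → Commute x y := by
    intro i hi x hx y hy h
    rw [toWin i i (by omega) hi le_rfl (by omega)] at hx
    rw [toWin (i + 2) i (by omega) hi (by omega) (by omega)] at hy
    exact (k5 i hi).eq (mul_mem (winLift_le hx) (winLift_le hy)) (mul_mem (winLift_le hy) (winLift_le hx))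
      (by rw [map_mul, map_mul, h])
  exact ⟨{
    π := σ
    T := fun i => winLift σ c (min i (m - 5)) i
    hm := by omega
    map_T := hmap
    inj := hinj
    comm := hcomm
    commL := fun i hi x hx hx2 y hy => hlr i hi x hx y hy (Blk_comm c hx2 (mem_winLift.1 hy).2 le_rfl)
    commR := fun i hi x hx y hy hy2 => hlr i hi x hx y hy (Blk_comm c (mem_winLift.1 hx).2 hy2 le_rfl) }, rfl⟩

theorem trivMult_small (hF : Fintype.card F = q ^ 2) (h5 : TrivMult (SUg 5 F q)) (hm : 6 ≤ m)
    (h67 : 7 ≤ m ∨ commutator (SUg 3 F q) = ⊤) : TrivMult (SUg m F q) := by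
  intro Γ _ _ σ hσ
  have hF' : Nat.card F = q ^ 2 := by rw [Nat.card_eq_fintype_card, hF]
  obtain ⟨c⟩ := exists_conj hF'
  obtain ⟨C, rfl⟩ := exists_good_small hF h5 hm h67 c σ hσ
  have hg : C.Good 0 m := C.good hF' (by omega) (by omega)
  refine ker_eq_bot_of_le hσ ?_ hg.inj
  refine le_trans (fun g _ => ?_) hg.map
  intro l hl
  exact absurd hl (by have := l.isLt; omega)

end CfsgLib.SUMult
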