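import Cfsg.Agent.Lib.SUMult.Large
import Cfsg.Agent.Lib.SUMult.Small
import Cfsg.Agent.Lib.SchurMult.PerfectCover
import Cfsg.Agent.Lib.ClassicalForms.Unitary.Center
import Cfsg.Agent.Lib.SUPres.Main

/-!
The multiplier of `PSU_n(q)` from the groups in degree three and five.
-/

set_option autoImplicit false

namespace CfsgLib.SUMult

open CfsgLib.SUAmalgam CfsgLib.ClassicalForms

universe u

variable {F : Type u} [Field F] [Fintype F] {q : ℕ}

theorem trivMult_of_bases (hF : Fintype.card F = q ^ 2)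
    (h3 : 3 ≤ q → TrivMult (SUg 3 F q)) (h5 : (q = 2 ∨ q = 3) → TrivMult (SUg 5 F q))
    {n : ℕ} (hn : 3 ≤ n) (hbad : ¬ (n = 3 ∧ q = 2))
    (hexc : ¬ (n = 4 ∧ q = 2) ∧ ¬ (n = 4 ∧ q = 3) ∧ ¬ (n = 6 ∧ q = 2)) : TrivMult (SUg n F q) := by
  have hq2 : 2 ≤ q := (Nat.one_lt_pow_iff two_ne_zero).1 (hF ▸ Fintype.one_lt_card)
  by_cases hq : 3 < q
  · exact trivMult_large hF hq (h3 (by omega)) hn
  rcases (show n = 3 ∨ n = 4 ∨ n = 5 ∨ 6 ≤ n by omega) with rfl | rfl | rfl | h6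
  · exact h3 (by omega)
  · omega
  · exact h5 (by omega)
  · refine trivMult_small hF (h5 (by omega)) h6 ?_
    by_cases h2 : q = 2
    · exact Or.inl (by omega)
    · exact Or.inr (commutator_su_eq_top hF le_rfl (by omega))

theorem hasCyclicSchurMultiplier_psu (hF : Fintype.card F = q ^ 2) {n : ℕ} (hn : 3 ≤ n)
    (hbad : ¬ (n = 3 ∧ q = 2)) (htriv : TrivMult (SUg n F q)) :
    Cfsg.HasCyclicSchurMultiplier (Cfsg.PSU n F q) (Nat.gcd n (q + 1)) := by
  have hF' : Nat.card F = q ^ 2 := by rw [Nat.card_eq_fintype_card, hF]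
  have hk : (QuotientGroup.mk' (Subgroup.center (Cfsg.SU n F q))).ker = Subgroup.center (Cfsg.SU n F q) :=
    QuotientGroup.ker_mk' _
  refine CfsgLib.SchurMult.hasCyclicSchurMultiplier_of_cover
    (QuotientGroup.mk' (Subgroup.center (Cfsg.SU n F q))) (QuotientGroup.mk'_surjective _) hk.le
    (commutator_su_eq_top hF hn hbad) htriv ?_ ?_
  · rw [hk]; exact SUPres.isCyclic_center hF' (by omega)
  · rw [hk]; exact card_center_su hF' (by omega)

end CfsgLib.SUMult
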