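import Cfsg.Agent.Lib.SUMult.Local
import Mathlib.Algebra.BigOperators.Fin

/-!
Central extensions over monomial groups: canonical lifts of a torus normalised by the lifts of reflections.
-/

set_option autoImplicit false
set_option linter.style.haveILetI false

namespace CfsgLib.SUMult

open CfsgLib.SUAmalgam CfsgLib.SchurMult
open scoped commutatorElement

universe u

variable {Γ G : Type u} [Group Γ] [Group G] {π : Γ →* G}

theorem exists_torusLift [Finite Γ] (hs : Function.Surjective π) (hc : π.ker ≤ Subgroup.center Γ)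
    {k : ℕ} (x w : Fin k → G) (N : ℕ) (cf : Fin k → Fin k → ℤ) (j₀ : Fin k → Fin k)
    (hxN : ∀ i, x i ^ N = 1)
    (hfree : ∀ e : Fin k → ℤ, (List.ofFn fun i => x i ^ e i).prod = 1 → ∀ i, (N : ℤ) ∣ e i)
    (hw : ∀ i j, w i * x j * (w i)⁻¹ = x i ^ cf i j * x j)
    (hj₀ : ∀ i, cf i (j₀ i) = 1)
    (hA : ∀ a b : Γ, π a ∈ Subgroup.closure (Set.range x) → π b ∈ Subgroup.closure (Set.range x) →
      Commute a b)
    (hB : ∀ i (a b : Γ), π a = w i → π b ∈ Subgroup.closure (Set.range x) → Commute (π a) (π b) →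
      Commute a b) :
    ∃ Th : Subgroup Γ, KerFree π Th ∧ Th.map π = Subgroup.closure (Set.range x) ∧
      ∀ i (a : Γ), π a = w i → a ∈ Subgroup.normalizer (Th : Set Γ) := by
  classical
  set T : Subgroup G := Subgroup.closure (Set.range x) with hT
  have hxT : ∀ i, x i ∈ T := fun i => Subgroup.subset_closure ⟨i, rfl⟩
  choose xt hxt using fun i => hs (x i)
  choose wt hwt using fun i => hs (w i)
  set xh : Fin k → Γ := fun i => ⁅wt i, xt (j₀ i)⁆ with hxh
  have hxhπ : ∀ i, π (xh i) = x i := fun i => by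
    rw [hxh, map_commutatorElement, hwt, hxt, commutatorElement_def, hw, hj₀, zpow_one, mul_inv_cancel_right]
  have mT : ∀ i, π (xt i) ∈ T := fun i => by rw [hxt]; exact hxT i
  have mTh : ∀ i, π (xh i) ∈ T := fun i => by rw [hxhπ]; exact hxT i
  -- conjugation by the lifts of the reflections
  have conj0 : ∀ i, wt i * xt (j₀ i) * (wt i)⁻¹ = xh i * xt (j₀ i) := fun i => by
    rw [hxh]; simp [commutatorElement_def]
  have conjx : ∀ i j, wt i * xt j * (wt i)⁻¹ = xh i ^ cf i j * xt j := by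
    intro i j
    set n := cf i j with hn
    set y := xt j * (xt (j₀ i) ^ n)⁻¹ with hy
    have hyT : π y ∈ T := by
      rw [hy, map_mul, map_inv, map_zpow]; exact mul_mem (mT j) (inv_mem (zpow_mem (mT _) n))
    have hxij : ∀ a b, Commute (π (xt a)) (π (xt b)) := fun a b => (hA _ _ (mT a) (mT b)).map π
    have hwy : Commute (π (wt i)) (π y) := by
      refine mul_inv_eq_iff_eq_mul.1 ?_
      have e1 : w i * (x j * (x (j₀ i) ^ n)⁻¹) * (w i)⁻¹ =
          (w i * x j * (w i)⁻¹) * ((w i * x (j₀ i) * (w i)⁻¹) ^ n)⁻¹ := by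
        rw [conj_zpow]; group
      have hxx : Commute (x i) (x (j₀ i)) := by
        have := (hA _ _ (mTh i) (mT (j₀ i))).map π
        rwa [hxhπ, hxt] at this
      have hxj : Commute (x i) (x j) := by
        have := (hA _ _ (mTh i) (mT j)).map π
        rwa [hxhπ, hxt] at this
      rw [hy, map_mul, map_inv, map_zpow, hwt, hxt, hxt, e1, hw, hw, hj₀, zpow_one, ← hn,
        hxx.mul_zpow, mul_inv_rev]
      rw [(hxj.zpow_left n).eq, mul_assoc, ← mul_assoc (x i ^ n),
        (((hxx.zpow_zpow n n)).inv_right).eq, mul_assoc, mul_inv_cancel, mul_one]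
    have hfix := hB i (wt i) y (hwt i) hyT hwy
    have hc1 : Commute y (xh i ^ n) :=
      hA _ _ hyT (by rw [map_zpow]; exact zpow_mem (mTh i) n)
    calc wt i * xt j * (wt i)⁻¹ = (wt i * y * (wt i)⁻¹) * (wt i * xt (j₀ i) * (wt i)⁻¹) ^ n := by
          rw [conj_zpow, hy]; group
      _ = y * (xh i * xt (j₀ i)) ^ n := by rw [hfix.eq, mul_inv_cancel_right, conj0]
      _ = y * xh i ^ n * xt (j₀ i) ^ n := by
          rw [(hA _ _ (mTh i) (mT _)).mul_zpow]; group
      _ = xh i ^ n * xt j := by rw [hc1.eq, hy]; group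
  have conjh : ∀ i j, wt i * xh j * (wt i)⁻¹ = xh i ^ cf i j * xh j := by
    intro i j
    obtain ⟨z, hz, e⟩ : ∃ z ∈ π.ker, xh j = xt j * z :=
      ⟨(xt j)⁻¹ * xh j, by rw [MonoidHom.mem_ker, map_mul, map_inv, hxt, hxhπ, inv_mul_cancel], by group⟩
    calc wt i * xh j * (wt i)⁻¹ = wt i * xt j * (z * (wt i)⁻¹) := by rw [e]; group
      _ = wt i * xt j * (wt i)⁻¹ * z := by rw [← ker_comm hc hz]; group
      _ = xh i ^ cf i j * xh j := by rw [conjx, e]; group
  have hxhN : ∀ i, xh i ^ N = 1 := by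
    intro i
    have hk : xt (j₀ i) ^ N ∈ π.ker := by rw [MonoidHom.mem_ker, map_pow, hxt, hxN]
    have e := conj_pow (i := N) (a := wt i) (b := xt (j₀ i))
    rw [conj0, (hA _ _ (mTh i) (mT _)).mul_pow, ker_comm hc hk (wt i), mul_inv_cancel_right] at e
    exact mul_eq_right.1 e
  set Th : Subgroup Γ := Subgroup.closure (Set.range xh) with hTh
  have hmap : Th.map π = T := by
    rw [hTh, MonoidHom.map_closure, ← Set.range_comp, hT]
    exact congrArg Subgroup.closure (congrArg Set.range (funext hxhπ))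
  have hfreeTh : KerFree π Th := by
    haveI : IsMulCommutative (T.comap π) :=
      ⟨⟨fun a b => Subtype.ext (hA _ _ a.2 b.2).eq⟩⟩
    letI : CommGroup (T.comap π) := { mul_comm := fun a b => mul_comm' a b }
    let xA : Fin k → T.comap π := fun i => ⟨xh i, mTh i⟩
    let E : Multiplicative (Fin k → ℤ) →* T.comap π :=
      { toFun := fun e => ∏ i, xA i ^ (Multiplicative.toAdd e) i
        map_one' := by simp
        map_mul' := fun e e' => by simp [zpow_add, Finset.prod_mul_distrib] }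
    have hle : Th ≤ E.range.map (T.comap π).subtype := by
      rw [hTh, Subgroup.closure_le]
      rintro _ ⟨i, rfl⟩
      refine ⟨xA i, ⟨Multiplicative.ofAdd (Pi.single i 1), ?_⟩, rfl⟩
      show ∏ l, xA l ^ (Pi.single i (1 : ℤ) : Fin k → ℤ) l = xA i
      rw [Finset.prod_eq_single i (fun l _ hl => by rw [Pi.single_eq_of_ne hl, zpow_zero]) (by simp),
        Pi.single_eq_same, zpow_one]
    intro a ha h1
    obtain ⟨_, ⟨e, rfl⟩, rfl⟩ := hle ha
    have h2 : (List.ofFn fun i => x i ^ (Multiplicative.toAdd e) i).prod = 1 := by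
      rw [← h1]
      show _ = (π.comp (T.comap π).subtype) (∏ i, xA i ^ (Multiplicative.toAdd e) i)
      rw [← List.prod_ofFn, map_list_prod, List.map_ofFn]
      congr 2
      funext i
      show x i ^ (Multiplicative.toAdd e) i =
        π ((xA i ^ (Multiplicative.toAdd e) i : T.comap π) : Γ)
      rw [Subgroup.coe_zpow, map_zpow]
      show _ = π (xh i) ^ _
      rw [hxhπ]
    show ((∏ i, xA i ^ (Multiplicative.toAdd e) i : T.comap π) : Γ) = 1
    rw [Finset.prod_eq_one fun i _ => ?_, Subgroup.coe_one]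
    obtain ⟨d, hd⟩ := hfree _ h2 i
    rw [hd, zpow_mul, zpow_natCast, show xA i ^ N = 1 from Subtype.ext (hxhN i), one_zpow]
  refine ⟨Th, hfreeTh, hmap, fun i a ha => ?_⟩
  have hwn : wt i ∈ Subgroup.normalizer (Th : Set Γ) := by
    have h1 : Th.map (MulAut.conj (wt i)).toMonoidHom ≤ Th := by
      rw [hTh, MonoidHom.map_closure, Subgroup.closure_le]
      rintro _ ⟨_, ⟨j, rfl⟩, rfl⟩
      show wt i * xh j * (wt i)⁻¹ ∈ Th
      rw [conjh]
      exact mul_mem (zpow_mem (Subgroup.subset_closure (Set.mem_range_self i)) _) (Subgroup.subset_closure (Set.mem_range_self j))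
    have h2 := Subgroup.eq_of_le_of_card_ge h1
      (Subgroup.card_map_of_injective (MulAut.conj (wt i)).injective).ge
    rw [Subgroup.mem_normalizer_iff]
    refine fun b => ⟨fun hb => h1 (Subgroup.mem_map_of_mem _ hb), fun hb => ?_⟩
    obtain ⟨b', hb', e⟩ := h2.ge hb
    rwa [← mul_left_cancel (mul_right_cancel (e : wt i * b' * (wt i)⁻¹ = wt i * b * (wt i)⁻¹))]
  have hk : (wt i)⁻¹ * a ∈ π.ker := by rw [MonoidHom.mem_ker, map_mul, map_inv, hwt, ha, inv_mul_cancel]
  have : (wt i)⁻¹ * a ∈ Subgroup.normalizer (Th : Set Γ) := by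
    rw [Subgroup.mem_normalizer_iff]
    intro b
    rw [← ker_comm hc hk b, mul_inv_cancel_right]
  have := mul_mem hwn this
  rwa [mul_inv_cancel_left] at this

/-- A subgroup normalised by its generators' lifts that contains all commutators bounds the derived
preimage. -/
theorem DP_le_of_gens (hc : π.ker ≤ Subgroup.center Γ) {H : Subgroup G}
    (S : Set Γ) (hH : H = Subgroup.closure (π '' S)) (N : Subgroup Γ)
    (hnorm : ∀ s ∈ S, s ∈ Subgroup.normalizer (N : Set Γ)) (hcomm : ∀ s ∈ S, ∀ t ∈ S, ⁅s, t⁆ ∈ N) :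
    DP π H ≤ N := by
  rw [hH]
  exact commutator_comap_closure_le hc S N hnorm hcomm

end CfsgLib.SUMult
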