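import Cfsg.Agent.Lib.SUMult.Orders
import Cfsg.Agent.Lib.OutSolvableInv.NormTransitive
import Mathlib.GroupTheory.PGroup

/-!
The Sylow subgroups of `SU_3(q)` at the primes dividing `q² - q + 1` but not `q + 1`.
-/

set_option autoImplicit false
set_option linter.unusedSectionVars false
set_option linter.style.haveILetI false

namespace CfsgLib.SUMult

open CfsgLib.SUAmalgam CfsgLib.ClassicalForms

universe u

variable {F : Type u} [Field F] [Fintype F] {q : ℕ}

/-- The action together with the scalars. -/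
def scalAct (m : ℕ) : SUg m F q × Fˣ →* MulAut (Multiplicative (Fin m → F)) where
  toFun y :=
    { toFun := fun x => .ofAdd ((y.2 : F) • act y.1 x.toAdd)
      invFun := fun x => .ofAdd (((y.2⁻¹ : Fˣ) : F) • act y.1⁻¹ x.toAdd)
      left_inv := fun x => by simp [act_smul, smul_smul, act_inv_act]
      right_inv := fun x => by simp [act_smul, smul_smul, act_act_inv]
      map_mul' := fun a b => by simp [act_add, ← ofAdd_add, smul_add] }
  map_one' := MulEquiv.ext fun x => by simp
  map_mul' y y' := MulEquiv.ext fun x => by simp [act_mul, act_smul, smul_smul]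

theorem scalAct_apply {m : ℕ} (y : SUg m F q × Fˣ) (x : Multiplicative (Fin m → F)) :
    scalAct m y x = .ofAdd ((y.2 : F) • act y.1 x.toAdd) := rfl

/-- An element of prime order `ℓ` with `ℓ ∤ |F|ᵉ - 1` for `e = 1, 2` moves every proper subspace. -/
theorem eq_bot_or_top_of_invariant {ℓ : ℕ} (hℓ : ℓ.Prime) (h0' : ¬ ℓ ∣ Fintype.card F)
    (h1 : ¬ ℓ ∣ Fintype.card F - 1) (h2 : ¬ ℓ ∣ Fintype.card F ^ 2 - 1)
    {z : SUg 3 F q} (hz : orderOf z = ℓ) (W : Submodule F (Fin 3 → F))
    (hW : ∀ x ∈ W, act z x ∈ W) : W = ⊥ ∨ W = ⊤ := by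
  classical
  haveI := Fact.mk hℓ
  have hC : 1 ≤ Fintype.card F := Fintype.card_pos
  -- counting the fixed points of an invariant subspace
  have count : ∀ U : Submodule F (Fin 3 → F), (∀ x ∈ U, act z x ∈ U) →
      Nat.card U ≡ Nat.card {x : Fin 3 → F // x ∈ U ∧ act z x = x} [MOD ℓ] := by
    intro U hU
    have hUp : ∀ n : ℕ, ∀ x ∈ U, act (z ^ n) x ∈ U := by
      intro n
      induction n with
      | zero => intro x hx; simpa using hx
      | succ n ih => intro x hx; rw [pow_succ, act_mul]; exact ih _ (hU x hx)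
    have hUg : ∀ g : Subgroup.zpowers z, ∀ x ∈ U, act (g : SUg 3 F q) x ∈ U := by
      rintro ⟨g, hg⟩ x hx
      obtain ⟨n, rfl⟩ := (mem_powers_iff_mem_zpowers.2 hg : g ∈ Submonoid.powers z)
      exact hUp n x hx
    let _ : MulAction (Subgroup.zpowers z) U :=
      { smul := fun g x => ⟨act (g : SUg 3 F q) x.1, hUg g x.1 x.2⟩
        one_smul := fun x => Subtype.ext (act_one _)
        mul_smul := fun g g' x => Subtype.ext (act_mul _ _ _) }
    have hP : IsPGroup ℓ (Subgroup.zpowers z) := IsPGroup.of_card (n := 1) (by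
      rw [Nat.card_zpowers, hz, pow_one])
    refine (hP.card_modEq_card_fixedPoints U).trans ?_
    rw [show Nat.card (MulAction.fixedPoints (Subgroup.zpowers z) U) =
      Nat.card {x : Fin 3 → F // x ∈ U ∧ act z x = x} from ?_]
    refine Nat.card_congr
      ⟨fun x => ⟨x.1.1, x.1.2, congrArg Subtype.val (x.2 ⟨z, Subgroup.mem_zpowers z⟩)⟩,
        fun x => ⟨⟨x.1, x.2.1⟩, fun g => Subtype.ext ?_⟩, fun x => rfl, fun x => rfl⟩
    show act (g : SUg 3 F q) x.1 = x.1
    obtain ⟨n, hn⟩ := (mem_powers_iff_mem_zpowers.2 g.2 : (g : SUg 3 F q) ∈ Submonoid.powers z)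
    rw [← hn]
    clear hn
    induction n with
    | zero => exact act_one _
    | succ n ih => simp only [pow_succ, act_mul, x.2.2] at ih ⊢; exact ih
  have hcard : ∀ U : Submodule F (Fin 3 → F),
      Nat.card U = Fintype.card F ^ Module.finrank F U := fun U => by
    rw [Module.natCard_eq_pow_finrank (K := F), Nat.card_eq_fintype_card]
  have hnd : ∀ d, d = 1 ∨ d = 2 → ¬ Fintype.card F ^ d ≡ 1 [MOD ℓ] := fun d hd h => by
    have := (Nat.modEq_iff_dvd' (Nat.one_le_pow _ _ hC)).1 h.symm
    rcases hd with rfl | rfl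
    · exact h1 (by simpa using this)
    · exact h2 this
  -- no fixed vectors
  let X : Submodule F (Fin 3 → F) :=
    { carrier := {x | act z x = x}
      add_mem' := fun {a b} ha hb => by
        show act z (a + b) = a + b
        rw [act_add, show act z a = a from ha, show act z b = b from hb]
      zero_mem' := act_zero z
      smul_mem' := fun a x hx => by
        show act z (a • x) = a • x
        rw [act_smul, show act z x = x from hx] }
  have hX3 : Module.finrank F X ≤ 3 := by simpa using X.finrank_le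
  have hne : Module.finrank F X ≠ 3 := fun e => by
    have hT : X = ⊤ := Submodule.eq_top_of_finrank_eq (by simpa using e)
    have : z = 1 := ext_act fun k => by
      rw [act_one]; exact (show _ ∈ X from hT ▸ Submodule.mem_top)
    rw [this, orderOf_one] at hz
    exact hℓ.one_lt.ne hz
  have hX : Module.finrank F X = 0 := by
    have h := count ⊤ fun x _ => Submodule.mem_top
    rw [hcard, show Nat.card {x : Fin 3 → F // x ∈ (⊤ : Submodule F (Fin 3 → F)) ∧ act z x = x} =
      Nat.card X from Nat.card_congr (Equiv.subtypeEquivRight fun x => by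
        simp only [Submodule.mem_top, true_and]; rfl), hcard, finrank_top, Module.finrank_fin_fun] at h
    by_contra h0
    set e := Module.finrank F X
    rcases (show e = 1 ∨ e = 2 by omega) with he | he
    · -- `|F|³ ≡ |F|` gives `|F|² ≡ 1`
      rw [he] at h
      refine hnd 2 (Or.inr rfl) (Nat.ModEq.cancel_left_of_coprime ?_
        (show Fintype.card F * Fintype.card F ^ 2 ≡ Fintype.card F * 1 [MOD ℓ] by
          simpa [pow_succ'] using h))
      exact hℓ.coprime_iff_not_dvd.2 h0'
    · rw [he] at h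
      refine hnd 1 (Or.inl rfl) (Nat.ModEq.cancel_left_of_coprime (c := Fintype.card F ^ 2) ?_
        (show Fintype.card F ^ 2 * Fintype.card F ^ 1 ≡ Fintype.card F ^ 2 * 1 [MOD ℓ] by
          simpa [pow_succ] using h))
      exact (hℓ.coprime_iff_not_dvd.2 h0').pow_right 2
  have hW3 : Module.finrank F W ≤ 3 := by simpa using W.finrank_le
  have hfix : Nat.card {x : Fin 3 → F // x ∈ W ∧ act z x = x} = 1 := by
    have hbot : X = ⊥ := Submodule.finrank_eq_zero.1 hX
    refine Nat.card_eq_one_iff_unique.2 ⟨⟨fun a b => Subtype.ext ?_⟩, ⟨⟨0, W.zero_mem, act_zero z⟩⟩⟩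
    have ha : (a.1 : Fin 3 → F) ∈ X := a.2.2
    have hb : (b.1 : Fin 3 → F) ∈ X := b.2.2
    rw [hbot, Submodule.mem_bot] at ha hb
    rw [ha, hb]
  have h := count W hW
  rw [hcard, hfix] at h
  rcases (show Module.finrank F W = 0 ∨ Module.finrank F W = 3 ∨
      (Module.finrank F W = 1 ∨ Module.finrank F W = 2) by omega) with hd | hd | hd
  · exact Or.inl (Submodule.finrank_eq_zero.1 hd)
  · exact Or.inr (Submodule.eq_top_of_finrank_eq (by simpa using hd))
  · exact absurd h (hnd _ hd)

theorem isCyclic_sylow {ℓ : ℕ} [Fact ℓ.Prime] (h0' : ¬ ℓ ∣ Fintype.card F)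
    (h1 : ¬ ℓ ∣ Fintype.card F - 1) (h2 : ¬ ℓ ∣ Fintype.card F ^ 2 - 1)
    (P : Sylow ℓ (SUg 3 F q)) : IsCyclic (P : Subgroup (SUg 3 F q)) := by
  have hℓ : ℓ.Prime := Fact.out
  rcases subsingleton_or_nontrivial (P : Subgroup (SUg 3 F q)) with hs | hs
  · exact isCyclic_of_subsingleton
  haveI := P.isPGroup'.center_nontrivial
  obtain ⟨z, hz⟩ : ∃ z : Subgroup.center (P : Subgroup (SUg 3 F q)), orderOf z = ℓ := by
    refine exists_prime_orderOf_dvd_card' ℓ ?_
    obtain ⟨n, hn⟩ := IsPGroup.iff_card.1 (P.isPGroup'.to_subgroup (Subgroup.center _))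
    cases n with
    | zero => exact absurd hn Finite.one_lt_card.ne'
    | succ n => exact hn ▸ dvd_pow_self ℓ n.succ_ne_zero
  have hz' : orderOf ((z.1 : SUg 3 F q)) = ℓ := by
    rw [Subgroup.orderOf_coe, Subgroup.orderOf_coe, hz]
  obtain ⟨g, hg⟩ := IsCyclic.exists_generator (α := Fˣ)
  let ι : ↥(P : Subgroup (SUg 3 F q)) × Fˣ →* MulAut (Multiplicative (Fin 3 → F)) :=
    (scalAct 3).comp (MonoidHom.prodMap (P : Subgroup (SUg 3 F q)).subtype (MonoidHom.id Fˣ))
  have hι : ∀ (y : ↥(P : Subgroup (SUg 3 F q)) × Fˣ) x,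
      ι y (.ofAdd x) = .ofAdd ((y.2 : F) • act (y.1 : SUg 3 F q) x) := fun y x => rfl
  have hinj : Function.Injective ι := by
    rw [injective_iff_map_eq_one]
    rintro ⟨s, l⟩ e
    obtain ⟨j, hj⟩ := P.isPGroup' s
    have hl : l = 1 := by
      have e' : ι (s ^ ℓ ^ j, l ^ ℓ ^ j) = 1 := by
        rw [← Prod.pow_mk, map_pow, e, one_pow]
      have h3 := DFunLike.congr_fun e' (Multiplicative.ofAdd (Pi.single (0 : Fin 3) (1 : F)))
      rw [hι, hj] at h3
      simp only [OneMemClass.coe_one, act_one, MulAut.one_apply] at h3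
      have h4 := congrFun (Multiplicative.ofAdd.injective h3) 0
      simp only [Pi.smul_apply, Pi.single_eq_same, smul_eq_mul, mul_one] at h4
      have h5 : l ^ ℓ ^ j = 1 := Units.ext h4
      have hco : (orderOf g).Coprime (ℓ ^ j) := by
        refine ((hℓ.coprime_iff_not_dvd.2 ?_).symm.pow_right j)
        rwa [orderOf_eq_card_of_forall_mem_zpowers hg, Nat.card_units, Nat.card_eq_fintype_card]
      rw [← orderOf_eq_one_iff, ← Nat.dvd_one, ← hco.gcd_eq_one]
      exact Nat.dvd_gcd ((orderOf_dvd_natCard l).trans (by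
        rw [orderOf_eq_card_of_forall_mem_zpowers hg])) (orderOf_dvd_of_pow_eq_one h5)
    subst hl
    refine Prod.ext (Subtype.ext (ext_act fun k => ?_)) rfl
    have h3 := DFunLike.congr_fun e (Multiplicative.ofAdd (Pi.single k (1 : F)))
    rw [hι] at h3
    simp only [Units.val_one, one_smul, MulAut.one_apply] at h3
    simpa using Multiplicative.ofAdd.injective h3
  have hcyc := OutSolvableInv.isCyclic_centralizer_of_irred ι hinj (z.1, g) (by
    intro W hW
    have hp : ∀ n : ℕ, ∀ x, Multiplicative.ofAdd x ∈ W →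
        Multiplicative.ofAdd (((g : F) ^ n) • act ((z.1 : SUg 3 F q) ^ n) x) ∈ W := by
      intro n
      induction n with
      | zero => intro x hx; simpa using hx
      | succ n ih =>
        intro x hx
        have := hW _ (ih x hx)
        rw [hι] at this
        simpa [pow_succ', act_mul, act_smul, smul_smul] using this
    have hsc : ∀ (a : Fˣ) x, Multiplicative.ofAdd x ∈ W → Multiplicative.ofAdd ((a : F) • x) ∈ W := by
      intro a x hx
      have hco : ℓ.Coprime (orderOf g) := hℓ.coprime_iff_not_dvd.2 (by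
        rwa [orderOf_eq_card_of_forall_mem_zpowers hg, Nat.card_units, Nat.card_eq_fintype_card])
      obtain ⟨m, hm⟩ := exists_pow_eq_self_of_coprime hco
      obtain ⟨i, hi⟩ := (mem_powers_iff_mem_zpowers.2 (hg a) : a ∈ Submonoid.powers g)
      have := hp (ℓ * (m * i)) x hx
      rw [pow_mul (z.1 : SUg 3 F q), show (z.1 : SUg 3 F q) ^ ℓ = 1 from orderOf_dvd_iff_pow_eq_one.1 hz'.dvd,
        one_pow, act_one, ← Units.val_pow_eq_pow_val, pow_mul, pow_mul, hm] at this
      rwa [← hi]
    let W' : Submodule F (Fin 3 → F) :=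
      { carrier := {x | Multiplicative.ofAdd x ∈ W}
        add_mem' := fun {a b} ha hb => W.mul_mem ha hb
        zero_mem' := W.one_mem
        smul_mem' := fun a x hx => by
          rcases eq_or_ne a 0 with rfl | ha
          · show Multiplicative.ofAdd ((0 : F) • x) ∈ W
            rw [zero_smul]; exact W.one_mem
          · exact hsc (Units.mk0 a ha) x hx }
    have hzW : ∀ x ∈ W', act (z.1 : SUg 3 F q) x ∈ W' := fun x hx => by
      have hx' : Multiplicative.ofAdd x ∈ W := hx
      have := hW _ hx'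
      rw [hι] at this
      show Multiplicative.ofAdd (act (z.1 : SUg 3 F q) x) ∈ W
      have h3 := hsc g⁻¹ _ this
      simpa [smul_smul] using h3
    rcases eq_bot_or_top_of_invariant hℓ h0' h1 h2 hz' W' hzW with h | h
    · refine Or.inl (eq_bot_iff.2 fun x hx => Subgroup.mem_bot.2 ?_)
      have : x.toAdd ∈ W' := hx
      rw [h, Submodule.mem_bot] at this
      exact Multiplicative.toAdd.injective this
    · exact Or.inr (eq_top_iff.2 fun x _ => (show x.toAdd ∈ W' from h ▸ Submodule.mem_top)))
  let e : (P : Subgroup (SUg 3 F q)) →* Subgroup.centralizer ({(z.1, g)} : Set (_ × Fˣ)) :=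
    (MonoidHom.inl _ _).codRestrict _ fun s => Subgroup.mem_centralizer_singleton_iff.2
      (Prod.ext (Subgroup.mem_center_iff.1 z.2 s) (mul_comm _ _))
  exact isCyclic_of_injective e fun a b h => congrArg Prod.fst (congrArg Subtype.val h)

end CfsgLib.SUMult
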