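import Cfsg.Agent.Lib.SUMult.Orders
import Cfsg.Agent.Lib.SUMult.Singer
import Cfsg.Agent.Lib.SU3Pres.Model

/-!
The primes different from the characteristic for `SU_3(q)`.
-/

set_option autoImplicit false
set_option linter.unusedSectionVars false
set_option linter.style.haveILetI false

namespace CfsgLib.SUMult

open CfsgLib.SUAmalgam CfsgLib.SchurMult CfsgLib.ClassicalForms CfsgLib.Amalgams
open scoped commutatorElement

universe u

variable {F : Type u} [Field F] [Fintype F] {q k : ℕ} (c : Conj F q) {ω : Fˣ}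
  (hω : (ω : F) * c.σ (ω : F) = 1) {Γ : Type u} [Group Γ] [Finite Γ] {σ : Γ →* SUg (k + 1) F q}

/-- The extension of the torus by one element whose lifts normalise the lifted torus. -/
theorem DP_tor_zpowers_le (hc : σ.ker ≤ Subgroup.center Γ) {Th : Subgroup Γ}
    (hTh : TorusLift c hω σ Th) (hA : ∀ a b : Γ, σ a ∈ Tor c hω → σ b ∈ Tor c hω → Commute a b)
    (a : Γ) (ha : a ∈ Subgroup.normalizer (Th : Set Γ)) :
    DP σ (Tor c hω ⊔ Subgroup.zpowers (σ a)) ≤ Th := by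
  refine DP_le_of_gens hc ((Th : Set Γ) ∪ {a}) ?_ Th ?_ ?_
  · rw [Set.image_union, Subgroup.closure_union, ← MonoidHom.map_closure, Subgroup.closure_eq, hTh.2.1,
      Set.image_singleton, Subgroup.zpowers_eq_closure]
  · rintro s (hs | rfl)
    · exact Subgroup.le_normalizer hs
    · exact ha
  · have hT : ∀ b ∈ Th, σ b ∈ Tor c hω := fun b hb => hTh.2.1.le ⟨b, hb, rfl⟩
    have hmix : ∀ b ∈ Th, ⁅a, b⁆ ∈ Th := fun b hb => by
      rw [commutatorElement_def]
      exact mul_mem ((Subgroup.mem_normalizer_iff.1 ha b).1 hb) (inv_mem hb)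
    rintro s (hs | rfl) t (ht | rfl)
    · rw [commutatorElement_eq_one_iff_commute.2 (hA s t (hT s hs) (hT t ht))]; exact one_mem _
    · rw [← commutatorElement_inv]; exact inv_mem (hmix s hs)
    · exact hmix t ht
    · rw [commutatorElement_self]; exact one_mem _

theorem wGen_notMem_tor (i : Fin k) : wGen c i ∉ Tor c hω := fun h => by
  obtain ⟨d, hd⟩ := isDiag_of_mem c hω h
  have h1 := hd (ev (k + 1) F i) (i + 1) (by omega)
  rw [wGen, co_wE c, if_neg (by omega), if_pos rfl, co_ev (by omega), co_ev (by omega), if_pos rfl,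
    if_neg (by omega), mul_zero] at h1
  simp at h1

theorem wGen_mem_normalizer (i : Fin k) :
    wGen c i ∈ Subgroup.normalizer ((Tor c hω (k := k)) : Set (SUg (k + 1) F q)) := by
  have h1 : (Tor c hω).map (MulAut.conj (wGen c i)).toMonoidHom ≤ Tor c hω := by
    rw [Tor, MonoidHom.map_closure, Subgroup.closure_le]
    rintro _ ⟨_, ⟨j, rfl⟩, rfl⟩
    show wGen c i * tGen c hω j * (wGen c i)⁻¹ ∈ Tor c hω
    rw [wGen_conj]
    exact mul_mem (zpow_mem (Subgroup.subset_closure (Set.mem_range_self i)) _)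
      (Subgroup.subset_closure (Set.mem_range_self j))
  exact Subgroup.mem_normalizer_iff_map_conj_eq.2 (Subgroup.eq_of_le_of_card_ge h1
    (Subgroup.card_map_of_injective (MulAut.conj (wGen c i)).injective).ge)

theorem wGen_sq_mem (i : Fin k) {e : ℕ} (he : orderOf ω = 2 * e) : wGen c i ^ 2 ∈ Tor c hω := by
  have hne : (ω ^ e : Fˣ) ≠ 1 := fun h => by
    have h1 := orderOf_dvd_of_pow_eq_one h
    have h2 := orderOf_pos ω
    rw [he] at h1 h2
    have := Nat.le_of_dvd (by omega) h1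
    omega
  have hm : ((ω ^ e : Fˣ) : F) = -1 := by
    have h2 : ((ω ^ e : Fˣ) : F) * (ω ^ e : Fˣ) = 1 := by
      rw [← Units.val_mul, ← pow_two, ← pow_mul, mul_comm, ← he, pow_orderOf_eq_one, Units.val_one]
    exact (mul_self_eq_one_iff.1 h2).resolve_left fun h => hne (Units.ext h)
  suffices h : wGen c i ^ 2 = tGen c hω i ^ e by
    rw [h]; exact pow_mem (Subgroup.subset_closure (Set.mem_range_self i)) e
  have hd : IsDiag (tGen c hω i ^ e) (fun l => dX ω i l ^ e) := (isDiag_xE c hω _ _).pow e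
  refine ext_act fun j => co_ext fun l hl => ?_
  have hm' : (((ω⁻¹ : Fˣ) ^ e : Fˣ) : F) = -1 := by
    rw [inv_pow, Units.val_inv_eq_inv_val, hm, inv_neg, inv_one]
  rw [hd _ l hl, pow_two, act_mul, wGen, co_wE c]
  beta_reduce
  unfold dX
  by_cases e0 : l = (i : ℕ)
  · subst e0
    rw [if_pos rfl, if_pos rfl, hm, co_wE c, if_neg (by omega), if_pos rfl]
    ring
  by_cases e1 : l = (i : ℕ) + 1
  · subst e1
    rw [if_neg e0, if_pos rfl, if_neg e0, if_pos rfl, hm', co_wE c, if_pos rfl]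
    ring
  · rw [if_neg e0, if_neg e1, if_neg e0, if_neg e1, co_wE c, if_neg e0, if_neg e1, one_pow,
      Units.val_one, one_mul]

omit [Finite Γ] in
theorem okAt_three_tor (hF : Fintype.card F = q ^ 2) {ℓ : ℕ} (hℓ : ℓ.Prime) (hd : ℓ ∣ q + 1)
    (hodd : ℓ ≠ 2) : OKAt (SUg 3 F q) ℓ := by
  have := Fact.mk hℓ
  obtain ⟨c⟩ := exists_conj (show Nat.card F = q ^ 2 by rw [Nat.card_eq_fintype_card, hF])
  obtain ⟨a, s, hs, hqs⟩ := Nat.exists_eq_pow_mul_and_not_dvd (show q + 1 ≠ 0 by omega) ℓ hℓ.ne_one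
  have ha : a ≠ 0 := fun e => hs (by rw [e, pow_zero, one_mul] at hqs; rwa [← hqs])
  obtain ⟨ω, hωo, hω⟩ := exists_omega c hF (N := ℓ ^ a) (hqs ▸ dvd_mul_right _ s)
  have hoddω : Odd (orderOf ω) := hωo ▸ (hℓ.odd_of_ne_two hodd).pow
  have hq : 2 ≤ q := two_le_q (show Nat.card F = q ^ 2 by rw [Nat.card_eq_fintype_card, hF])
  have hqne : ¬ ℓ ∣ q := fun h => hℓ.one_lt.ne' (Nat.dvd_one.1 ((Nat.dvd_add_right h).1 hd))
  have hq1 : ¬ ℓ ∣ q - 1 := fun h => hodd ((Nat.prime_dvd_prime_iff_eq hℓ Nat.prime_two).1 (by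
    have := Nat.dvd_sub hd h
    rwa [show q + 1 - (q - 1) = 2 by omega] at this))
  -- the factor `q² - q + 1`
  obtain ⟨t, ht⟩ : ∃ t, q ^ 2 + 1 = t + q := ⟨q ^ 2 + 1 - q, by
    have : q ≤ q ^ 2 := Nat.le_self_pow two_ne_zero q
    omega⟩
  have hcard : Nat.card (SUg 3 F q) = (ℓ ^ a) ^ 2 * (q ^ 3 * ((q - 1) * (s * s) * t)) := by
    rw [card_su_three hF]
    have h1 : q ^ 2 - 1 = (q + 1) * (q - 1) := by
      have := Nat.sq_sub_sq q 1; rwa [one_pow] at this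
    have h2 : q ^ 3 + 1 = (q + 1) * t := by
      zify at ht ⊢; linear_combination (q + 1 : ℤ) * ht
    rw [h1, h2, hqs]; ring
  have ht3 : ℓ ∣ t → ℓ = 3 := fun h => by
    refine (Nat.prime_dvd_prime_iff_eq hℓ Nat.prime_three).1 ?_
    have h3 : (ℓ : ℤ) ∣ 3 := by
      have e1 : (ℓ : ℤ) ∣ (q : ℤ) + 1 := by exact_mod_cast Int.natCast_dvd_natCast.2 hd
      have e2 : (ℓ : ℤ) ∣ (t : ℤ) := Int.natCast_dvd_natCast.2 h
      have e3 : (t : ℤ) - ((q : ℤ) + 1) * ((q : ℤ) - 2) = 3 := by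
        zify at ht; linear_combination -ht
      rw [← e3]; exact dvd_sub e2 (e1.mul_right _)
    exact_mod_cast h3
  have hT : (ℓ ^ a) ^ 2 ∣ Nat.card (Tor c hω (k := 2)) := hωo ▸ card_tor_dvd c hω
  have hq3 : ¬ ℓ ∣ q ^ 3 := fun h => hqne (hℓ.dvd_of_dvd_pow h)
  have hrest : ¬ ℓ ∣ q ^ 3 * ((q - 1) * (s * s)) := fun h => by
    rcases (Nat.Prime.dvd_mul hℓ).1 h with h | h
    · exact hq3 h
    rcases (Nat.Prime.dvd_mul hℓ).1 h with h | h
    · exact hq1 h
    exact hs ((Nat.Prime.dvd_mul hℓ).1 h |>.elim id id)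
  by_cases h3 : ℓ = 3
  · subst h3
    obtain ⟨t', rfl⟩ : 3 ∣ t := by
      have e1 : (3 : ℤ) ∣ (q : ℤ) + 1 := by exact_mod_cast Int.natCast_dvd_natCast.2 hd
      have e3 : (t : ℤ) = ((q : ℤ) + 1) * ((q : ℤ) - 2) + 3 := by
        zify at ht; linear_combination -ht
      exact Int.natCast_dvd_natCast.1 (by rw [e3]; exact dvd_add (e1.mul_right _) dvd_rfl)
    have ht' : ¬ 3 ∣ t' := by
      rintro ⟨u, rfl⟩
      -- modulo nine
      have hmod : ((q + 1 : ℕ) : ZMod 9) ^ 2 + 3 = 3 * ((q + 1 : ℕ) : ZMod 9) := by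
        have e := congrArg (Nat.cast : ℕ → ZMod 9) ht
        push_cast at e ⊢
        have h9 : (9 : ZMod 9) = 0 := by decide
        linear_combination e + (u : ZMod 9) * h9
      obtain ⟨w, hw⟩ := hd
      rw [hw] at hmod
      push_cast at hmod
      revert hmod
      generalize (w : ZMod 9) = z
      revert z
      decide
    refine okAt_of_subgroup hℓ (Tor c hω ⊔ Subgroup.zpowers (wGen c (0 : Fin 2) * wGen c 1))
      (not_dvd_index _ hℓ (A := 2 * a + 1) (r := q ^ 3 * ((q - 1) * (s * s)) * t')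
        (by rw [hcard]; ring) (fun h => ((Nat.Prime.dvd_mul hℓ).1 h).elim hrest ht') ?_) ?_
    · obtain ⟨-, hπ3, hπn⟩ :
          True ∧ (wGen c (0 : Fin 2) * wGen c 1) ^ 3 = 1 ∧
            wGen c (0 : Fin 2) * wGen c 1 ∉ Tor c hω := by
        refine ⟨trivial, ext_act fun j => co_ext fun l hl => ?_, fun h => ?_⟩
        · simp only [pow_succ, pow_zero, one_mul, act_mul, act_one, wGen, co_wE c, Fin.val_zero, Fin.val_one]
          split_ifs <;> first | omega | contradiction | (subst_vars; simp)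
        · obtain ⟨d, hd⟩ := isDiag_of_mem c hω h
          have h1 := hd (ev 3 F 0) 1 (by omega)
          simp only [act_mul, wGen, co_wE c, Fin.val_zero, Fin.val_one, co_ev (show 0 < 3 by omega)] at h1
          simp at h1
      have hnorm : wGen c (0 : Fin 2) * wGen c 1 ∈ Subgroup.normalizer ((Tor c hω (k := 2)) : Set (SUg 3 F q)) :=
        mul_mem (wGen_mem_normalizer c hω 0) (wGen_mem_normalizer c hω 1)
      have h := mul_card_dvd (ℓ := 3) (le_sup_left (b := Subgroup.zpowers (wGen c (0 : Fin 2) * wGen c 1)))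
        (Subgroup.mem_sup_right (Subgroup.mem_zpowers _)) hnorm hπn (by rw [hπ3]; exact one_mem _)
      refine dvd_trans ?_ h
      rw [pow_succ, mul_comm (3 ^ (2 * a)), pow_mul']
      exact Nat.mul_dvd_mul_left _ hT
    · intro Γ _ _ σ hσ z hz hzk _
      obtain ⟨hA, Th, hTh⟩ := exists_lift_odd (σ := σ) c hω hσ.1 hσ.2.1 le_rfl hoddω
      obtain ⟨a₀, ha₀⟩ := hσ.1 (wGen c (0 : Fin 2))
      obtain ⟨a₁, ha₁⟩ := hσ.1 (wGen c (1 : Fin 2))
      rw [← ha₀, ← ha₁, ← map_mul] at hz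
      exact hTh.1 z (DP_tor_zpowers_le c hω hσ.2.1 hTh hA _
        (mul_mem (hTh.2.2 0 a₀ ha₀) (hTh.2.2 1 a₁ ha₁)) hz) hzk
  · refine okAt_of_subgroup hℓ (Tor c hω (k := 2))
      (not_dvd_index _ hℓ (A := 2 * a) (r := q ^ 3 * ((q - 1) * (s * s)) * t) (by rw [hcard]; ring)
        (fun h => ((Nat.Prime.dvd_mul hℓ).1 h).elim hrest fun h' => h3 (ht3 h')) ?_) ?_
    · rw [pow_mul']; exact hT
    · intro Γ _ _ σ hσ z hz _ _
      obtain ⟨hA, -⟩ := exists_lift_odd (σ := σ) c hω hσ.1 hσ.2.1 le_rfl hoddω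
      have : DP σ (Tor c hω (k := 2)) ≤ ⊥ := by
        rw [DP, Subgroup.commutator_le]
        exact fun x hx y hy => Subgroup.mem_bot.2 (commutatorElement_eq_one_iff_commute.2 (hA x y hx hy))
      exact Subgroup.mem_bot.1 (this hz)

theorem commutator_blk (hF : Fintype.card F = q ^ 2) (hq : 3 ≤ q) (i : Fin k) {e : ℕ}
    (h3 : q = 3 → orderOf ω = 4) (he : orderOf ω = 2 ^ e) :
    tGen c hω i ∈ ⁅Blk c (k + 1) i 2, Blk c (k + 1) i 2⁆ ∧
      wGen c i ∈ ⁅Blk c (k + 1) i 2, Blk c (k + 1) i 2⁆ := by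
  have key : ∀ g : SUg 2 F q, g ∈ commutator (SUg 2 F q) →
      emb c (i : ℕ) (show (i : ℕ) + 2 ≤ k + 1 by omega) g ∈ ⁅Blk c (k + 1) i 2, Blk c (k + 1) i 2⁆ := by
    intro g hg
    rw [← range_emb c (i : ℕ) (show (i : ℕ) + 2 ≤ k + 1 by omega), MonoidHom.range_eq_map,
      ← Subgroup.map_commutator, ← commutator_def]
    exact Subgroup.mem_map_of_mem _ hg
  rcases eq_or_lt_of_le hq with rfl | hq'
  · have h4 := h3 rfl
    have hsq : (ω : F) ^ 2 = -1 := by
      have h1 : ((ω : F) ^ 2) * ((ω : F) ^ 2) = 1 := by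
        rw [← pow_add, ← Units.val_pow_eq_pow_val, show ω ^ (2 + 2) = 1 from orderOf_dvd_iff_pow_eq_one.1 h4.dvd,
          Units.val_one]
      refine (mul_self_eq_one_iff.1 h1).resolve_left fun h => ?_
      have := orderOf_dvd_of_pow_eq_one (show ω ^ 2 = 1 from Units.ext (by rw [Units.val_pow_eq_pow_val, h]; rfl))
      rw [h4] at this; omega
    obtain ⟨m1, m2⟩ := mem_commutator_two c hω hF hsq
    exact ⟨key _ m1, key _ m2⟩
  · exact ⟨key _ ((commutator_su_two hF hq') ▸ Subgroup.mem_top _),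
      key _ ((commutator_su_two hF hq') ▸ Subgroup.mem_top _)⟩

omit [Finite Γ] in
theorem okAt_three_two_tor (hF : Fintype.card F = q ^ 2) (hq4 : q % 4 = 3) : OKAt (SUg 3 F q) 2 := by
  have := Fact.mk Nat.prime_two
  obtain ⟨c⟩ := exists_conj (show Nat.card F = q ^ 2 by rw [Nat.card_eq_fintype_card, hF])
  obtain ⟨a, s, hs, hqs⟩ := Nat.exists_eq_pow_mul_and_not_dvd (show q + 1 ≠ 0 by omega) 2 (by norm_num)
  obtain ⟨b, rfl⟩ : ∃ b, a = b + 2 := ⟨a - 2, by
    rcases a with _ | _ | a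
    · rw [pow_zero, one_mul] at hqs; omega
    · rw [zero_add, pow_one] at hqs; omega
    · omega⟩
  obtain ⟨ω, hωo, hω⟩ := exists_omega c hF (N := 2 ^ (b + 2)) (hqs ▸ dvd_mul_right _ s)
  have h2F : (2 : F) ≠ 0 := by
    intro h
    obtain ⟨p, hp⟩ := CharP.exists F
    obtain ⟨n, hpp, hn⟩ := FiniteField.card F p
    have : p = 2 := (Nat.prime_dvd_prime_iff_eq hpp Nat.prime_two).1
      ((CharP.cast_eq_zero_iff F p 2).1 (by exact_mod_cast h))
    subst this
    have h3 : 2 ∣ q ^ 2 := by rw [← hF, hn]; exact dvd_pow_self _ n.ne_zero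
    have := Nat.prime_two.dvd_of_dvd_pow h3
    omega
  obtain ⟨q', rfl⟩ : ∃ q', q = 4 * q' + 3 := ⟨q / 4, by omega⟩
  have hcard : Nat.card (SUg 3 F (4 * q' + 3)) = 2 ^ (2 * (b + 2) + 1) *
      ((4 * q' + 3) ^ 3 * ((2 * q' + 1) * (s * s) * (16 * q' ^ 2 + 20 * q' + 7))) := by
    rw [card_su_three hF]
    have h1 : (4 * q' + 3) ^ 2 - 1 = (4 * q' + 3 + 1) * (2 * (2 * q' + 1)) := by
      have := Nat.sq_sub_sq (4 * q' + 3) 1
      rw [one_pow] at this
      rw [this]; congr 1; omega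
    have h2 : (4 * q' + 3) ^ 3 + 1 = (4 * q' + 3 + 1) * (16 * q' ^ 2 + 20 * q' + 7) := by ring
    rw [h1, h2, hqs]; ring
  refine okAt_of_subgroup Nat.prime_two (Tor c hω ⊔ Subgroup.zpowers (wGen c (0 : Fin 2)))
    (not_dvd_index _ Nat.prime_two hcard ?_ ?_) ?_
  · rw [← even_iff_two_dvd]
    have hso : ¬ Even s := fun h => hs h.two_dvd
    simp only [Nat.even_mul, Nat.even_add, Nat.even_pow]
    simp [hso, parity_simps]
  · have h := mul_card_dvd (ℓ := 2) (le_sup_left (b := Subgroup.zpowers (wGen c (0 : Fin 2))))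
      (Subgroup.mem_sup_right (Subgroup.mem_zpowers _)) (wGen_mem_normalizer c hω 0)
      (wGen_notMem_tor c hω 0) (wGen_sq_mem c hω 0 (e := 2 ^ (b + 1)) (by rw [hωo, pow_succ']))
    refine dvd_trans ?_ h
    rw [pow_succ', pow_mul']
    exact Nat.mul_dvd_mul_left _ (hωo ▸ card_tor_dvd c hω)
  · intro Γ _ _ σ hσ z hz hzk _
    obtain ⟨hA, Th, hTh⟩ := exists_lift_two (σ := σ) c hω hσ.1 hσ.2.1 le_rfl h2F hωo
      fun i => commutator_blk c hω hF (by omega) i (fun h => by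
        obtain rfl : q' = 0 := by omega
        rcases b with _ | b
        · rw [hωo]; norm_num
        · exfalso
          have : 2 ^ (b + 1 + 2) ∣ 4 := by rw [show (4 : ℕ) = 4 * 0 + 3 + 1 from rfl, hqs]; exact dvd_mul_right _ _
          have := Nat.le_of_dvd (by norm_num) this
          have : 2 ^ 3 ≤ 2 ^ (b + 1 + 2) := Nat.pow_le_pow_right (by norm_num) (show 3 ≤ b + 1 + 2 by omega)
          omega) hωo
    obtain ⟨a₀, ha₀⟩ := hσ.1 (wGen c (0 : Fin 2))
    rw [← ha₀] at hz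
    exact hTh.1 z (DP_tor_zpowers_le c hω hσ.2.1 hTh hA _ (hTh.2.2 0 a₀ ha₀) hz) hzk

omit [Finite Γ] in
theorem okAt_three_two_cell (hF : Fintype.card F = q ^ 2) (hq4 : q % 4 = 1) : OKAt (SUg 3 F q) 2 := by
  obtain ⟨c⟩ := exists_conj (show Nat.card F = q ^ 2 by rw [Nat.card_eq_fintype_card, hF])
  have h : UniField F c.σ q := ⟨c.apply, by rw [Nat.card_eq_fintype_card, hF]⟩
  obtain ⟨e⟩ := exists_suAnti_equiv h
  refine OKAt.of_equiv e ?_
  haveI : Finite (suAnti c.σ) := Finite.of_equiv _ e.symm.toEquiv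
  obtain ⟨g, hg⟩ := h.exists_gen
  have hq : 2 ≤ q := h.one_lt
  obtain ⟨b, s, hs, hbs⟩ := Nat.exists_eq_pow_mul_and_not_dvd (show q - 1 ≠ 0 by omega) 2 (by norm_num)
  obtain ⟨u, hu⟩ : ∃ u, q + 1 = 2 * u ∧ Odd u := ⟨(q + 1) / 2, by omega, by rw [Nat.odd_iff]; omega⟩
  have hb : 1 ≤ b := by
    rcases b with _ | b
    · simp at hbs; omega
    · omega
  have hM : q ^ 2 - 1 = 2 ^ (b + 1) * (s * u) := by
    have := Nat.sq_sub_sq q 1
    rw [one_pow] at this
    rw [this, hu.1, hbs, pow_succ]; ring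
  have hne : q ^ 2 - 1 ≠ 0 := by
    have : 4 ≤ q ^ 2 := by nlinarith
    omega
  set x : Fˣ := g ^ (s * u) with hx
  have hxo : orderOf x = 2 ^ (b + 1) := by
    rw [hx, orderOf_pow, hg, Nat.gcd_eq_right (hM ▸ dvd_mul_left _ _)]
    rw [hM]
    exact Nat.mul_div_cancel _ (Nat.pos_of_ne_zero (by rw [hM] at hne; exact right_ne_zero_of_mul hne))
  set X := SU3Pres.dT h x with hX
  set W := wEl₃ c.σ with hW
  have hXo : orderOf X = 2 ^ (b + 1) := by rw [hX, orderOf_injective _ (SU3Pres.dT_injective h), hxo]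
  have hXW : W * X * W⁻¹ = X ^ (-(q : ℤ)) := by
    rw [hW, inv_eq_of_mul_eq_one_right (SU3Pres.w_mul_w h), hX, SU3Pres.w_dT_w, ← map_zpow, zpow_neg,
      zpow_natCast]
    congr 1
    refine congrArg _ (Units.ext ?_)
    simp [SU3Pres.sU, c.apply]
  set H := Subgroup.closure {X, W} with hH
  have hWX : W ∉ Subgroup.zpowers X := by
    rintro ⟨n, hn⟩
    have := congrArg (fun y : suAnti c.σ => mat₃ c.σ y 0 0) hn
    simp only [hX, ← map_zpow, SU3Pres.mat_dT, hW, mat₃_wEl] at this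
    simp [SU3Pres.dMat₃, wMat₃] at this
    exact zpow_ne_zero n x.ne_zero this
  have hcardH : 2 ^ (b + 2) ∣ Nat.card H := by
    have hN : W ∈ Subgroup.normalizer (Subgroup.zpowers X : Set (suAnti c.σ)) := by
      refine Subgroup.mem_normalizer_iff_map_conj_eq.2 (Subgroup.eq_of_le_of_card_ge ?_
        (Subgroup.card_map_of_injective (MulAut.conj W).injective).ge)
      rw [MonoidHom.map_zpowers, Subgroup.zpowers_le]
      exact ⟨-(q : ℤ), hXW.symm⟩
    haveI := Fact.mk Nat.prime_two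
    have h1 := mul_card_dvd (T := Subgroup.zpowers X) (H := H) (ℓ := 2)
      (Subgroup.zpowers_le.2 (Subgroup.subset_closure (Or.inl rfl))) (Subgroup.subset_closure (Or.inr rfl))
      hN hWX (by rw [pow_two, hW, SU3Pres.w_mul_w h]; exact one_mem _)
    rwa [Nat.card_zpowers, hXo, ← pow_succ'] at h1
  obtain ⟨u', hu'⟩ : ∃ u', q = 4 * u' + 1 := ⟨q / 4, by omega⟩
  refine okAt_of_subgroup Nat.prime_two H (not_dvd_index H Nat.prime_two (A := b + 2)
    (r := q ^ 3 * (s * (u * u) * (16 * u' ^ 2 + 4 * u' + 1))) ?_ ?_ hcardH) ?_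
  · rw [Nat.card_congr e.toEquiv, show Nat.card (Cfsg.SU 3 F q) = _ from card_su_three hF,
      show q ^ 3 + 1 = (q + 1) * (16 * u' ^ 2 + 4 * u' + 1) by subst hu'; ring, hM, hu.1, pow_succ (2 : ℕ)]
    ring
  · rw [← even_iff_two_dvd, hu']
    have hso : ¬ Even s := fun h => hs h.two_dvd
    have huo : ¬ Even u := Nat.not_even_iff_odd.2 hu.2
    simp [hso, huo, parity_simps]
  intro Γ _ _ ρ hρ z hz hzk _
  obtain ⟨a, ha⟩ := hρ.1 X
  obtain ⟨w, hw⟩ := hρ.1 W
  rw [hH, ← ha, ← hw] at hz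
  refine metacyclic_two_tight hρ.2.1 (r := -(q : ℤ)) (t := 0) (N := 2 ^ (b + 1)) (e := 2 ^ b)
    (by rw [map_mul, map_mul, map_inv, ha, hw, hXW])
    (by rw [zpow_zero, hw, pow_two, hW, SU3Pres.w_mul_w h])
    (by rw [ha, show ((2 : ℤ) ^ (b + 1)) = ((2 ^ (b + 1) : ℕ) : ℤ) by push_cast; ring, zpow_natCast]
        exact orderOf_dvd_iff_pow_eq_one.1 hXo.dvd) ?_ ?_ hz hzk
  · obtain ⟨s', hs'⟩ : Odd s := Nat.not_even_iff_odd.1 fun h => hs h.two_dvd
    have e1 : (q : ℤ) = 2 ^ b * (s : ℤ) + 1 := by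
      have : q = 2 ^ b * s + 1 := by omega
      exact_mod_cast this
    refine ⟨0, -1, -(s' : ℤ), ?_⟩
    rw [e1, hs', pow_succ]; push_cast; ring
  · intro j hj
    rw [ha] at hj
    have h1 := orderOf_dvd_iff_zpow_eq_one.2 hj
    rw [hXo] at h1
    obtain ⟨v, hv⟩ := hu.2
    have e1 : (-(q : ℤ) - 1) * j = 2 * (-(2 * (v : ℤ) + 1) * j) := by
      have : (q : ℤ) + 1 = 2 * u := by exact_mod_cast hu.1
      rw [show (-(q : ℤ) - 1) = -((q : ℤ) + 1) by ring, this, hv]; push_cast; ring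
    rw [e1, Nat.cast_pow, Nat.cast_ofNat, pow_succ'] at h1
    have h2 := (mul_dvd_mul_iff_left (two_ne_zero (α := ℤ))).1 h1
    have hco : IsCoprime ((2 : ℤ) ^ b) (-(2 * (v : ℤ) + 1)) :=
      IsCoprime.pow_left ⟨-(v : ℤ), -1, by ring⟩
    exact hco.dvd_of_dvd_mul_left h2

omit [Finite Γ] in
theorem okAt_three_sub_one (hF : Fintype.card F = q ^ 2) {ℓ : ℕ} (hℓ : ℓ.Prime) (hd : ℓ ∣ q - 1)
    (hodd : ℓ ≠ 2) : OKAt (SUg 3 F q) ℓ := by
  obtain ⟨c⟩ := exists_conj (show Nat.card F = q ^ 2 by rw [Nat.card_eq_fintype_card, hF])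
  have h : UniField F c.σ q := ⟨c.apply, by rw [Nat.card_eq_fintype_card, hF]⟩
  obtain ⟨e⟩ := exists_suAnti_equiv h
  refine OKAt.of_equiv e ?_
  haveI : Finite (suAnti c.σ) := Finite.of_equiv _ e.symm.toEquiv
  have hq : 2 ≤ q := h.one_lt
  have hcardR : Nat.card (SU3Pres.dT h).range = q ^ 2 - 1 := by
    rw [← Nat.card_congr (MonoidHom.ofInjective (SU3Pres.dT_injective h)).toEquiv, Nat.card_units, h.card]
  haveI : IsCyclic (SU3Pres.dT h).range :=
    isCyclic_of_surjective (SU3Pres.dT h).rangeRestrict (MonoidHom.rangeRestrict_surjective _)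
  refine okAt_of_cyclic hℓ (SU3Pres.dT h).range fun hi => ?_
  have he := (SU3Pres.dT h).range.card_mul_index
  rw [hcardR, Nat.card_congr e.toEquiv, show Nat.card (Cfsg.SU 3 F q) = _ from card_su_three hF,
    mul_left_comm] at he
  have hne : q ^ 2 - 1 ≠ 0 := by
    have : 4 ≤ q ^ 2 := by nlinarith
    omega
  rw [Nat.eq_of_mul_eq_mul_left (Nat.pos_of_ne_zero hne) he] at hi
  have hm1 : q ≡ 1 [MOD ℓ] := ((Nat.modEq_iff_dvd' (show 1 ≤ q by omega)).2 hd).symm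
  have hm : q ^ 3 * (q ^ 3 + 1) ≡ 2 [MOD ℓ] := by
    simpa using (hm1.pow 3).mul ((hm1.pow 3).add_right 1)
  have := (Nat.modEq_zero_iff_dvd.2 hi).symm.trans hm
  exact hodd ((Nat.prime_dvd_prime_iff_eq hℓ Nat.prime_two).1 (Nat.modEq_zero_iff_dvd.1 this.symm))

omit [Finite Γ] in
theorem okAt_three_cyclic (hF : Fintype.card F = q ^ 2) {ℓ : ℕ} (hℓ : ℓ.Prime) (h0 : ¬ ℓ ∣ q)
    (hd : ℓ ∣ q ^ 3 + 1) (hp : ¬ ℓ ∣ q + 1) : OKAt (SUg 3 F q) ℓ := by
  have := Fact.mk hℓ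
  have hq : 2 ≤ q := two_le_q (show Nat.card F = q ^ 2 by rw [Nat.card_eq_fintype_card, hF])
  have z3 : (q : ZMod ℓ) ^ 3 = -1 := by
    have := (ZMod.natCast_eq_zero_iff _ _).2 hd
    push_cast at this
    exact eq_neg_of_add_eq_zero_left this
  have zp : (q : ZMod ℓ) + 1 ≠ 0 := fun e => hp ((ZMod.natCast_eq_zero_iff _ _).1 (by push_cast; exact e))
  have hℓ2 : ℓ ≠ 2 := by
    rintro rfl
    have hod : ¬ Even q := fun h => h0 h.two_dvd
    exact hp (by rw [← even_iff_two_dvd]; simp [parity_simps, hod])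
  have key : ∀ e : ℕ, (e = 1 ∨ e = 2) → ¬ ℓ ∣ Fintype.card F ^ e - 1 := by
    intro e he h
    have h1 : ((q : ZMod ℓ) ^ 2) ^ e = 1 := by
      have h2 := (ZMod.natCast_eq_zero_iff _ _).2 h
      rw [Nat.cast_sub (Nat.one_le_pow _ _ Fintype.card_pos), hF] at h2
      push_cast at h2
      exact sub_eq_zero.1 h2
    rcases he with rfl | rfl
    · -- `q² = 1` and `q³ = -1` give `q = -1`
      apply zp
      rw [pow_one] at h1
      linear_combination z3 - (q : ZMod ℓ) * h1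
    · apply zp
      have hcube : ((q : ZMod ℓ) ^ 3) ^ 2 = 1 := by rw [z3]; ring
      have h2 : (q : ZMod ℓ) ^ 2 = 1 := by linear_combination hcube - (q : ZMod ℓ) ^ 2 * h1
      linear_combination z3 - (q : ZMod ℓ) * h2
  obtain ⟨P⟩ : Nonempty (Sylow ℓ (SUg 3 F q)) := inferInstance
  haveI : IsCyclic (P : Subgroup (SUg 3 F q)) := isCyclic_sylow
    (fun h => h0 (hℓ.dvd_of_dvd_pow (hF ▸ h))) (by simpa using key 1 (Or.inl rfl)) (key 2 (Or.inr rfl)) P
  exact okAt_of_cyclic hℓ P P.not_dvd_index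

omit [Finite Γ] in
/-- All primes different from the characteristic. -/
theorem okAt_three_coprime (hF : Fintype.card F = q ^ 2) {ℓ : ℕ} (hℓ : ℓ.Prime) (h0 : ¬ ℓ ∣ q)
    (hd : ℓ ∣ Nat.card (SUg 3 F q)) : OKAt (SUg 3 F q) ℓ := by
  by_cases h2 : ℓ = 2
  · subst h2
    rcases (show q % 4 = 1 ∨ q % 4 = 3 by omega) with h | h
    · exact okAt_three_two_cell hF h
    · exact okAt_three_two_tor hF h
  by_cases hp : ℓ ∣ q + 1
  · exact okAt_three_tor hF hℓ hp h2
  rw [card_su_three hF, show q ^ 2 - 1 = (q + 1) * (q - 1) by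
    have := Nat.sq_sub_sq q 1; rwa [one_pow] at this] at hd
  rcases (Nat.Prime.dvd_mul hℓ).1 hd with h | h
  · exact absurd (hℓ.dvd_of_dvd_pow h) h0
  rcases (Nat.Prime.dvd_mul hℓ).1 h with h | h
  · exact okAt_three_sub_one hF hℓ ((Nat.Prime.dvd_mul hℓ).1 h |>.resolve_left hp) h2
  · exact okAt_three_cyclic hF hℓ h0 h hp

end CfsgLib.SUMult
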