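import Cfsg.Agent.Lib.SUMult.Monomial
import Cfsg.Agent.Lib.SUMult.Elems

/-!
Lifts of the diagonal `ℓ`-tori of `SU_n(q)`, `ℓ` dividing `q + 1`, in central extensions.
-/

set_option autoImplicit false
set_option linter.unusedSectionVars false

namespace CfsgLib.SUMult

open CfsgLib.SUAmalgam CfsgLib.SchurMult CfsgLib.ClassicalForms
open scoped commutatorElement

universe u

variable {F : Type u} [Field F] [Fintype F] {q k : ℕ} (c : Conj F q) {ω : Fˣ}
  (hω : (ω : F) * c.σ (ω : F) = 1)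

/-- The generators of the torus. -/
noncomputable def tGen (i : Fin k) : SUg (k + 1) F q :=
  xE (m := k + 1) c hω i.val (Nat.add_le_add_right i.isLt 1)

/-- The reflections. -/
noncomputable def wGen (i : Fin k) : SUg (k + 1) F q :=
  wE (m := k + 1) c i.val (Nat.add_le_add_right i.isLt 1)

/-- The torus. -/
noncomputable def Tor : Subgroup (SUg (k + 1) F q) := Subgroup.closure (Set.range (tGen c hω (k := k)))

/-- The Cartan integers, with sign. -/
def cfn (i j : Fin k) : ℤ := if i = j then -2 else if (j : ℕ) = i + 1 ∨ (i : ℕ) = j + 1 then 1 else 0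

theorem isDiag_of_mem {t : SUg (k + 1) F q} (ht : t ∈ Tor c hω) : ∃ d, IsDiag t d := by
  induction ht using Subgroup.closure_induction with
  | mem t ht => obtain ⟨i, rfl⟩ := ht; exact ⟨_, isDiag_xE c hω _ _⟩
  | one => exact ⟨_, isDiag_one⟩
  | mul _ _ _ _ h h' => obtain ⟨d, hd⟩ := h; obtain ⟨d', hd'⟩ := h'; exact ⟨_, hd.mul hd'⟩
  | inv _ _ h => obtain ⟨d, hd⟩ := h; exact ⟨_, hd.inv⟩

theorem tGen_pow_orderOf (i : Fin k) : tGen c hω i ^ orderOf ω = 1 := by
  refine ((isDiag_xE c hω i.val (Nat.add_le_add_right i.isLt 1)).pow _).eq_one_iff.2 fun l _ => ?_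
  unfold dX
  split_ifs
  · exact pow_orderOf_eq_one ω
  · rw [inv_pow, pow_orderOf_eq_one, inv_one]
  · exact one_pow _

theorem wGen_conj (i j : Fin k) :
    wGen c i * tGen c hω j * (wGen c i)⁻¹ = tGen c hω i ^ cfn i j * tGen c hω j := by
  refine ((isDiag_xE c hω j.val (Nat.add_le_add_right j.isLt 1)).conj_wE c
    (Nat.add_le_add_right i.isLt 1)).ext ?_
  refine (((isDiag_xE c hω i.val (Nat.add_le_add_right i.isLt 1)).zpow _).mul
    (isDiag_xE c hω j.val (Nat.add_le_add_right j.isLt 1))).congr fun l hl => ?_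
  unfold cfn dX
  simp only [Equiv.swap_apply_def, Fin.ext_iff]
  split_ifs <;> first | omega | (simp [pow_two])

theorem tGen_free (e : Fin k → ℤ) (h : (List.ofFn fun i => tGen c hω i ^ e i).prod = 1) :
    ∀ i, (orderOf ω : ℤ) ∣ e i := by
  have hd := IsDiag.list_prod (fun i => tGen c hω i ^ e i) (fun i l => dX ω (i : ℕ) l ^ e i)
    fun i => (isDiag_xE c hω i.val (Nat.add_le_add_right i.isLt 1)).zpow (e i)
  have h1 := hd.eq_one_iff.1 h
  suffices H : ∀ n (i : Fin k), (i : ℕ) = n → (orderOf ω : ℤ) ∣ e i from fun i => H _ i rfl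
  intro n
  induction n using Nat.strong_induction_on with
  | _ n ih =>
    intro i hi
    have h2 := h1 i.val (by omega)
    rw [Finset.prod_eq_single i (fun j _ hj => ?_) (by simp)] at h2
    · rw [dX, if_pos rfl] at h2
      exact orderOf_dvd_iff_zpow_eq_one.2 h2
    · have hne : (j : ℕ) ≠ i := fun e => hj (Fin.ext e)
      unfold dX
      split_ifs with a b
      · omega
      · rw [inv_zpow, orderOf_dvd_iff_zpow_eq_one.1 (ih (j : ℕ) (by omega) j rfl), inv_one]
      · exact one_zpow _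

/-- Properties of a lifted torus. -/
def TorusLift {Γ : Type u} [Group Γ] (σ : Γ →* SUg (k + 1) F q) (Th : Subgroup Γ) : Prop :=
  KerFree σ Th ∧ Th.map σ = Tor c hω ∧
    ∀ i (a : Γ), σ a = wGen c i → a ∈ Subgroup.normalizer (Th : Set Γ)

variable {Γ : Type u} [Group Γ] [Finite Γ] {σ : Γ →* SUg (k + 1) F q}

theorem comm_pow_eq_one (hc : σ.ker ≤ Subgroup.center Γ) {a b : Γ} (h : Commute (σ a) (σ b)) {n : ℕ}
    (hn : σ a ^ n = 1) : ⁅a, b⁆ ^ n = 1 := by
  rw [← comm_pow_left hc h, commutatorElement_eq_one_iff_commute]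
  exact (ker_comm hc (show a ^ n ∈ σ.ker by rw [MonoidHom.mem_ker, map_pow, hn]) b).symm

theorem exists_lift_gen (hs : Function.Surjective σ) (hc : σ.ker ≤ Subgroup.center Γ) (hk : 2 ≤ k)
    (hpair : ∀ i j (a b : Γ), σ a = tGen c hω i → σ b = tGen c hω j → Commute a b)
    (hB : ∀ i (a b : Γ), σ a = wGen c i → σ b ∈ Tor c hω → Commute (σ a) (σ b) → Commute a b) :
    (∀ a b : Γ, σ a ∈ Tor c hω → σ b ∈ Tor c hω → Commute a b) ∧
      ∃ Th, TorusLift c hω σ Th := by
  have hA : ∀ a b : Γ, σ a ∈ Tor c hω → σ b ∈ Tor c hω → Commute a b := by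
    choose xt hxt using fun i => hs (tGen c hω (k := k) i)
    have h0 := commutator_comap_closure_eq_bot hc (Set.range xt) (by
      rintro _ ⟨i, rfl⟩ _ ⟨j, rfl⟩
      exact commutatorElement_eq_one_iff_commute.2 (hpair i j _ _ (hxt i) (hxt j)))
    rw [← Set.range_comp, show σ ∘ xt = tGen c hω from funext hxt] at h0
    intro a b ha hb
    have hm := Subgroup.commutator_mem_commutator
      (show a ∈ (Tor c hω).comap σ from ha) (show b ∈ (Tor c hω).comap σ from hb)
    unfold Tor at hm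
    rw [h0, Subgroup.mem_bot] at hm
    exact commutatorElement_eq_one_iff_commute.1 hm
  refine ⟨hA, ?_⟩
  obtain ⟨Th, h1, h2, h3⟩ := exists_torusLift hs hc (tGen c hω) (wGen c) (orderOf ω) cfn
    (fun i => if h : (i : ℕ) + 1 < k then ⟨i + 1, h⟩ else ⟨i - 1, by omega⟩)
    (tGen_pow_orderOf c hω) (tGen_free c hω) (wGen_conj c hω)
    (fun i => by unfold cfn; split_ifs with a b d <;> simp_all [Fin.ext_iff] <;> omega) hA hB
  exact ⟨Th, h1, h2, h3⟩

/-- Lifts of the torus when `ω` has odd order. -/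
theorem exists_lift_odd (hs : Function.Surjective σ) (hc : σ.ker ≤ Subgroup.center Γ) (hk : 2 ≤ k)
    (hodd : Odd (orderOf ω)) :
    (∀ a b : Γ, σ a ∈ Tor c hω → σ b ∈ Tor c hω → Commute a b) ∧
      ∃ Th, TorusLift c hω σ Th := by
  have hkill : ∀ z : Γ, z ^ orderOf ω = 1 → ∀ n : ℕ, n ∣ 4 → z ^ n = 1 → z = 1 := by
    intro z h1 n hn h2
    have hco : (orderOf ω).Coprime 4 :=
      ((Nat.coprime_two_right.2 hodd).pow_right 2 : (orderOf ω).Coprime (2 ^ 2))
    rw [← orderOf_eq_one_iff, ← Nat.dvd_one, ← hco.gcd_eq_one]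
    exact Nat.dvd_gcd (orderOf_dvd_of_pow_eq_one h1) ((orderOf_dvd_of_pow_eq_one h2).trans hn)
  refine exists_lift_gen c hω hs hc hk (fun i j a b ha hb => ?_) (fun i a b ha hb hab => ?_)
  · have hij : Commute (σ a) (σ b) := by
      rw [ha, hb]
      exact (isDiag_xE c hω i.val _).commute (isDiag_xE c hω j.val _)
    refine commutatorElement_eq_one_iff_commute.1
      (hkill _ (comm_pow_eq_one hc hij (by rw [ha]; exact tGen_pow_orderOf c hω i)) 2 (by norm_num) ?_)
    obtain ⟨w, hw⟩ := hs (wGen c i)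
    have hwi : σ (w * a * w⁻¹) = σ a⁻¹ := by
      rw [map_mul, map_mul, map_inv, map_inv, hw, ha, wGen_conj, cfn, if_pos rfl, ← zpow_add_one]
      norm_num
    have hwj : σ (w * b * w⁻¹) = σ (a ^ cfn i j * b) := by
      rw [map_mul, map_mul, map_inv, map_mul, map_zpow, hw, ha, hb, wGen_conj]
    have e : ⁅a, b⁆ = ⁅a⁻¹, a ^ cfn i j * b⁆ := by
      conv_lhs => rw [← comm_conj hc hij w, comm_eq_of_map_eq hc hwi hwj]
    have hab' : Commute (σ a⁻¹) (σ b) := by rw [map_inv]; exact hij.inv_left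
    rw [comm_mul_right hc hab', commutatorElement_eq_one_iff_commute.2
      ((Commute.self_zpow a _).inv_left), one_mul] at e
    have hinv : ⁅a⁻¹, b⁆ * ⁅a, b⁆ = 1 := by
      rw [← comm_mul_left hc hij, inv_mul_cancel, commutatorElement_one_left]
    rw [pow_two]
    nth_rw 1 [e]
    exact hinv
  · refine commutatorElement_eq_one_iff_commute.1 (hkill _ ?_ 4 dvd_rfl
      (comm_pow_eq_one hc hab (by rw [ha]; exact wE_pow_four c _ _)))
    have hb1 : ∀ t ∈ Tor c hω (k := k), t ^ orderOf ω = 1 := fun t ht => by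
      induction ht using Subgroup.closure_induction with
      | mem t ht => obtain ⟨j, rfl⟩ := ht; exact tGen_pow_orderOf c hω j
      | one => exact one_pow _
      | mul t t' h h' e e' =>
        obtain ⟨d, hd⟩ := isDiag_of_mem c hω h
        obtain ⟨d', hd'⟩ := isDiag_of_mem c hω h'
        rw [(hd.commute hd').mul_pow, e, e', one_mul]
      | inv t _ e => rw [inv_pow, e, inv_one]
    rw [← commutatorElement_inv, inv_pow, inv_eq_one]
    exact comm_pow_eq_one hc hab.symm (hb1 _ hb)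

/-- Lifts of the torus when `ω` has `2`-power order. -/
theorem exists_lift_two (hs : Function.Surjective σ) (hc : σ.ker ≤ Subgroup.center Γ) (hk : 2 ≤ k)
    (h2 : (2 : F) ≠ 0) {e : ℕ} (he : orderOf ω = 2 ^ e)
    (hder : ∀ i : Fin k, tGen c hω i ∈ ⁅Blk c (k + 1) i 2, Blk c (k + 1) i 2⁆ ∧
      wGen c i ∈ ⁅Blk c (k + 1) i 2, Blk c (k + 1) i 2⁆) :
    (∀ a b : Γ, σ a ∈ Tor c hω → σ b ∈ Tor c hω → Commute a b) ∧
      ∃ Th, TorusLift c hω σ Th := by
  have hsplit : ∀ (H : Subgroup (SUg (k + 1) F q)) (a : Γ), σ a ∈ ⁅H, H⁆ →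
      ∃ d ∈ DP σ H, σ d = σ a := fun H a ha => by
    rw [← map_DP hs H, Subgroup.mem_map] at ha
    exact ha
  refine exists_lift_gen c hω hs hc hk (fun i j a b ha hb => ?_) (fun i a b ha hb hab => ?_)
  · obtain ⟨d, hd, hde⟩ := hsplit (Blk c (k + 1) i 2) a (by rw [ha]; exact (hder i).1)
    set K := Blk c (k + 1) (i : ℕ) 2 with hK
    have hij : Commute (σ b) (σ d) := by
      rw [hb, hde, ha]
      exact (isDiag_xE c hω j.val _).commute (isDiag_xE c hω i.val _)
    have hmem : ⁅b, d⁆ ∈ DP σ K := by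
      have hnorm : (DP σ K).map (MulAut.conj b).toMonoidHom ≤ DP σ K := by
        rw [DP, Subgroup.map_commutator]
        have hle : (K.comap σ).map (MulAut.conj b).toMonoidHom ≤ K.comap σ := by
          rintro _ ⟨g, hg, rfl⟩
          show σ (b * g * b⁻¹) ∈ K
          rw [map_mul, map_mul, map_inv, hb]
          exact (isDiag_xE c hω j.val _).conj_mem_Blk c hg
        exact Subgroup.commutator_mono hle hle
      rw [commutatorElement_def]
      exact mul_mem (hnorm (Subgroup.mem_map_of_mem _ hd)) (inv_mem hd)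
    have : Fact (Nat.Prime 2) := ⟨Nat.prime_two⟩
    have h1 := eq_one_of_rankOne_sylow (p := 2) hs hc
      (orderOf_two_blk c h2 (Nat.add_le_add_right i.isLt 1)) hmem (comm_mem_ker hij) (k := e) (by
        rw [← he]
        exact comm_pow_eq_one hc hij (by rw [hb]; exact tGen_pow_orderOf c hω j))
    refine (commutatorElement_eq_one_iff_commute.1 ?_).symm
    rw [comm_eq_of_map_eq hc rfl hde.symm]
    exact h1
  · obtain ⟨d, hd, hde⟩ := hsplit (Blk c (k + 1) i 2) a (by rw [ha]; exact (hder i).2)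
    obtain ⟨δ, hδ⟩ := isDiag_of_mem c hω hb
    have heq : δ ((i : ℕ) + 1) = δ i :=
      hδ.of_commute_wE c (show (i : ℕ) + 2 ≤ k + 1 by omega) (by rw [ha] at hab; exact hab)
    have key : ∀ g ∈ Blk c (k + 1) (i : ℕ) 2, ∀ g' ∈ Subgroup.zpowers (σ b), Commute g g' := by
      intro g hg g' hg'
      obtain ⟨n, rfl⟩ := hg'
      refine ((hδ.commute_Blk c (show (i : ℕ) + 2 ≤ k + 1 by omega) (fun l h1 h2 => ?_) hg).symm).zpow_right n
      rcases (show l = i ∨ l = i + 1 by omega) with rfl | rfl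
      · rfl
      · exact heq
    have h1 := comm_DP hc key hd (Subgroup.mem_zpowers (σ b))
    rw [← commutatorElement_eq_one_iff_commute, comm_eq_of_map_eq hc hde.symm rfl,
      commutatorElement_eq_one_iff_commute]
    exact h1

end CfsgLib.SUMult
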